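import Mathlib

/-! Tits' argument for sharply four-transitive groups. -/

namespace Cfsg.Agent.H37.Tits

variable {G : Type*} [Group G] {Ω : Type*} [MulAction G Ω]

/-- An element fixing four distinct points is trivial. -/
theorem eq_one_of_four_fixed (hsharp : ∀ x : Fin 4 ↪ Ω, MulAction.stabilizer G x = ⊥) {g : G}
    {a b c d : Ω} (hab : a ≠ b) (hac : a ≠ c) (had : a ≠ d) (hbc : b ≠ c) (hbd : b ≠ d) (hcd : c ≠ d)
    (ha : g • a = a) (hb : g • b = b) (hc : g • c = c) (hd : g • d = d) : g = 1 := by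
  have hinj : Function.Injective ![a, b, c, d] := by
    intro i j hij
    fin_cases i <;> fin_cases j <;> simp_all
  have hmem : g ∈ MulAction.stabilizer G (⟨![a, b, c, d], hinj⟩ : Fin 4 ↪ Ω) := by
    rw [MulAction.mem_stabilizer_iff]
    ext i
    fin_cases i
    · exact ha
    · exact hb
    · exact hc
    · exact hd
  rwa [hsharp, Subgroup.mem_bot] at hmem

/-- Two elements agreeing on four distinct points are equal. -/
theorem eq_of_four_agree (hsharp : ∀ x : Fin 4 ↪ Ω, MulAction.stabilizer G x = ⊥) {g h : G}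
    {a b c d : Ω} (hab : a ≠ b) (hac : a ≠ c) (had : a ≠ d) (hbc : b ≠ c) (hbd : b ≠ d) (hcd : c ≠ d)
    (ha : g • a = h • a) (hb : g • b = h • b) (hc : g • c = h • c) (hd : g • d = h • d) : g = h := by
  rw [← inv_mul_eq_one (a := g) (b := h)]
  exact eq_one_of_four_fixed hsharp hab hac had hbc hbd hcd
    (by rw [mul_smul, inv_smul_eq_iff, ha]) (by rw [mul_smul, inv_smul_eq_iff, hb])
    (by rw [mul_smul, inv_smul_eq_iff, hc]) (by rw [mul_smul, inv_smul_eq_iff, hd])

/-- Four-transitivity for explicit tuples. -/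
theorem exists_map_four (h4 : MulAction.IsMultiplyPretransitive G Ω 4)
    {a b c d a' b' c' d' : Ω} (hab : a ≠ b) (hac : a ≠ c) (had : a ≠ d) (hbc : b ≠ c) (hbd : b ≠ d) (hcd : c ≠ d)
    (hab' : a' ≠ b') (hac' : a' ≠ c') (had' : a' ≠ d') (hbc' : b' ≠ c') (hbd' : b' ≠ d') (hcd' : c' ≠ d') :
    ∃ g : G, g • a = a' ∧ g • b = b' ∧ g • c = c' ∧ g • d = d' := by
  have hinj : Function.Injective ![a, b, c, d] := by
    intro i j hij
    fin_cases i <;> fin_cases j <;> simp_all
  have hinj' : Function.Injective ![a', b', c', d'] := by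
    intro i j hij
    fin_cases i <;> fin_cases j <;> simp_all
  obtain ⟨g, hg⟩ := MulAction.exists_smul_eq G (⟨_, hinj⟩ : Fin 4 ↪ Ω) ⟨_, hinj'⟩
  exact ⟨g, DFunLike.congr_fun hg 0, DFunLike.congr_fun hg 1, DFunLike.congr_fun hg 2, DFunLike.congr_fun hg 3⟩

/-- A sharply four-transitive group does not have degree ten. -/
theorem card_ne_ten [Finite Ω] (h4 : MulAction.IsMultiplyPretransitive G Ω 4)
    (hsharp : ∀ x : Fin 4 ↪ Ω, MulAction.stabilizer G x = ⊥) : Nat.card Ω ≠ 10 := by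
  intro h10
  classical
  obtain ⟨A, -, hA⟩ := Set.exists_subset_card_eq (s := (Set.univ : Set Ω)) (n := 3) (by rw [Set.ncard_univ, h10]; norm_num)
  obtain ⟨a, b, c, hab, hac, hbc, rfl⟩ := Set.ncard_eq_three.1 hA
  obtain ⟨z, hz⟩ : ∃ z, z ∉ ({a, b, c} : Set Ω) := by
    by_contra h
    push Not at h
    rw [Set.eq_univ_of_forall h, Set.ncard_univ, h10] at hA
    omega
  simp only [Set.mem_insert_iff, Set.mem_singleton_iff, not_or] at hz
  obtain ⟨hza, hzb, hzc⟩ := hz
  let P : Subgroup G := MulAction.stabilizer G a ⊓ MulAction.stabilizer G b ⊓ MulAction.stabilizer G c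
  have hP : ∀ g : G, g ∈ P ↔ g • a = a ∧ g • b = b ∧ g • c = c := fun g => by
    simp [P, Subgroup.mem_inf, and_assoc]
  have hPinj : ∀ g h : G, g ∈ P → h ∈ P → g • z = h • z → g = h := fun g h hg hh e =>
    eq_of_four_agree hsharp hab hac (Ne.symm hza) hbc (Ne.symm hzb) (Ne.symm hzc)
      (((hP g).1 hg).1.trans ((hP h).1 hh).1.symm) (((hP g).1 hg).2.1.trans ((hP h).1 hh).2.1.symm)
      (((hP g).1 hg).2.2.trans ((hP h).1 hh).2.2.symm) e
  have hbij : Function.Bijective (fun g : P => (⟨(g : G) • z, by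
      simp only [Set.mem_compl_iff, Set.mem_insert_iff, Set.mem_singleton_iff, not_or]
      obtain ⟨e1, e2, e3⟩ := (hP g).1 g.2
      exact ⟨fun e => hza (smul_left_cancel _ (e.trans e1.symm)), fun e => hzb (smul_left_cancel _ (e.trans e2.symm)),
        fun e => hzc (smul_left_cancel _ (e.trans e3.symm))⟩⟩ : (({a, b, c} : Set Ω)ᶜ : Set Ω))) := by
    refine ⟨fun g h e => Subtype.ext (hPinj _ _ g.2 h.2 (congrArg Subtype.val e)), fun y => ?_⟩
    obtain ⟨y, hy⟩ := y
    simp only [Set.mem_compl_iff, Set.mem_insert_iff, Set.mem_singleton_iff, not_or] at hy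
    obtain ⟨g, g1, g2, g3, g4⟩ := exists_map_four h4 hab hac (Ne.symm hza) hbc (Ne.symm hzb) (Ne.symm hzc)
      hab hac (Ne.symm hy.1) hbc (Ne.symm hy.2.1) (Ne.symm hy.2.2)
    exact ⟨⟨g, (hP g).2 ⟨g1, g2, g3⟩⟩, Subtype.ext g4⟩
  have hcard : Nat.card P = 7 := by
    rw [Nat.card_congr (Equiv.ofBijective _ hbij), Nat.card_coe_set_eq, Set.ncard_compl, hA, h10]
  haveI : Finite P := Nat.finite_of_card_ne_zero (by omega)
  haveI : Fact (Nat.Prime 7) := ⟨by norm_num⟩
  haveI hcyc : IsCyclic P := isCyclic_of_prime_card hcard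
  obtain ⟨p₀, hp₀⟩ := hcyc.exists_generator
  obtain ⟨σ, σa, σb, σc, σz⟩ := exists_map_four h4 hab hac (Ne.symm hza) hbc (Ne.symm hzb) (Ne.symm hzc)
    hab.symm hbc (Ne.symm hzb) hac (Ne.symm hza) (Ne.symm hzc)
  obtain ⟨τ, τa, τb, τc, τz⟩ := exists_map_four h4 hab hac (Ne.symm hza) hbc (Ne.symm hzb) (Ne.symm hzc)
    hac hab (Ne.symm hza) hbc.symm (Ne.symm hzc) (Ne.symm hzb)
  have hinv : ∀ (g : G) (x y : Ω), g • x = y → g⁻¹ • y = x := fun g x y h => inv_smul_eq_iff.2 h.symm
  have hσP : ∀ g ∈ P, σ * g * σ⁻¹ ∈ P := by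
    intro g hg
    obtain ⟨e1, e2, e3⟩ := (hP g).1 hg
    exact (hP _).2 ⟨by rw [mul_smul, mul_smul, hinv σ b a σb, e2, σb], by rw [mul_smul, mul_smul, hinv σ a b σa, e1, σa],
      by rw [mul_smul, mul_smul, hinv σ c c σc, e3, σc]⟩
  have hτP : ∀ g ∈ P, τ * g * τ⁻¹ ∈ P := by
    intro g hg
    obtain ⟨e1, e2, e3⟩ := (hP g).1 hg
    exact (hP _).2 ⟨by rw [mul_smul, mul_smul, hinv τ a a τa, e1, τa], by rw [mul_smul, mul_smul, hinv τ c b τc, e3, τc],
      by rw [mul_smul, mul_smul, hinv τ b c τb, e2, τb]⟩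
  obtain ⟨i, hi⟩ := Subgroup.mem_zpowers_iff.1 (hp₀ ⟨_, hσP _ p₀.2⟩)
  obtain ⟨j, hj⟩ := Subgroup.mem_zpowers_iff.1 (hp₀ ⟨_, hτP _ p₀.2⟩)
  replace hi : σ * p₀ * σ⁻¹ = (p₀ : G) ^ i := by simpa using (congrArg Subtype.val hi).symm
  replace hj : τ * p₀ * τ⁻¹ = (p₀ : G) ^ j := by simpa using (congrArg Subtype.val hj).symm
  have hz1 : ∀ n : ℤ, σ * (p₀ : G) ^ n * σ⁻¹ = (p₀ : G) ^ (i * n) := fun n => by rw [← conj_zpow, hi, ← zpow_mul]
  have hz2 : ∀ n : ℤ, τ * (p₀ : G) ^ n * τ⁻¹ = (p₀ : G) ^ (j * n) := fun n => by rw [← conj_zpow, hj, ← zpow_mul]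
  have e : (σ * τ) * p₀ * (σ * τ)⁻¹ = (τ * σ) * p₀ * (τ * σ)⁻¹ := by
    calc (σ * τ) * p₀ * (σ * τ)⁻¹ = σ * (τ * p₀ * τ⁻¹) * σ⁻¹ := by group
      _ = (p₀ : G) ^ (i * j) := by rw [hj, hz1]
      _ = (p₀ : G) ^ (j * i) := by rw [mul_comm]
      _ = τ * (σ * p₀ * σ⁻¹) * τ⁻¹ := by rw [hi, hz2]
      _ = (τ * σ) * p₀ * (τ * σ)⁻¹ := by group
  set k := σ⁻¹ * τ⁻¹ * σ * τ with hk
  have hcomm : Commute k (p₀ : G) := by
    show k * p₀ = p₀ * k
    calc k * p₀ = (τ * σ)⁻¹ * ((σ * τ) * p₀ * (σ * τ)⁻¹) * (σ * τ) := by rw [hk]; group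
      _ = p₀ * k := by rw [e, hk]; group
  have hka : k • a = c := by
    rw [hk, mul_smul, mul_smul, mul_smul, τa, σa, hinv τ c b τc, hinv σ c c σc]
  have hkb : k • b = a := by
    rw [hk, mul_smul, mul_smul, mul_smul, τb, σc, hinv τ b c τb, hinv σ a b σa]
  have hkc : k • c = b := by
    rw [hk, mul_smul, mul_smul, mul_smul, τc, σb, hinv τ a a τa, hinv σ b a σb]
  have hkz : k • z ∈ (({a, b, c} : Set Ω)ᶜ : Set Ω) := by
    simp only [Set.mem_compl_iff, Set.mem_insert_iff, Set.mem_singleton_iff, not_or]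
    exact ⟨fun e => hzb (smul_left_cancel _ (e.trans hkb.symm)), fun e => hzc (smul_left_cancel _ (e.trans hkc.symm)),
      fun e => hza (smul_left_cancel _ (e.trans hka.symm))⟩
  obtain ⟨p, hp⟩ := hbij.2 ⟨_, hkz⟩
  replace hp : (p : G) • z = k • z := congrArg Subtype.val hp
  have hcommP : ∀ q ∈ P, Commute k q := by
    intro q hq
    obtain ⟨n, hn⟩ := Subgroup.mem_zpowers_iff.1 (hp₀ ⟨q, hq⟩)
    have hn' : (p₀ : G) ^ n = q := by simpa using congrArg Subtype.val hn
    exact hn' ▸ hcomm.zpow_right n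
  have hpq : ∀ q ∈ P, Commute (p : G) q := fun q hq =>
    congrArg Subtype.val (hcyc.commutative.is_comm.comm p ⟨q, hq⟩)
  have hpk : ∀ y ∈ (({a, b, c} : Set Ω)ᶜ : Set Ω), (p : G) • y = k • y := by
    intro y hy
    obtain ⟨q, hq⟩ := hbij.2 ⟨y, hy⟩
    replace hq : (q : G) • z = y := congrArg Subtype.val hq
    rw [← hq, ← mul_smul, (hpq q q.2).eq, mul_smul, hp, ← mul_smul, ← (hcommP q q.2).eq, mul_smul]
  obtain ⟨W, hWs, hW⟩ := Set.exists_subset_card_eq (s := (({a, b, c} : Set Ω)ᶜ : Set Ω)) (n := 4)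
    (by rw [Set.ncard_compl, hA, h10]; norm_num)
  obtain ⟨w1, w2, w3, w4, n12, n13, n14, n23, n24, n34, rfl⟩ := Set.ncard_eq_four.1 hW
  have := eq_of_four_agree hsharp n12 n13 n14 n23 n24 n34 (hpk w1 (hWs (by simp))) (hpk w2 (hWs (by simp)))
    (hpk w3 (hWs (by simp))) (hpk w4 (hWs (by simp)))
  have hpa := ((hP p).1 p.2).1
  rw [this, hka] at hpa
  exact hac hpa.symm

/-- Tits' bound. -/
theorem sharplyFour_card_cases (h4 : MulAction.IsMultiplyPretransitive G Ω 4)
    (hsharp : ∀ x : Fin 4 ↪ Ω, MulAction.stabilizer G x = ⊥) (hne : Nonempty (Fin 4 ↪ Ω)) :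
    Finite Ω ∧ (Nat.card Ω ≤ 7 ∨ Nat.card Ω = 10 ∨ Nat.card Ω = 11) := by
  classical
  obtain ⟨f⟩ := hne
  obtain ⟨q1, q2, q3, q4, n12, n13, n14, n23, n24, n34⟩ : ∃ a b c d : Ω, a ≠ b ∧ a ≠ c ∧ a ≠ d ∧ b ≠ c ∧ b ≠ d ∧ c ≠ d :=
    ⟨f 0, f 1, f 2, f 3, f.injective.ne (by decide), f.injective.ne (by decide), f.injective.ne (by decide),
      f.injective.ne (by decide), f.injective.ne (by decide), f.injective.ne (by decide)⟩
  have heq := @eq_of_four_agree G _ Ω _ hsharp
  obtain ⟨s, s1, s2, s3, s4⟩ := exists_map_four h4 n12 n13 n14 n23 n24 n34 n12 n14 n13 n24 n23 n34.symm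
  obtain ⟨t, t1, t2, t3, t4⟩ := exists_map_four h4 n12 n13 n14 n23 n24 n34 n12.symm n23 n24 n13 n14 n34
  obtain ⟨u, hu⟩ : ∃ u, u = s * t := ⟨_, rfl⟩
  have hss : s * s = 1 := eq_one_of_four_fixed hsharp n12 n13 n14 n23 n24 n34
    (by rw [mul_smul, s1, s1]) (by rw [mul_smul, s2, s2]) (by rw [mul_smul, s3, s4]) (by rw [mul_smul, s4, s3])
  have htt : t * t = 1 := eq_one_of_four_fixed hsharp n12 n13 n14 n23 n24 n34
    (by rw [mul_smul, t1, t2]) (by rw [mul_smul, t2, t1]) (by rw [mul_smul, t3, t3]) (by rw [mul_smul, t4, t4])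
  have hst : t * s = s * t := heq n12 n13 n14 n23 n24 n34
    (by rw [mul_smul, mul_smul, s1, t1, s2]) (by rw [mul_smul, mul_smul, s2, t2, s1])
    (by rw [mul_smul, mul_smul, s3, t3, t4, s3]) (by rw [mul_smul, mul_smul, s4, t4, t3, s4])
  have ss : ∀ y : Ω, s • (s • y) = y := fun y => by rw [← mul_smul, hss, one_smul]
  have tt : ∀ y : Ω, t • (t • y) = y := fun y => by rw [← mul_smul, htt, one_smul]
  have ts : ∀ y : Ω, t • (s • y) = s • (t • y) := fun y => by rw [← mul_smul, hst, mul_smul]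
  have uu : ∀ y : Ω, u • y = s • (t • y) := fun y => by rw [hu, mul_smul]
  let F : G → Set Ω := fun g => {y | g • y = y}
  have hF3 : ∀ g : G, g ≠ 1 → ∀ a b c d : Ω, a ∈ F g → b ∈ F g → c ∈ F g → d ∈ F g →
      a ≠ b → a ≠ c → b ≠ c → d = a ∨ d = b ∨ d = c := by
    intro g hg a b c d ha hb hc hd hab hac hbc
    by_contra h
    push Not at h
    exact hg (eq_one_of_four_fixed hsharp hab hac h.1.symm hbc h.2.1.symm h.2.2.symm ha hb hc hd)
  have hs1' : s ≠ 1 := fun e => n34 (by rw [← s4, e, one_smul])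
  have ht1' : t ≠ 1 := fun e => n12 (by rw [← t2, e, one_smul])
  have hu1' : u ≠ 1 := fun e => n12 (by rw [← s1, ← t2, ← uu, e, one_smul])
  have hFfin : ∀ g : G, g ≠ 1 → (F g).Finite ∧ (F g).ncard ≤ 3 := by
    intro g hg
    by_contra h
    have h4' : ∃ T : Set Ω, T ⊆ F g ∧ T.ncard = 4 := by
      by_cases hfin : (F g).Finite
      · exact Set.exists_subset_card_eq (by have := Nat.lt_of_not_le (fun hh => h ⟨hfin, hh⟩); omega)
      · obtain ⟨T, hT, hTc⟩ := Set.Infinite.exists_subset_card_eq hfin 4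
        exact ⟨T, hT, by rw [Set.ncard_coe_finset, hTc]⟩
    obtain ⟨T, hT, hTc⟩ := h4'
    obtain ⟨a, b, c, d, h1, h2, h3, h4, h5, h6, rfl⟩ := Set.ncard_eq_four.1 hTc
    exact hg (eq_one_of_four_fixed hsharp h1 h2 h3 h4 h5 h6 (hT (by simp)) (hT (by simp)) (hT (by simp)) (hT (by simp)))
  have hs12 : ∀ y ∈ F s, y ≠ q1 → y ≠ q2 → t • y = y := by
    intro y hy h1 h2
    have hy' : t • y ∈ F s := by show s • (t • y) = t • y; rw [← ts, show s • y = y from hy]
    rcases hF3 s hs1' q1 q2 y (t • y) s1 s2 hy hy' n12 h1.symm h2.symm with h | h | h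
    · exact absurd (show y = q2 by rw [← tt y, h, t1]) h2
    · exact absurd (show y = q1 by rw [← tt y, h, t2]) h1
    · exact h
  have ht34 : ∀ y ∈ F t, y ≠ q3 → y ≠ q4 → s • y = y := by
    intro y hy h1 h2
    have hy' : s • y ∈ F t := by show t • (s • y) = s • y; rw [ts, show t • y = y from hy]
    rcases hF3 t ht1' q3 q4 y (s • y) t3 t4 hy hy' n34 h1.symm h2.symm with h | h | h
    · exact absurd (show y = q4 by rw [← ss y, h, s3]) h2
    · exact absurd (show y = q3 by rw [← ss y, h, s4]) h1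
    · exact h
  set Φ := F s ∪ F t ∪ F u with hΦ
  have hΦfin : Φ.Finite := ((hFfin s hs1').1.union (hFfin t ht1').1).union (hFfin u hu1').1
  have husub : ∀ y ∈ F u, s • y ∈ F u := by
    intro y hy
    show u • (s • y) = s • y
    rw [uu, ts, ← uu y, show u • y = y from hy]
  have hcent : ∀ d : G, d * s = s * d → d * t = t * d → d = 1 ∨ d = s ∨ d = t ∨ d = u := by
    intro d hds hdt
    have ds : ∀ y : Ω, d • (s • y) = s • (d • y) := fun y => by rw [← mul_smul, hds, mul_smul]
    have dt : ∀ y : Ω, d • (t • y) = t • (d • y) := fun y => by rw [← mul_smul, hdt, mul_smul]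
    have d12 : d • q1 = q1 ∨ d • q1 = q2 := by
      by_contra h
      push Not at h
      have h' := hs12 (d • q1) (show s • (d • q1) = d • q1 by rw [← ds, s1]) h.1 h.2
      rw [← dt, t1] at h'
      exact n12 (smul_left_cancel d h').symm
    have d34 : d • q3 = q3 ∨ d • q3 = q4 := by
      by_contra h
      push Not at h
      have h' := ht34 (d • q3) (show t • (d • q3) = d • q3 by rw [← dt, t3]) h.1 h.2
      rw [← ds, s3] at h'
      exact n34 (smul_left_cancel d h').symm
    have e2 : d • q2 = t • (d • q1) := by rw [← dt, t1]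
    have e4 : d • q4 = s • (d • q3) := by rw [← ds, s3]
    rcases d12 with h1 | h1 <;> rcases d34 with h3 | h3
    · left
      refine heq n12 n13 n14 n23 n24 n34 ?_ ?_ ?_ ?_
      · rw [h1, one_smul]
      · rw [e2, h1, t1, one_smul]
      · rw [h3, one_smul]
      · rw [e4, h3, s3, one_smul]
    · right; left
      refine heq n12 n13 n14 n23 n24 n34 ?_ ?_ ?_ ?_
      · rw [h1, s1]
      · rw [e2, h1, t1, s2]
      · rw [h3, s3]
      · rw [e4, h3, s4]
    · right; right; left
      refine heq n12 n13 n14 n23 n24 n34 ?_ ?_ ?_ ?_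
      · rw [h1, t1]
      · rw [e2, h1, t2]
      · rw [h3, t3]
      · rw [e4, h3, s3, t4]
    · right; right; right
      refine heq n12 n13 n14 n23 n24 n34 ?_ ?_ ?_ ?_
      · rw [h1, uu, t1, s2]
      · rw [e2, h1, t2, uu, t2, s1]
      · rw [h3, uu, t3, s3]
      · rw [e4, h3, uu, t4]
  have hreg : ∀ y, y ∉ Φ → y ≠ s • y ∧ y ≠ t • y ∧ y ≠ u • y ∧ s • y ≠ t • y ∧ s • y ≠ u • y ∧ t • y ≠ u • y := by
    intro y hy
    simp only [hΦ, Set.mem_union, F, Set.mem_ofPred_eq, not_or] at hy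
    obtain ⟨⟨h1, h2⟩, h3⟩ := hy
    refine ⟨Ne.symm h1, Ne.symm h2, Ne.symm h3, fun e => h3 ?_, fun e => h2 ?_, fun e => h1 ?_⟩
    · rw [uu, ← e, ss]
    · rw [uu] at e; exact (smul_left_cancel s e).symm
    · rw [uu, ← ts] at e; exact (smul_left_cancel t e).symm
  by_cases hall : ∀ y, y ∈ Φ
  · haveI : Finite Ω := Set.finite_univ_iff.1 (hΦfin.subset fun y _ => hall y)
    have hn : Nat.card Ω = Φ.ncard := by rw [Set.eq_univ_of_forall hall, Set.ncard_univ]
    have hle : Nat.card Ω ≤ 7 := by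
      by_cases he : ∃ e, e ∈ F s ∧ e ≠ q1 ∧ e ≠ q2
      · obtain ⟨e, hes, he1, he2⟩ := he
        have het : e ∈ F t := hs12 e hes he1 he2
        have heu : e ∈ F u := by show u • e = e; rw [uu, show t • e = e from het, show s • e = e from hes]
        have hsub : Φ ⊆ ({q1, q2} : Set Ω) ∪ {q3, q4} ∪ F u := by
          rintro y ((hy | hy) | hy)
          · by_cases h1 : y = q1
            · simp [h1]
            by_cases h2 : y = q2
            · simp [h2]
            rcases hF3 s hs1' q1 q2 e y s1 s2 hes hy n12 he1.symm he2.symm with h | h | h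
            · exact absurd h h1
            · exact absurd h h2
            · exact Or.inr (h ▸ heu)
          · by_cases h1 : y = q3
            · simp [h1]
            by_cases h2 : y = q4
            · simp [h2]
            have hys := ht34 y hy h1 h2
            exact Or.inr (by show u • y = y; rw [uu, show t • y = y from hy, hys])
          · exact Or.inr hy
        rw [hn]
        refine (Set.ncard_le_ncard hsub (by exact ((Set.toFinite _).union (Set.toFinite _)).union (hFfin u hu1').1)).trans ?_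
        refine (Set.ncard_union_le _ _).trans ?_
        have := Set.ncard_union_le ({q1, q2} : Set Ω) {q3, q4}
        rw [Set.ncard_pair n12, Set.ncard_pair n34] at this
        have := (hFfin u hu1').2
        omega
      · push Not at he
        have hsub : Φ ⊆ ({q1, q2} : Set Ω) ∪ {q3, q4} ∪ F u := by
          rintro y ((hy | hy) | hy)
          · by_cases h1 : y = q1
            · simp [h1]
            simp [he y hy h1]
          · by_cases h1 : y = q3
            · simp [h1]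
            by_cases h2 : y = q4
            · simp [h2]
            have hys := ht34 y hy h1 h2
            exact Or.inr (by show u • y = y; rw [uu, show t • y = y from hy, hys])
          · exact Or.inr hy
        rw [hn]
        refine (Set.ncard_le_ncard hsub (by exact ((Set.toFinite _).union (Set.toFinite _)).union (hFfin u hu1').1)).trans ?_
        refine (Set.ncard_union_le _ _).trans ?_
        have := Set.ncard_union_le ({q1, q2} : Set Ω) {q3, q4}
        rw [Set.ncard_pair n12, Set.ncard_pair n34] at this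
        have := (hFfin u hu1').2
        omega
    exact ⟨inferInstance, Or.inl hle⟩
  push Not at hall
  obtain ⟨a, ha⟩ := hall
  obtain ⟨a1, a2, a3, a4, a5, a6⟩ := hreg a ha
  have hout : ∀ y, y ∉ Φ → y = a ∨ y = s • a ∨ y = t • a ∨ y = u • a := by
    intro y hy
    obtain ⟨b1, b2, b3, b4, b5, b6⟩ := hreg y hy
    obtain ⟨d, d1, d2, d3, d4⟩ := exists_map_four h4 a1 a2 a3 a4 a5 a6 b1 b2 b3 b4 b5 b6
    have hds : d * s = s * d := heq a1 a2 a3 a4 a5 a6
      (by rw [mul_smul, mul_smul, d1, d2]) (by rw [mul_smul, mul_smul, ss, d2, ss, d1])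
      (by rw [mul_smul, mul_smul, ← uu a, d4, d3, uu]) (by rw [mul_smul, mul_smul, d4, uu, uu, ss, ss, d3])
    have hdt : d * t = t * d := heq a1 a2 a3 a4 a5 a6
      (by rw [mul_smul, mul_smul, d1, d3]) (by rw [mul_smul, mul_smul, d2, ts a, ← uu a, d4, ts, uu])
      (by rw [mul_smul, mul_smul, tt, d3, tt, d1]) (by rw [mul_smul, mul_smul, d4, uu a, ts (t • a), tt, d2, uu y, ts (t • y), tt])
    rcases hcent d hds hdt with rfl | rfl | rfl | rfl
    · left; rw [← d1, one_smul]
    · right; left; rw [← d1]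
    · right; right; left; rw [← d1]
    · right; right; right; rw [← d1]
  set O : Set Ω := {a, s • a, t • a, u • a} with hO
  have hOc : O.ncard = 4 := by
    rw [hO, Set.ncard_insert_of_notMem (by simp [a1, a2, a3]), Set.ncard_insert_of_notMem (by simp [a4, a5]),
      Set.ncard_pair a6]
  have hOdisj : ∀ y ∈ O, y ∉ Φ := by
    have hinv : ∀ g : G, g * s = s * g → g * t = t * g → ∀ y, g • y ∈ Φ → y ∈ Φ := by
      intro g hgs hgt y hy
      rcases hy with (hy | hy) | hy
      · refine Or.inl (Or.inl (smul_left_cancel g ?_))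
        rw [← mul_smul, hgs, mul_smul]; exact hy
      · refine Or.inl (Or.inr (smul_left_cancel g ?_))
        rw [← mul_smul, hgt, mul_smul]; exact hy
      · refine Or.inr (smul_left_cancel g ?_)
        rw [← mul_smul, show g * u = u * g by rw [hu, ← mul_assoc, hgs, mul_assoc, hgt, mul_assoc], mul_smul]; exact hy
    rintro y (rfl | rfl | rfl | rfl)
    · exact ha
    · exact fun h => ha (hinv s rfl hst.symm a h)
    · exact fun h => ha (hinv t hst rfl a h)
    · exact fun h => ha (hinv u (by rw [hu, mul_assoc, hst]) (by rw [hu, ← mul_assoc t s t, hst]) a h)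
  have huniv : (Set.univ : Set Ω) = O ∪ Φ := by
    refine (Set.eq_univ_of_forall fun y => ?_).symm
    by_cases hy : y ∈ Φ
    · exact Or.inr hy
    · left; simpa [hO] using hout y hy
  haveI : Finite Ω := Set.finite_univ_iff.1 (huniv ▸ (Set.toFinite O).union hΦfin)
  have hn : Nat.card Ω = 4 + Φ.ncard := by
    rw [← Set.ncard_univ, huniv, Set.ncard_union_eq (Set.disjoint_left.2 hOdisj), hOc]
  obtain ⟨γ, g1, g2, g3, g4⟩ := exists_map_four h4 a1 a2 a3 a4 a5 a6 a2 a3 a1 a6 a4.symm a5.symm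
  have hγs : γ * s = t * γ := heq a1 a2 a3 a4 a5 a6
    (by rw [mul_smul, mul_smul, g1, g2]) (by rw [mul_smul, mul_smul, ss, g2, tt, g1])
    (by rw [mul_smul, mul_smul, ← uu a, g4, g3, uu a, ts (t • a), tt])
    (by rw [mul_smul, mul_smul, g4, uu a, ss, g3, ts a, ← uu a])
  have hγt : γ * t = u * γ := heq a1 a2 a3 a4 a5 a6
    (by rw [mul_smul, mul_smul, g1, g3]) (by rw [mul_smul, mul_smul, g2, ts a, ← uu a, g4, uu, tt])
    (by rw [mul_smul, mul_smul, tt, g1, g3, uu, uu a, ts (t • a), tt, ss])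
    (by rw [mul_smul, mul_smul, uu a, ts (t • a), tt, g2, ← uu a, g4, uu (s • a), ts, ss])
  have hFimg : ∀ g h : G, γ * g = h * γ → F h = (fun y => γ • y) '' F g := by
    intro g h e
    ext y
    constructor
    · intro hy
      refine ⟨γ⁻¹ • y, ?_, smul_inv_smul γ y⟩
      show g • γ⁻¹ • y = γ⁻¹ • y
      rw [eq_inv_smul_iff, ← mul_smul, e, mul_smul, smul_inv_smul]
      exact hy
    · rintro ⟨x, hx, rfl⟩
      show h • γ • x = γ • x
      rw [← mul_smul, ← e, mul_smul, show g • x = x from hx]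
  have hct : (F t).ncard = (F s).ncard := by
    rw [hFimg s t hγs, Set.ncard_image_of_injective _ (MulAction.injective γ)]
  have hcu : (F u).ncard = (F t).ncard := by
    rw [hFimg t u hγt, Set.ncard_image_of_injective _ (MulAction.injective γ)]
  have hfs := (hFfin s hs1').1
  have hft := (hFfin t ht1').1
  have hfu := (hFfin u hu1').1
  by_cases he : ∃ e, e ∈ F s ∧ e ≠ q1 ∧ e ≠ q2
  · obtain ⟨e, hes, he1, he2⟩ := he
    have het : e ∈ F t := hs12 e hes he1 he2
    have heu : e ∈ F u := by show u • e = e; rw [uu, show t • e = e from het, show s • e = e from hes]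
    have hs3 : F s = {q1, q2, e} := by
      refine Set.Subset.antisymm (fun y hy => ?_) (by rintro y (rfl | rfl | rfl) <;> assumption)
      simpa using hF3 s hs1' q1 q2 e y s1 s2 hes hy n12 he1.symm he2.symm
    have hsc : (F s).ncard = 3 := Set.ncard_eq_three.2 ⟨q1, q2, e, n12, he1.symm, he2.symm, hs3⟩
    have hint1 : ∀ y, y ∈ F s → y ∈ F t → y = e := by
      intro y h1 h2
      rw [hs3] at h1
      rcases h1 with rfl | rfl | rfl
      · exact absurd (t1.symm.trans h2) n12.symm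
      · exact absurd (t2.symm.trans h2) n12
      · rfl
    have hint2 : ∀ y, y ∈ F u → y ∈ F s → y = e := fun y h1 h2 => hint1 y h2 (by
      show t • y = y
      have h1' : u • y = y := h1
      rw [uu, ← ts, show s • y = y from h2] at h1'
      exact h1')
    have hint3 : ∀ y, y ∈ F u → y ∈ F t → y = e := fun y h1 h2 => hint1 y (by
      show s • y = y
      have h1' : u • y = y := h1
      rwa [uu, show t • y = y from h2] at h1') h2
    have hΦeq : Φ = F s ∪ (F t \ {e}) ∪ (F u \ {e}) := by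
      ext y
      by_cases hy : y = e
      · subst hy; simp [hΦ, hes]
      · simp [hΦ, hy]
    have hc : Φ.ncard = 7 := by
      rw [hΦeq, Set.ncard_union_eq ?_ (hfs.union hft.sdiff) hfu.sdiff, Set.ncard_union_eq ?_ hfs hft.sdiff,
        Set.ncard_sdiff_singleton_of_mem het, Set.ncard_sdiff_singleton_of_mem heu, hcu, hct, hsc]
      · exact Set.disjoint_left.2 fun y h1 h2 => h2.2 (hint1 y h1 h2.1)
      · refine Set.disjoint_left.2 fun y h1 h2 => h2.2 ?_
        rcases h1 with h1 | h1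
        · exact hint2 y h2.1 h1
        · exact hint3 y h2.1 h1.1
    exact ⟨inferInstance, Or.inr (Or.inr (by omega))⟩
  · push Not at he
    have hs2' : F s = {q1, q2} := by
      refine Set.Subset.antisymm (fun y hy => ?_) (by rintro y (rfl | rfl) <;> assumption)
      by_cases h1 : y = q1
      · exact Or.inl h1
      · exact Or.inr (he y hy h1)
    have hsc : (F s).ncard = 2 := by rw [hs2', Set.ncard_pair n12]
    have hint1 : ∀ y, y ∈ F s → y ∉ F t := by
      intro y h1 h2
      rw [hs2'] at h1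
      rcases h1 with rfl | rfl
      · exact n12 (t1.symm.trans h2).symm
      · exact n12 (t2.symm.trans h2)
    have hc : Φ.ncard = 6 := by
      rw [hΦ, Set.ncard_union_eq ?_ (hfs.union hft) hfu, Set.ncard_union_eq ?_ hfs hft, hcu, hct, hsc]
      · exact Set.disjoint_left.2 hint1
      · refine Set.disjoint_left.2 fun y h1 h2 => ?_
        have h2' : u • y = y := h2
        rcases h1 with h1 | h1
        · refine hint1 y h1 ?_
          rw [uu, ← ts, show s • y = y from h1] at h2'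
          exact h2'
        · refine hint1 y ?_ h1
          rw [uu, show t • y = y from h1] at h2'
          exact h2'
    exact ⟨inferInstance, Or.inr (Or.inl (by omega))⟩

/-- A sharply four-transitive group has degree at most seven or exactly eleven. -/
theorem sharplyFour_card (h4 : MulAction.IsMultiplyPretransitive G Ω 4)
    (hsharp : ∀ x : Fin 4 ↪ Ω, MulAction.stabilizer G x = ⊥) (hne : Nonempty (Fin 4 ↪ Ω)) :
    Finite Ω ∧ (Nat.card Ω ≤ 7 ∨ Nat.card Ω = 11) := by
  obtain ⟨hfin, h⟩ := sharplyFour_card_cases h4 hsharp hne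
  have := card_ne_ten h4 hsharp
  exact ⟨hfin, by omega⟩

end Cfsg.Agent.H37.Tits
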