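import Mathlib

/-! Criteria for multiple transitivity by pointwise stabilisers. -/

namespace Cfsg.Agent.H37

open MulAction

/-- If the pointwise stabiliser of every `(k-1)`-set is transitive on the other points and `k < n`, the action is `k`-transitive. -/
theorem isMultiplyPretransitive_of_fixing_transitive {G α : Type*} [Group G] [MulAction G α]
    [Fintype α] [DecidableEq α] {k : ℕ} (hkn : k < Fintype.card α)
    (h : ∀ t : Finset α, t.card + 1 = k → ∀ a b : α, a ∉ t → b ∉ t →
      ∃ g : G, (∀ x ∈ t, g • x = x) ∧ g • a = b) :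
    MulAction.IsMultiplyPretransitive G α k := by
  classical
  suffices H : ∀ j, j ≤ k → MulAction.IsMultiplyPretransitive G α j from H k le_rfl
  intro j
  induction j with
  | zero => intro _; exact MulAction.is_zero_pretransitive
  | succ j ih =>
    intro hj
    have ihj := ih (by omega)
    rw [MulAction.isMultiplyPretransitive_iff]
    intro x y
    let x' : Fin j ↪ α := (Fin.castSuccEmb).trans x
    let y' : Fin j ↪ α := (Fin.castSuccEmb).trans y
    obtain ⟨g, hg⟩ := MulAction.exists_smul_eq G x' y'
    set a := g • x (Fin.last j) with ha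
    set b := y (Fin.last j) with hb
    set T := (Finset.univ.map y') with hT
    have hTc : T.card = j := by simp [hT]
    have haT : a ∉ T := by
      simp only [hT, Finset.mem_map, Finset.mem_univ, true_and, not_exists]
      intro i hi
      have h1 : g • x' i = y' i := by rw [← hg]; rfl
      rw [← h1, ha] at hi
      have := x.injective (smul_left_cancel g hi)
      exact (Fin.castSucc_lt_last i).ne this
    have hbT : b ∉ T := by
      simp only [hT, Finset.mem_map, Finset.mem_univ, true_and, not_exists]
      intro i hi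
      exact (Fin.castSucc_lt_last i).ne (y.injective hi)
    have hsub : T ⊆ ({a, b} : Finset α)ᶜ := by
      intro z hz
      simp only [Finset.mem_compl, Finset.mem_insert, Finset.mem_singleton, not_or]
      exact ⟨fun e => haT (e ▸ hz), fun e => hbT (e ▸ hz)⟩
    have hc : k - 1 ≤ (({a, b} : Finset α)ᶜ).card := by
      rw [Finset.card_compl]
      have : ({a, b} : Finset α).card ≤ 2 := Finset.card_le_two
      omega
    obtain ⟨t, hTt, hts, htc⟩ := Finset.exists_subsuperset_card_eq hsub (show T.card ≤ k - 1 by omega) hc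
    have hat : a ∉ t := fun e => by simpa using hts e
    have hbt : b ∉ t := fun e => by simpa using hts e
    obtain ⟨g', hg', hab⟩ := h t (by omega) a b hat hbt
    refine ⟨g' * g, ?_⟩
    ext i
    induction i using Fin.lastCases with
    | last => simp only [Function.Embedding.smul_apply, mul_smul]; exact hab
    | cast i =>
      simp only [Function.Embedding.smul_apply, mul_smul]
      have h1 : g • x' i = y' i := by rw [← hg]; rfl
      rw [show g • x (Fin.castSucc i) = y' i from h1]
      exact hg' _ (hTt (by simp [hT]))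

/-- A set invariant under a group all of whose orbits in it have size divisible by `r` has size divisible by `r`. -/
theorem dvd_ncard_of_orbits {G α : Type*} [Group G] [MulAction G α] [Finite α] {r : ℕ} (O : Set α)
    (hO : ∀ g : G, ∀ x ∈ O, g • x ∈ O) (hr : ∀ x ∈ O, r ∣ (MulAction.orbit G x).ncard) : r ∣ O.ncard := by
  classical
  have : Fintype α := Fintype.ofFinite α
  induction hn : O.ncard using Nat.strong_induction_on generalizing O with
  | _ n ih =>
    rcases O.eq_empty_or_nonempty with rfl | ⟨x, hx⟩
    · simp [← hn]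
    have hsub : MulAction.orbit G x ⊆ O := by rintro _ ⟨g, rfl⟩; exact hO g x hx
    have hadd := Set.ncard_sdiff_add_ncard_of_subset hsub
    rw [← hn, ← hadd]
    refine dvd_add (ih _ ?_ _ ?_ (fun y hy => hr y hy.1) rfl) (hr x hx)
    · rw [← hn, ← hadd]
      have : 0 < (MulAction.orbit G x).ncard := (Set.ncard_pos (Set.toFinite _)).2 ⟨x, MulAction.mem_orbit_self x⟩
      omega
    · rintro g y ⟨hy, hyn⟩
      refine ⟨hO g y hy, fun h => hyn ?_⟩
      simpa using MulAction.mem_orbit_of_mem_orbit g⁻¹ h

/-- Orbits outside `t` merge if each one-point larger stabiliser has all outside orbit lengths divisible by `r ≠ 1`. -/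
theorem exists_fix_smul_eq {G α : Type*} [Group G] [MulAction G α] [Finite α] {r : ℕ} (hr : r ≠ 1)
    (t : Set α)
    (h : ∀ c, c ∉ t → ∀ x, x ∉ t → x ≠ c → r ∣ (MulAction.orbit (fixingSubgroup G (insert c t)) x).ncard)
    {a b : α} (ha : a ∉ t) (hb : b ∉ t) : ∃ g : G, (∀ x ∈ t, g • x = x) ∧ g • a = b := by
  by_contra hne
  push Not at hne
  set O := MulAction.orbit (fixingSubgroup G t) a with hO
  have hfix : ∀ g : fixingSubgroup G t, ∀ x ∈ t, (g : G) • x = x := fun g x hx =>
    (mem_fixingSubgroup_iff G).1 g.2 x hx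
  have hbO : b ∉ O := by
    rintro ⟨g, hg⟩
    exact hne g (hfix g) hg
  have hOt : ∀ x ∈ O, x ∉ t := by
    rintro _ ⟨g, rfl⟩ hx
    have h2 : g • (g • a) = g • a := hfix g _ hx
    exact ha (smul_left_cancel g h2 ▸ hx)
  have hinv : ∀ c, ∀ g : fixingSubgroup G (insert c t), ∀ x ∈ O, g • x ∈ O := by
    intro c g x hx
    have hg : (g : G) ∈ fixingSubgroup G t := (mem_fixingSubgroup_iff G).2 fun y hy =>
      (mem_fixingSubgroup_iff G).1 g.2 y (Set.mem_insert_of_mem _ hy)
    exact MulAction.mem_orbit_of_mem_orbit (⟨g, hg⟩ : fixingSubgroup G t) hx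
  have haO : a ∈ O := MulAction.mem_orbit_self a
  have h1 : r ∣ O.ncard := dvd_ncard_of_orbits O (hinv b)
    (fun x hx => h b hb x (hOt x hx) (fun e => hbO (e ▸ hx)))
  have h2 : r ∣ (O \ {a}).ncard := by
    refine dvd_ncard_of_orbits (O \ {a}) ?_ (fun x hx => h a ha x (hOt x hx.1) hx.2)
    rintro g x ⟨hx, hxa⟩
    refine ⟨hinv a g x hx, fun e => hxa ?_⟩
    have hga : (g : G) • a = a := (mem_fixingSubgroup_iff G).1 g.2 a (Set.mem_insert _ _)
    exact smul_left_cancel (g : G) ((Set.mem_singleton_iff.1 e).trans hga.symm)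
  rw [← Set.ncard_sdiff_singleton_add_one haO (Set.toFinite _)] at h1
  exact hr (Nat.dvd_one.1 ((Nat.dvd_add_right h2).1 h1))

end Cfsg.Agent.H37
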