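import Cfsg.Agent.H37.Restrict
import Cfsg.Agent.S0743

/-! Witt–Gleason reduction of multiply transitive groups to fixed point sets of p-subgroups. -/

namespace Cfsg.Agent.H37

open MulAction

variable {α : Type*}

/-- A group inside the set stabiliser preserves the fixed set of a normalised subgroup. -/
theorem fixed_invariant {R : Subgroup (Equiv.Perm α)} {h : Equiv.Perm α}
    (hh : h ∈ Subgroup.normalizer (R : Set (Equiv.Perm α))) (x : α) :
    h x ∈ {x : α | ∀ r ∈ R, r x = x} ↔ x ∈ {x : α | ∀ r ∈ R, r x = x} := by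
  constructor
  · intro hx r hr
    have := hx (h * r * h⁻¹) ((Subgroup.mem_normalizer_iff.1 hh r).1 hr)
    simpa using this
  · intro hx r hr
    have h1 : h⁻¹ * r * h ∈ R := by
      rw [Subgroup.mem_normalizer_iff.1 hh]
      simpa [mul_assoc] using hr
    have := hx _ h1
    simp only [Equiv.Perm.mul_apply, Equiv.Perm.inv_def, Equiv.symm_apply_eq] at this
    exact this

/-- An element of prime order fixing more than `k` points gives a smaller `k`-transitive group on an invariant set. -/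
theorem exists_smaller_transitive [Fintype α] [DecidableEq α] {G : Subgroup (Equiv.Perm α)} {k p : ℕ}
    (hk : 1 ≤ k) (hG : MulAction.IsMultiplyPretransitive G α k) (hp : p.Prime) {g : Equiv.Perm α}
    (hg : g ∈ G) (hgp : orderOf g = p) (hgfix : k < {x | g x = x}.ncard) :
    ∃ (F : Set α) (H : Subgroup (Equiv.Perm α)) (hinv : ∀ h ∈ H, ∀ x, h x ∈ F ↔ x ∈ F),
      H ≤ G ∧ k < F.ncard ∧ F.ncard < Fintype.card α ∧ Nat.ModEq p F.ncard (Fintype.card α) ∧
      MulAction.IsMultiplyPretransitive (restrictGroup H F hinv) F k := by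
  classical
  haveI : Fact p.Prime := ⟨hp⟩
  let fixS : Subgroup (Equiv.Perm α) → Set α := fun R => {x : α | ∀ r ∈ R, r x = x}
  obtain ⟨R, ⟨hRG, hRp, hgR, hRf⟩, hmax⟩ := exists_maximal_of_wellFoundedGT
    (fun R : Subgroup (Equiv.Perm α) => R ≤ G ∧ IsPGroup p R ∧ g ∈ R ∧ k < (fixS R).ncard)
    ⟨Subgroup.zpowers g, Subgroup.zpowers_le.2 hg,
      IsPGroup.of_card (n := 1) (by rw [Nat.card_zpowers, hgp, pow_one]), Subgroup.mem_zpowers g,
      lt_of_lt_of_le hgfix (Set.ncard_le_ncard (fun x hx r hr => by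
        obtain ⟨i, rfl⟩ := Subgroup.mem_zpowers_iff.1 hr
        exact Equiv.Perm.zpow_apply_eq_self_of_apply_eq_self hx i) (Set.toFinite _))⟩
  set F := fixS R with hF
  let H := G ⊓ Subgroup.normalizer (R : Set (Equiv.Perm α))
  have hinv : ∀ h ∈ H, ∀ x, h x ∈ F ↔ x ∈ F := fun h hh x => fixed_invariant hh.2 x
  have hRH : R ≤ H := le_inf hRG Subgroup.le_normalizer
  refine ⟨F, H, hinv, inf_le_left, hRf, ?_, ?_, ?_⟩
  · refine Set.ncard_lt_card (fun huniv => ?_) |>.trans_eq Nat.card_eq_fintype_card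
    have : g = 1 := Equiv.ext fun x => (huniv.symm ▸ Set.mem_univ x : x ∈ F) g hgR
    rw [this, orderOf_one] at hgp
    exact hp.ne_one hgp.symm
  · have h1 := hRp.card_modEq_card_fixedPoints α
    rw [Nat.card_eq_fintype_card] at h1
    rw [← Nat.card_coe_set_eq]
    refine (h1.trans ?_).symm
    rw [Nat.card_congr (Equiv.setCongr (show MulAction.fixedPoints R α = F from
      Set.ext fun x => ⟨fun hx r hr => hx ⟨r, hr⟩, fun hx r => hx r r.2⟩))]
  have hstab : ∀ (x : Fin k ↪ α) (r : Equiv.Perm α) (hr : r ∈ G),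
      (⟨r, hr⟩ : G) ∈ MulAction.stabilizer G x ↔ ∀ i, r (x i) = x i := fun x r hr => by
    rw [MulAction.mem_stabilizer_iff, Function.Embedding.ext_iff]
    rfl
  let M : (Fin k ↪ α) → Subgroup (Equiv.Perm α) := fun x => (MulAction.stabilizer G x).map G.subtype
  have hM : ∀ x r, r ∈ M x ↔ r ∈ G ∧ ∀ i, r (x i) = x i := by
    intro x r
    constructor
    · rintro ⟨a, ha, rfl⟩
      exact ⟨a.2, (hstab x _ a.2).1 ha⟩
    · rintro ⟨hr, hri⟩
      exact ⟨⟨r, hr⟩, (hstab x r hr).2 hri, rfl⟩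
  have hcardM : ∀ x y : Fin k ↪ α, Nat.card (M x) = Nat.card (M y) := by
    intro x y
    have e : ∀ z, Nat.card (M z) = Nat.card (MulAction.stabilizer G z) := fun z =>
      Nat.card_congr (Subgroup.equivMapOfInjective _ _ G.subtype_injective).toEquiv.symm
    have hpos : 0 < (Fintype.card α).descFactorial k := Nat.descFactorial_pos.2 (by
      have := Fintype.card_le_of_embedding x
      simpa using this)
    rw [e, e]
    exact Nat.eq_of_mul_eq_mul_left hpos ((card_mul_descFactorial G hG x).trans (card_mul_descFactorial G hG y).symm)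
  let ι : (Fin k ↪ F) → (Fin k ↪ α) := fun x => x.trans (Function.Embedding.subtype _)
  have hRM : ∀ x : Fin k ↪ F, R ≤ M (ι x) := fun x r hr => (hM _ _).2 ⟨hRG hr, fun i => (x i).2 r hr⟩
  by_cases hsyl : ∀ x : Fin k ↪ F, ∀ Q : Subgroup (Equiv.Perm α), R ≤ Q → Q ≤ M (ι x) → IsPGroup p Q → Q = R
  · rw [MulAction.isMultiplyPretransitive_iff]
    intro x y
    obtain ⟨c, hc⟩ := MulAction.exists_smul_eq G (ι x) (ι y)
    have hci : ∀ i, (c : Equiv.Perm α) (ι x i) = ι y i := fun i => DFunLike.congr_fun hc i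
    set R' := R.map (MulAut.conj (c : Equiv.Perm α)).toMonoidHom with hR'
    have hR'M : R' ≤ M (ι y) := by
      rintro _ ⟨r, hr, rfl⟩
      refine (hM _ _).2 ⟨mul_mem (mul_mem c.2 (hRG hr)) (inv_mem c.2), fun i => ?_⟩
      show (c : Equiv.Perm α) (r ((c : Equiv.Perm α)⁻¹ (ι y i))) = ι y i
      rw [show (c : Equiv.Perm α)⁻¹ (ι y i) = ι x i by rw [Equiv.Perm.inv_def, Equiv.symm_apply_eq, hci],
        ((hM _ _).1 (hRM x hr)).2 i, hci]
    have hR'p : IsPGroup p R' := hRp.map _
    let toM : ∀ Q : Subgroup (Equiv.Perm α), Subgroup (M (ι y)) := fun Q => Q.subgroupOf (M (ι y))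
    have hpM : ∀ Q, Q ≤ M (ι y) → IsPGroup p Q → IsPGroup p (toM Q) := fun Q hQ hQp =>
      hQp.of_equiv (Subgroup.subgroupOfEquivOfLe hQ).symm
    obtain ⟨P1, hP1⟩ := (hpM R (hRM y) hRp).exists_le_sylow
    obtain ⟨P2, hP2⟩ := (hpM R' hR'M hR'p).exists_le_sylow
    have hP1R : (P1 : Subgroup (M (ι y))).map (M (ι y)).subtype = R := by
      refine hsyl y _ ?_ (Subgroup.map_subtype_le _) (P1.isPGroup'.map _)
      rw [← Subgroup.map_subgroupOf_eq_of_le (hRM y)]
      exact Subgroup.map_mono hP1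
    obtain ⟨z, hz⟩ := MulAction.exists_smul_eq (M (ι y)) P2 P1
    have hsub : R'.map (MulAut.conj (z : Equiv.Perm α)).toMonoidHom ≤ R := by
      rintro _ ⟨r, hr, rfl⟩
      rw [← hP1R]
      refine ⟨z * ⟨r, hR'M hr⟩ * z⁻¹, ?_, rfl⟩
      rw [← hz]
      exact ⟨_, hP2 (Subgroup.mem_subgroupOf.2 hr), rfl⟩
    have heq : R.map (MulAut.conj ((z : Equiv.Perm α) * c)).toMonoidHom = R := by
      refine Subgroup.eq_of_le_of_card_ge ?_ (le_of_eq (Subgroup.card_map_of_injective (MulEquiv.injective _)).symm)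
      rintro _ ⟨r, hr, rfl⟩
      refine hsub ⟨_, ⟨r, hr, rfl⟩, ?_⟩
      simp [mul_assoc]
    have hnorm : (z : Equiv.Perm α) * c ∈ H := by
      refine ⟨mul_mem ((hM _ _).1 z.2).1 c.2, Subgroup.mem_normalizer_iff.2 fun r => ⟨fun hr => heq ▸ ⟨r, hr, rfl⟩, fun hr => ?_⟩⟩
      rw [← heq] at hr
      obtain ⟨r', hr', e⟩ := hr
      exact (mul_left_cancel (mul_right_cancel (show (z : Equiv.Perm α) * c * r' * ((z : Equiv.Perm α) * c)⁻¹ =
        (z : Equiv.Perm α) * c * r * ((z : Equiv.Perm α) * c)⁻¹ from e))) ▸ hr'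
    refine ⟨toRestrict hinv _ hnorm, ?_⟩
    ext i
    show (z : Equiv.Perm α) ((c : Equiv.Perm α) (x i : α)) = (y i : α)
    exact (congrArg _ (hci i)).trans (((hM _ _).1 z.2).2 i)
  · push Not at hsyl
    obtain ⟨x₀, Q₀, hRQ₀, hQ₀M, hQ₀p, hQ₀ne⟩ := hsyl
    have hlt : Nat.card R < Nat.card Q₀ := by
      rcases (Subgroup.card_le_of_le hRQ₀).lt_or_eq with h | h
      · exact h
      · exact absurd (Subgroup.eq_of_le_of_card_ge hRQ₀ h.ge).symm hQ₀ne
    refine Cfsg.Agent.S0743.result (α := F) (restrictGroup H F hinv) hp hk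
      (by rw [← Nat.card_eq_fintype_card, Nat.card_coe_set_eq]; exact hRf) ?_
    intro s hs
    let x : Fin k ↪ F := (s.equivFinOfCardEq hs).symm.toEmbedding.trans (Function.Embedding.subtype _)
    obtain ⟨P, hP⟩ := ((hRp.of_equiv (Subgroup.subgroupOfEquivOfLe (hRM x)).symm)).exists_le_sylow
    set Q : Subgroup (Equiv.Perm α) := (P : Subgroup (M (ι x))).map (M (ι x)).subtype with hQ
    have hQM : Q ≤ M (ι x) := Subgroup.map_subtype_le _
    have hQp : IsPGroup p Q := P.isPGroup'.map _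
    have hRQ : R ≤ Q := by
      rw [hQ, ← Subgroup.map_subgroupOf_eq_of_le (hRM x)]
      exact Subgroup.map_mono hP
    have hne : R.subgroupOf Q < ⊤ := by
      refine lt_top_iff_ne_top.2 fun h => ?_
      rw [Subgroup.subgroupOf_eq_top] at h
      have h1 : Nat.card Q = Nat.card (P : Subgroup (M (ι x))) :=
        Subgroup.card_map_of_injective (Subgroup.subtype_injective _)
      have h2 := P.card_eq_multiplicity
      obtain ⟨a, ha⟩ := IsPGroup.iff_card.1 hQ₀p
      have h3 : p ^ a ∣ Nat.card (M (ι x)) := ha ▸ hcardM (ι x) (ι x₀) ▸ Subgroup.card_dvd_of_le hQ₀M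
      have h4 : a ≤ (Nat.card (M (ι x))).factorization p := (hp.pow_dvd_iff_le_factorization Nat.card_pos.ne').1 h3
      have h5 := Subgroup.card_le_of_le h
      have h6 := Nat.pow_le_pow_right hp.pos h4
      omega
    haveI : Group.IsNilpotent Q := hQp.isNilpotent
    have hN := Group.normalizerCondition_of_isNilpotent (G := Q) (R.subgroupOf Q) hne
    set R' := (Subgroup.normalizer ((R.subgroupOf Q : Subgroup Q) : Set Q)).map Q.subtype with hR'
    have hR'Q : R' ≤ Q := Subgroup.map_subtype_le _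
    have hRR' : R < R' := by
      rw [hR']
      exact lt_of_eq_of_lt (Subgroup.map_subgroupOf_eq_of_le hRQ).symm
        (Subgroup.map_lt_map_iff_of_injective (Subgroup.subtype_injective Q) |>.2 hN)
    have hR'G : R' ≤ G := fun r hr => ((hM _ _).1 (hQM (hR'Q hr))).1
    have hR'H : R' ≤ H := by
      refine le_inf hR'G ?_
      rintro _ ⟨r, hr, rfl⟩
      rw [Subgroup.mem_normalizer_iff]
      intro h
      constructor
      · intro hh
        exact ((Subgroup.mem_normalizer_iff.1 hr ⟨h, hRQ hh⟩).1 hh)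
      · intro hh
        have hh' : (r : Equiv.Perm α) * h * (r : Equiv.Perm α)⁻¹ ∈ Q := hRQ hh
        have hQh : h ∈ Q := by
          have := mul_mem (mul_mem (inv_mem r.2) hh') r.2
          simpa [mul_assoc] using this
        exact (Subgroup.mem_normalizer_iff.1 hr ⟨h, hQh⟩).2 hh
    have hR'p : IsPGroup p R' := hQp.to_le hR'Q
    have hle : (fixS R').ncard ≤ k := by
      by_contra h
      push Not at h
      exact absurd (hmax ⟨hR'G, hR'p, hRR'.le hgR, h⟩ hRR'.le) (not_le_of_gt hRR')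
    let rh : R' →* Equiv.Perm F := (restrictHom H F hinv).comp (Subgroup.inclusion hR'H)
    have hrh : rh.range ≤ restrictGroup H F hinv := by
      rintro _ ⟨r, rfl⟩
      exact ⟨_, rfl⟩
    refine ⟨rh.range.subgroupOf (restrictGroup H F hinv),
      ((hR'p.of_surjective rh.rangeRestrict rh.rangeRestrict_surjective)).of_equiv (Subgroup.subgroupOfEquivOfLe hrh).symm, ?_⟩
    have hsfix : ∀ y ∈ s, ∀ r ∈ R', r (y : α) = y := by
      intro y hy r hr
      have := ((hM _ _).1 (hQM (hR'Q hr))).2 (s.equivFinOfCardEq hs ⟨y, hy⟩)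
      simpa [ι, x] using this
    have himg : Subtype.val '' (s : Set F) = fixS R' := by
      refine Set.eq_of_subset_of_ncard_le ?_ ?_ (Set.toFinite _)
      · rintro _ ⟨y, hy, rfl⟩ r hr
        exact hsfix y hy r hr
      · rw [Set.ncard_image_of_injective _ Subtype.val_injective, Set.ncard_coe_finset, hs]
        exact hle
    ext y
    constructor
    · intro hy
      have hy' : (y : α) ∈ fixS R' := fun r hr =>
        congrArg Subtype.val (hy ⟨⟨rh ⟨r, hr⟩, hrh ⟨_, rfl⟩⟩, ⟨⟨r, hr⟩, rfl⟩⟩)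
      rw [← himg] at hy'
      obtain ⟨y', hy1, hy2⟩ := hy'
      exact Subtype.val_injective hy2 ▸ hy1
    · intro hy r
      obtain ⟨r', hr'⟩ := Subgroup.mem_subgroupOf.1 r.2
      apply Subtype.ext
      show ((((r : restrictGroup H F hinv) : Equiv.Perm F) y : F) : α) = y
      rw [← hr']
      exact hsfix y hy r' r'.2

end Cfsg.Agent.H37
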