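import Cfsg.Agent.H37.FourCommon
import Cfsg.Agent.H37.Reduction

/-! A four-transitive group inducing only even permutations on five-sets has degree at most six. -/

namespace Cfsg.Agent.H37

open MulAction

variable {α : Type*}

/-- Every five-tuple permutation induced by the group is even. -/
def EvenOnFive (G : Subgroup (Equiv.Perm α)) : Prop :=
  ∀ g ∈ G, ∀ (x : Fin 5 ↪ α) (σ : Equiv.Perm (Fin 5)), (∀ i, g (x i) = x (σ i)) → Equiv.Perm.sign σ = 1

/-- No involution of such a group fixes three points. -/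
theorem EvenOnFive.fix_le_two [Fintype α] {G : Subgroup (Equiv.Perm α)} (hE : EvenOnFive G) {g : G}
    (hg : g * g = 1) (hg1 : g ≠ 1) : (fixSet g).ncard ≤ 2 := by
  classical
  by_contra h
  push Not at h
  obtain ⟨a, ha, b, hb, c, hc, hab, hac, hbc⟩ := (Set.two_lt_ncard (Set.toFinite _)).1 h
  obtain ⟨u, hu⟩ : ∃ u, g • u ≠ u := by
    by_contra hall
    push Not at hall
    exact hg1 (Subtype.ext (Equiv.ext hall))
  have gg : g • g • u = u := by rw [← mul_smul, hg, one_smul]
  have hne : ∀ z, z ∈ fixSet g → z ≠ u ∧ z ≠ g • u := fun z hz => by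
    refine ⟨fun e => hu (e ▸ hz), fun e => ?_⟩
    rw [e, mem_fixSet, gg] at hz
    exact hu hz.symm
  have hinj : Function.Injective ![a, b, c, u, g • u] := by
    obtain ⟨ha1, ha2⟩ := hne a ha
    obtain ⟨hb1, hb2⟩ := hne b hb
    obtain ⟨hc1, hc2⟩ := hne c hc
    intro i j hij
    fin_cases i <;> fin_cases j <;>
      simp [hab, hab.symm, hac, hac.symm, hbc, hbc.symm, ha1, ha1.symm, ha2, ha2.symm, hb1, hb1.symm, hb2,
        hb2.symm, hc1, hc1.symm, hc2, hc2.symm, hu, Ne.symm hu] at hij ⊢
  have h5 := hE g g.2 ⟨_, hinj⟩ (Equiv.swap 3 4) (by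
    intro i
    fin_cases i
    · exact ha
    · exact hb
    · exact hc
    · rfl
    · exact gg)
  rw [Equiv.Perm.sign_swap (by decide)] at h5
  exact absurd h5 (by decide)

/-- The degree bound. -/
theorem EvenOnFive.card_le_six [Fintype α] [DecidableEq α] {G : Subgroup (Equiv.Perm α)}
    (hE : EvenOnFive G) (h4 : MulAction.IsMultiplyPretransitive G α 4) : Fintype.card α ≤ 6 := by
  classical
  induction hn : Fintype.card α using Nat.strong_induction_on generalizing α with
  | _ n ih =>
  subst hn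
  by_contra hn7
  push Not at hn7
  have hone : ∀ g : G, g * g = 1 → g ≠ 1 → (fixSet g).ncard ≤ 2 := fun g => hE.fix_le_two
  have hodd : ∀ x : Fin 4 ↪ α, Odd (Nat.card (MulAction.stabilizer G x)) := by
    intro x
    rw [← Nat.not_even_iff_odd]
    intro hev
    obtain ⟨z, hz⟩ := exists_prime_orderOf_dvd_card' (G := MulAction.stabilizer G x) 2 hev.two_dvd
    have hz2 : (z : G) * z = 1 := by
      rw [← Subgroup.coe_mul, ← pow_two, ← hz, pow_orderOf_eq_one, Subgroup.coe_one]
    have hz1 : (z : G) ≠ 1 := fun e => by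
      rw [← Subgroup.orderOf_coe, e, orderOf_one] at hz
      omega
    have hsub : Set.range x ⊆ fixSet (z : G) := by
      rintro _ ⟨i, rfl⟩
      exact mem_stab_emb.1 z.2 i
    have h := Set.ncard_le_ncard hsub (Set.toFinite _)
    rw [Set.ncard_range_of_injective x.injective, Nat.card_eq_fintype_card, Fintype.card_fin] at h
    have := hone _ hz2 hz1
    omega
  have hconj : ∀ g h : G, g * g = 1 → g ≠ 1 → h * h = 1 → h ≠ 1 → ∃ c : G, c * g * c⁻¹ = h := by
    intro g h hg hg1 hh hh1
    obtain ⟨x, hx1, hx2⟩ := exists_two_cycles hg (by have := hone g hg hg1; omega)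
    obtain ⟨y, hy1, hy2⟩ := exists_two_cycles hh (by have := hone h hh hh1; omega)
    exact exists_conj_of_two_cycles h4 hodd hg hh x y hx1 hx2 hy1 hy2
  obtain ⟨x⟩ : Nonempty (Fin 4 ↪ α) := Function.Embedding.nonempty_of_card_le (by rw [Fintype.card_fin]; omega)
  obtain ⟨s, hs, hsx⟩ := exists_lift h4 hodd x (Equiv.swap 2 3) (Equiv.swap_mul_self _ _)
  have hne4 : ∀ {g : G} {i j : Fin 4}, i ≠ j → g • x i = x j → g ≠ 1 := fun hij h e => by
    rw [e, one_smul] at h
    exact hij (x.injective h)
  have hs1 : s ≠ 1 := hne4 (i := 2) (j := 3) (by decide) (hsx 2)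
  have hf2 : ∀ g : G, g * g = 1 → g ≠ 1 → (fixSet g).ncard = 2 := by
    intro g hg hg1
    obtain ⟨c, hc⟩ := hconj s g hs hs1 hg hg1
    refine le_antisymm (hone g hg hg1) ?_
    rw [show fixSet g = {p : α | g • p = p} from rfl, ← hc, ncard_fixed_conj]
    have hsub : ({x 0, x 1} : Set α) ⊆ fixSet s := by
      rintro p (rfl | rfl)
      · exact (hsx 0).trans (congrArg x (by decide))
      · exact (hsx 1).trans (congrArg x (by decide))
    have := Set.ncard_le_ncard hsub (Set.toFinite _)
    rwa [Set.ncard_pair (x.injective.ne (by decide))] at this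
  obtain ⟨u1, hu1, hu1x⟩ := exists_lift h4 hodd x (Equiv.swap 0 1 * Equiv.swap 2 3) (by decide)
  obtain ⟨u2, hu2, hu2x, hu12⟩ := exists_lift_commute h4 hodd x (Equiv.swap 0 1 * Equiv.swap 2 3)
    (Equiv.swap 0 2 * Equiv.swap 1 3) (by decide) (by decide) u1 hu1 hu1x
  have hu3 : (u1 * u2) * (u1 * u2) = 1 := by
    rw [mul_assoc, ← mul_assoc u2, ← hu12, mul_assoc u1 u2 u2, hu2, mul_one, hu1]
  have hu3x : ∀ i, (u1 * u2) • x i = x ((Equiv.swap 0 1 * Equiv.swap 2 3 : Equiv.Perm (Fin 4)) ((Equiv.swap 0 2 * Equiv.swap 1 3 : Equiv.Perm (Fin 4)) i)) :=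
    fun i => by rw [mul_smul, hu2x, hu1x]
  have hu11 : u1 ≠ 1 := hne4 (i := 0) (j := 1) (by decide) ((hu1x 0).trans (congrArg x (by decide)))
  have hu21 : u2 ≠ 1 := hne4 (i := 0) (j := 2) (by decide) ((hu2x 0).trans (congrArg x (by decide)))
  have hu31 : u1 * u2 ≠ 1 := hne4 (i := 0) (j := 3) (by decide) ((hu3x 0).trans (congrArg x (by decide)))
  have hmod : Fintype.card α % 4 = 2 := by
    have hsign : Equiv.Perm.sign (u1 : Equiv.Perm α) = 1 := by
      obtain ⟨c, hc⟩ := hconj u1 u2 hu1 hu11 hu2 hu21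
      obtain ⟨c', hc'⟩ := hconj u1 (u1 * u2) hu1 hu11 hu3 hu31
      have e1 : Equiv.Perm.sign (u2 : Equiv.Perm α) = Equiv.Perm.sign (u1 : Equiv.Perm α) := by
        rw [← hc]; simp only [Subgroup.coe_mul, Subgroup.coe_inv, map_mul, map_inv]; rw [mul_comm, ← mul_assoc, inv_mul_cancel, one_mul]
      have e2 : Equiv.Perm.sign ((u1 * u2 : G) : Equiv.Perm α) = Equiv.Perm.sign (u1 : Equiv.Perm α) := by
        rw [← hc']; simp only [Subgroup.coe_mul, Subgroup.coe_inv, map_mul, map_inv]; rw [mul_comm, ← mul_assoc, inv_mul_cancel, one_mul]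
      rw [Subgroup.coe_mul, map_mul, e1] at e2
      exact left_eq_mul.1 e2.symm
    have hct : ∀ m ∈ (u1 : Equiv.Perm α).cycleType, m = 2 := by
      intro m hm
      have h1 := Equiv.Perm.dvd_of_mem_cycleType hm
      have h3 : orderOf (u1 : Equiv.Perm α) ∣ 2 :=
        orderOf_dvd_of_pow_eq_one (by rw [pow_two, ← Subgroup.coe_mul, hu1, Subgroup.coe_one])
      have h4 := Equiv.Perm.two_le_of_mem_cycleType hm
      have := Nat.le_of_dvd (by norm_num) (h1.trans h3)
      omega
    have hrep := Multiset.eq_replicate_card.2 hct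
    have hsum := (u1 : Equiv.Perm α).sum_cycleType
    rw [hrep, Multiset.sum_replicate, smul_eq_mul] at hsum
    rw [Equiv.Perm.sign_of_cycleType, hrep, Multiset.sum_replicate, Multiset.card_replicate, smul_eq_mul,
      neg_one_pow_eq_one_iff_even (by decide)] at hsign
    have hsupp : (u1 : Equiv.Perm α).support.card + 2 = Fintype.card α := by
      have h := hf2 u1 hu1 hu11
      have e : fixSet u1 = (((u1 : Equiv.Perm α).supportᶜ : Finset α) : Set α) := by
        ext p; simp [mem_fixSet, Subgroup.smul_def]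
      rw [e, Set.ncard_coe_finset, Finset.card_compl] at h
      have := (u1 : Equiv.Perm α).support.card_le_univ
      omega
    rw [Nat.even_iff] at hsign
    omega
  set e := (Fintype.card α - 4) / 2 with he
  obtain ⟨q, hq, hqe⟩ := Nat.exists_prime_and_dvd (show e ≠ 1 by omega)
  have hqodd : Odd q := (show Odd e by rw [Nat.odd_iff]; omega).of_dvd_nat hqe
  have hqn : q ∣ Fintype.card α - 4 := hqe.trans ⟨2, by omega⟩
  haveI : Fact q.Prime := ⟨hq⟩
  have hq3 : 3 ≤ q := by
    have := hq.two_le
    rw [Nat.odd_iff] at hqodd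
    omega
  have hsemi : ∀ g : G, orderOf g = q → (fixSet g).ncard ≤ 4 := by
    intro g hg
    by_contra h
    push Not at h
    obtain ⟨F, H, hinv, hHG, hF4, hFn, hFmod, hF⟩ :=
      exists_smaller_transitive (k := 4) (by norm_num) h4 hq g.2 (by rw [Subgroup.orderOf_coe, hg]) h
    have hE' : EvenOnFive (restrictGroup H F hinv) := by
      intro e he y σ hσ
      obtain ⟨g', hg', hge⟩ := exists_of_mem_restrictGroup he
      exact hE g' (hHG hg') (y.trans (Function.Embedding.subtype _)) σ fun i => by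
        show g' (y i : α) = (y (σ i) : α)
        rw [hge, hσ]
    have hcF : Fintype.card F = F.ncard := by rw [← Nat.card_eq_fintype_card, Nat.card_coe_set_eq]
    have h6 := ih (Fintype.card F) (by rw [hcF]; exact hFn) hE' hF rfl
    rw [hcF] at h6
    have h7 : q ∣ F.ncard - 4 := by
      rw [← Nat.modEq_iff_dvd' hF4.le]
      exact (((Nat.modEq_iff_dvd' (show 4 ≤ Fintype.card α by omega)).2 hqn).trans hFmod.symm)
    have := Nat.le_of_dvd (by omega) h7
    omega
  -- counting involutions with prescribed pairs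
  let I : Finset G := Finset.univ.filter fun g => g * g = 1 ∧ g ≠ 1
  let PB : G → (Fin 4 ↪ α) → Prop := fun g y => g • y 0 = y 1 ∧ g • y 2 = y 3
  let PA : G → (Fin 4 ↪ α) → Prop := fun g y => g • y 0 = y 0 ∧ g • y 1 = y 1 ∧ g • y 2 = y 3
  have hperW : ∀ g ∈ I, ((Finset.univ.filter (PB g)).card : ℕ) = (Fintype.card α - 2) * (Fintype.card α - 4) ∧
      (Finset.univ.filter (PA g)).card = 2 * (Fintype.card α - 2) := by
    intro g hg
    simp only [I, Finset.mem_filter, Finset.mem_univ, true_and] at hg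
    obtain ⟨hg, hg1⟩ := hg
    have gg : ∀ p : α, g • g • p = p := fun p => by rw [← mul_smul, hg, one_smul]
    let Fx : Finset α := Finset.univ.filter fun p => g • p = p
    have hFx : Fx.card = 2 := by
      rw [← Set.ncard_coe_finset, ← hf2 g hg hg1]
      congr 1
      ext p; simp [Fx, mem_fixSet]
    have hM : ∀ p, p ∈ Fxᶜ ↔ g • p ≠ p := fun p => by simp [Fx]
    constructor
    · trans ∑ p ∈ Fxᶜ, (Fxᶜ \ {p, g • p}).card
      · rw [← Finset.card_sigma]
        refine Finset.card_bij (fun y _ => ⟨y 0, y 2⟩) ?_ ?_ ?_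
        · intro y hy
          obtain ⟨-, h1, h2⟩ := Finset.mem_filter.1 hy
          simp only [Finset.mem_sigma, Finset.mem_sdiff, Finset.mem_insert, Finset.mem_singleton, hM, h1, h2]
          exact ⟨y.injective.ne (by decide), y.injective.ne (by decide),
            not_or.2 ⟨y.injective.ne (by decide), y.injective.ne (by decide)⟩⟩
        · intro y hy y' hy' e
          obtain ⟨-, h1, h2⟩ := Finset.mem_filter.1 hy
          obtain ⟨-, h1', h2'⟩ := Finset.mem_filter.1 hy'
          simp only [Sigma.mk.injEq, heq_eq_eq] at e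
          ext i
          fin_cases i
          · exact e.1
          · exact h1.symm.trans (((congrArg (g • ·) e.1)).trans h1')
          · exact e.2
          · exact h2.symm.trans (((congrArg (g • ·) e.2)).trans h2')
        · rintro ⟨p, r⟩ hpr
          simp only [Finset.mem_sigma, Finset.mem_sdiff, Finset.mem_insert, Finset.mem_singleton, hM, not_or] at hpr
          obtain ⟨hp, hr, hrp, hrgp⟩ := hpr
          refine ⟨emb4 p (g • p) r (g • r) hp.symm (Ne.symm hrp) ?_ (Ne.symm hrgp) ?_ hr.symm, Finset.mem_filter.2 ⟨Finset.mem_univ _, rfl, rfl⟩, rfl⟩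
          · intro e
            exact hrgp (by rw [e, gg])
          · intro e
            exact hrp (smul_left_cancel g e).symm
      · rw [Finset.sum_const_nat (m := Fintype.card α - 4)]
        · rw [Finset.card_compl, hFx]
        · intro p hp
          rw [Finset.card_sdiff_of_subset, Finset.card_compl, hFx, Finset.card_pair ((hM p).1 hp).symm]
          · omega
          · intro r hr
            rcases Finset.mem_insert.1 hr with rfl | hr
            · exact hp
            · rw [Finset.mem_singleton] at hr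
              rw [hM, hr, gg]
              exact ((hM p).1 hp).symm
    · trans (Fx.offDiag ×ˢ Fxᶜ).card
      · refine Finset.card_bij (fun y _ => ((y 0, y 1), y 2)) ?_ ?_ ?_
        · intro y hy
          obtain ⟨-, h0, h1, h2⟩ := Finset.mem_filter.1 hy
          simp only [Finset.mem_product, Finset.mem_offDiag, hM, h2, Fx, Finset.mem_filter, Finset.mem_univ, true_and]
          exact ⟨⟨h0, h1, y.injective.ne (by decide)⟩, y.injective.ne (by decide)⟩
        · intro y hy y' hy' e
          obtain ⟨-, -, -, h2⟩ := Finset.mem_filter.1 hy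
          obtain ⟨-, -, -, h2'⟩ := Finset.mem_filter.1 hy'
          simp only [Prod.mk.injEq] at e
          ext i
          fin_cases i
          · exact e.1.1
          · exact e.1.2
          · exact e.2
          · exact h2.symm.trans (((congrArg (g • ·) e.2)).trans h2')
        · rintro ⟨⟨p, p'⟩, r⟩ hpr
          simp only [Finset.mem_product, Finset.mem_offDiag, hM, Fx, Finset.mem_filter, Finset.mem_univ, true_and] at hpr
          obtain ⟨⟨hp, hp', hpp⟩, hr⟩ := hpr
          refine ⟨emb4 p p' r (g • r) hpp ?_ ?_ ?_ ?_ hr.symm, Finset.mem_filter.2 ⟨Finset.mem_univ _, hp, hp', rfl⟩, rfl⟩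
          · exact fun e => hr (e ▸ hp)
          · exact fun e => hr (smul_left_cancel g (hp.trans e) ▸ hp)
          · exact fun e => hr (e ▸ hp')
          · exact fun e => hr (smul_left_cancel g (hp'.trans e) ▸ hp')
      · rw [Finset.card_product, Finset.offDiag_card, hFx, Finset.card_compl, hFx]
  have hperY : ∀ P : G → (Fin 4 ↪ α) → Prop, (∀ c g y, P g y → P (c * g * c⁻¹) (c • y)) → ∀ y y' : Fin 4 ↪ α,
      (I.filter fun g => P g y).card = (I.filter fun g => P g y').card := by
    intro P hP y y'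
    obtain ⟨c, rfl⟩ := MulAction.exists_smul_eq G y y'
    have hI : ∀ (c g : G), g ∈ I → c * g * c⁻¹ ∈ I := by
      intro c g hg
      simp only [I, Finset.mem_filter, Finset.mem_univ, true_and] at hg ⊢
      refine ⟨by rw [show c * g * c⁻¹ * (c * g * c⁻¹) = c * (g * g) * c⁻¹ by group, hg.1, mul_one, mul_inv_cancel], fun e => hg.2 ?_⟩
      have e2 : g = c⁻¹ * (c * g * c⁻¹) * c := by group
      rw [e2, e, mul_one, inv_mul_cancel]
    refine Finset.card_bij (fun g _ => c * g * c⁻¹) ?_ ?_ ?_
    · intro g hg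
      obtain ⟨h1, h2⟩ := Finset.mem_filter.1 hg
      exact Finset.mem_filter.2 ⟨hI c g h1, hP c g y h2⟩
    · intro g _ g' _ h
      exact mul_left_cancel (mul_right_cancel h)
    · intro g hg
      obtain ⟨h1, h2⟩ := Finset.mem_filter.1 hg
      refine ⟨c⁻¹ * g * c, Finset.mem_filter.2 ⟨by simpa using hI c⁻¹ g h1, ?_⟩, by group⟩
      have h3 := hP c⁻¹ g _ h2
      rw [show c⁻¹ • c • y = y from Function.Embedding.ext fun i => inv_smul_smul c (y i), inv_inv] at h3
      exact h3
  have hcB : ∀ c g y, PB g y → PB (c * g * c⁻¹) (c • y) := fun c g y h => by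
    simp only [PB, Function.Embedding.smul_apply, mul_smul, inv_smul_smul, h.1, h.2, and_self]
  have hcA : ∀ c g y, PA g y → PA (c * g * c⁻¹) (c • y) := fun c g y h => by
    simp only [PA, Function.Embedding.smul_apply, mul_smul, inv_smul_smul, h.1, h.2.1, h.2.2, and_self]
  have hdc : ∀ P : G → (Fin 4 ↪ α) → Prop, (∀ y y', (I.filter fun g => P g y).card = (I.filter fun g => P g y').card) →
      ∀ c, (∀ g ∈ I, (Finset.univ.filter (P g)).card = c) →
      Fintype.card (Fin 4 ↪ α) * (I.filter fun g => P g x).card = I.card * c := by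
    intro P hP c hc
    have h := Finset.sum_card_bipartiteAbove_eq_sum_card_bipartiteBelow (s := I) (t := (Finset.univ : Finset (Fin 4 ↪ α))) P
    simp only [Finset.bipartiteAbove, Finset.bipartiteBelow] at h
    rw [Finset.sum_const_nat (m := c) (fun g hg => hc g hg),
      Finset.sum_const_nat (m := (I.filter fun g => P g x).card) (fun y _ => hP y x)] at h
    rw [h, Finset.card_univ]
  have eB := hdc PB (hperY PB hcB) ((Fintype.card α - 2) * (Fintype.card α - 4)) (fun g hg => by convert (hperW g hg).1)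
  have eA := hdc PA (hperY PA hcA) (2 * (Fintype.card α - 2)) (fun g hg => by convert (hperW g hg).2)
  set B := (I.filter fun g => PB g x).card with hB
  set A := (I.filter fun g => PA g x).card with hA
  have eB' : Fintype.card (Fin 4 ↪ α) * B = I.card * ((Fintype.card α - 2) * (Fintype.card α - 4)) := by
    convert eB using 4
  have eA' : Fintype.card (Fin 4 ↪ α) * A = I.card * (2 * (Fintype.card α - 2)) := by
    convert eA using 4
  have hBA : B = e * A := by
    have hpos : 0 < Fintype.card (Fin 4 ↪ α) := Fintype.card_pos_iff.2 ⟨x⟩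
    apply Nat.eq_of_mul_eq_mul_left hpos
    calc Fintype.card (Fin 4 ↪ α) * B = I.card * ((Fintype.card α - 2) * (Fintype.card α - 4)) := eB'
      _ = e * (I.card * (2 * (Fintype.card α - 2))) := by
        rw [show Fintype.card α - 4 = e * 2 by omega]; ring
      _ = Fintype.card (Fin 4 ↪ α) * (e * A) := by rw [← eA']; ring
  set M := MulAction.stabilizer G x with hMdef
  have hqM : q ∣ Nat.card M := by
    have horb : MulAction.orbit (M.map (ConjAct.toConjAct (G := G)).toMonoidHom) u1 = ((I.filter fun g => PB g x : Finset G) : Set G) := by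
      ext g
      constructor
      · rintro ⟨⟨_, m, hm, rfl⟩, rfl⟩
        show ConjAct.toConjAct m • u1 ∈ _
        rw [ConjAct.smul_def, ConjAct.ofConjAct_toConjAct]
        simp only [Finset.coe_filter, Set.mem_setOf_eq, I, Finset.mem_filter, Finset.mem_univ, true_and, PB]
        have hmi := mem_stab_emb.1 (inv_mem hm)
        have hm' := mem_stab_emb.1 hm
        refine ⟨⟨by rw [show m * u1 * m⁻¹ * (m * u1 * m⁻¹) = m * (u1 * u1) * m⁻¹ by group, hu1, mul_one, mul_inv_cancel], fun e => hu11 ?_⟩, ?_, ?_⟩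
        · rw [show u1 = m⁻¹ * (m * u1 * m⁻¹) * m by group, e, mul_one, inv_mul_cancel]
        · rw [mul_smul, mul_smul, hmi, hu1x, hm']; congr 1
        · rw [mul_smul, mul_smul, hmi, hu1x, hm']; congr 1
      · intro hg
        simp only [Finset.coe_filter, Set.mem_setOf_eq, I, Finset.mem_filter, Finset.mem_univ, true_and, PB] at hg
        obtain ⟨⟨hg2, -⟩, hg0, hg22⟩ := hg
        have gg : ∀ p : α, g • g • p = p := fun p => by rw [← mul_smul, hg2, one_smul]
        have hmem : g * u1 ∈ M := mem_stab_emb.2 fun i => by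
          rw [mul_smul, hu1x]
          fin_cases i
          · show g • x 1 = x 0
            rw [← hg0, gg]
          · show g • x 0 = x 1
            exact hg0
          · show g • x 3 = x 2
            rw [← hg22, gg]
          · show g • x 2 = x 3
            exact hg22
        obtain ⟨z, hz, hzc⟩ := exists_conj_of_mul_odd hg2 hu1 ((hodd x).of_dvd_nat (Subgroup.orderOf_dvd_natCard _ hmem))
        refine ⟨⟨ConjAct.toConjAct z, z, (Subgroup.zpowers_le.2 hmem) hz, rfl⟩, ?_⟩
        show ConjAct.toConjAct z • u1 = g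
        rw [ConjAct.smul_def, ConjAct.ofConjAct_toConjAct, hzc]
    have h1 := Subgroup.index_dvd_card (MulAction.stabilizer (M.map (ConjAct.toConjAct (G := G)).toMonoidHom) u1)
    rw [MulAction.index_stabilizer, horb, Set.ncard_coe_finset,
      Subgroup.card_map_of_injective (MulEquiv.injective _), ← hB, hBA] at h1
    exact (hqe.trans (Dvd.intro _ rfl)).trans h1
  -- an invariant Sylow subgroup
  let S : Finset (Subgroup G) := Finset.univ.filter fun Q => Q ≤ M ∧ Nat.card Q = q ^ (Nat.card M).factorization q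
  have hScard : S.card = Nat.card (Sylow q M) := by
    rw [Nat.card_eq_fintype_card, ← Finset.card_univ]
    refine (Finset.card_bij (fun (P : Sylow q M) _ => (P : Subgroup M).map M.subtype) ?_ ?_ ?_).symm
    · intro P _
      simp only [S, Finset.mem_filter, Finset.mem_univ, true_and]
      exact ⟨Subgroup.map_subtype_le _, by rw [Subgroup.card_map_of_injective M.subtype_injective, P.card_eq_multiplicity]⟩
    · intro P _ P' _ h
      exact Sylow.ext (Subgroup.map_injective M.subtype_injective h)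
    · intro Q hQ
      simp only [S, Finset.mem_filter, Finset.mem_univ, true_and] at hQ
      refine ⟨Sylow.ofCard (Q.subgroupOf M) (by rw [Nat.card_congr (Subgroup.subgroupOfEquivOfLe hQ.1).toEquiv, hQ.2]), Finset.mem_univ _, ?_⟩
      exact Subgroup.map_subgroupOf_eq_of_le hQ.1
  have hSodd : Odd S.card := by
    obtain ⟨P⟩ : Nonempty (Sylow q M) := inferInstance
    rw [hScard]
    exact (hodd x).of_dvd_nat (P.card_eq_index_normalizer ▸ Subgroup.index_dvd_card _)
  let cj : G → Subgroup G → Subgroup G := fun u Q => Q.map (MulAut.conj u).toMonoidHom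
  have hcjS : ∀ (u : G) (σ : Equiv.Perm (Fin 4)), (∀ i, u • x i = x (σ i)) → ∀ Q ∈ S, cj u Q ∈ S := by
    intro u σ hu Q hQ
    simp only [S, Finset.mem_filter, Finset.mem_univ, true_and] at hQ ⊢
    refine ⟨?_, by rw [← hQ.2]; exact Subgroup.card_map_of_injective (MulEquiv.injective _)⟩
    rintro _ ⟨m, hm, rfl⟩
    exact conj_mem_stab hu σ.surjective (hQ.1 hm)
  have hcj2 : ∀ u v : G, ∀ Q, cj u (cj v Q) = cj (u * v) Q := fun u v Q => by
    simp only [cj, Subgroup.map_map]
    congr 1
  have hcj1 : ∀ u : G, u * u = 1 → ∀ Q, cj u (cj u Q) = Q := fun u hu Q => by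
    rw [hcj2, hu]
    simp only [cj, map_one]
    exact Subgroup.map_id Q
  have hS1 := odd_fixed_of_involutive S (cj u1) (hcjS u1 _ hu1x) (fun Q _ => hcj1 u1 hu1 Q) hSodd
  have hS2 := odd_fixed_of_involutive (S.filter fun Q => cj u1 Q = Q) (cj u2) (fun Q hQ => by
    obtain ⟨h1, h2⟩ := Finset.mem_filter.1 hQ
    refine Finset.mem_filter.2 ⟨hcjS u2 _ hu2x Q h1, ?_⟩
    rw [hcj2, hu12, ← hcj2, h2]) (fun Q _ => hcj1 u2 hu2 Q) hS1
  obtain ⟨Q, hQ⟩ := Finset.card_pos.1 hS2.pos
  simp only [S, Finset.mem_filter, Finset.mem_univ, true_and] at hQ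
  obtain ⟨⟨⟨hQM, hQc⟩, hQ1⟩, hQ2⟩ := hQ
  have hQne : Q ≠ ⊥ := fun e => by
    rw [e, Subgroup.card_bot] at hQc
    have := (hq.factorization_pos_of_dvd (n := Nat.card M) Nat.card_pos.ne' hqM)
    exact absurd hQc.symm (Nat.one_lt_pow (by omega) hq.one_lt).ne'
  obtain ⟨g, hgQ, hg1, hgc⟩ := exists_centralised Q hQne hu1 hu2
    (fun m hm => hQ1 ▸ ⟨m, hm, rfl⟩) (fun m hm => hQ2 ▸ ⟨m, hm, rfl⟩)
  obtain ⟨k, r, hr, hgr⟩ := exists_prime_power_order hg1
  have hrq : r = q := by
    have h1 : orderOf (g ^ k) ∣ q ^ (Nat.card M).factorization q := hQc ▸ Subgroup.orderOf_dvd_natCard _ (pow_mem hgQ k)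
    rw [hgr] at h1
    exact (Nat.prime_dvd_prime_iff_eq hr hq).1 (hr.dvd_of_dvd_pow h1)
  rw [hrq] at hgr
  have hgk : ∀ i, (g ^ k) • x i = x i := mem_stab_emb.1 (pow_mem (hQM hgQ) k)
  have hfix := hsemi _ hgr
  have key : ∀ (v : G) (σ : Equiv.Perm (Fin 4)), v * v = 1 → v ≠ 1 → (∀ i, v • x i = x (σ i)) → (∀ i, σ i ≠ i) →
      Commute v g → False := by
    intro v σ hv hv1 hvx hσ hc
    have hL : ∀ i, x i ∉ fixSet v := fun i h => hσ i (x.injective ((hvx i).symm.trans h))
    have hdvd := prime_dvd_ncard hq hgr (fixSet v) (fun p hp => smul_mem_fixSet (hc.pow_right k) hp) ?_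
    · rw [hf2 v hv hv1] at hdvd
      have := Nat.le_of_dvd (by norm_num) hdvd
      omega
    · intro p hp hgp
      have hsub : insert p (Set.range x) ⊆ fixSet (g ^ k) := by
        rintro y (rfl | ⟨i, rfl⟩)
        · exact hgp
        · exact hgk i
      have h := Set.ncard_le_ncard hsub (Set.toFinite _)
      rw [Set.ncard_insert_of_notMem (by rintro ⟨i, rfl⟩; exact hL i hp), Set.ncard_range_of_injective x.injective,
        Nat.card_eq_fintype_card, Fintype.card_fin] at h
      omega
  rcases hgc with hc | hc | hc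
  · exact key u1 _ hu1 hu11 hu1x (by decide) hc
  · exact key u2 _ hu2 hu21 hu2x (by decide) hc
  · exact key (u1 * u2) ((Equiv.swap 0 1 * Equiv.swap 2 3) * (Equiv.swap 0 2 * Equiv.swap 1 3)) hu3 hu31 hu3x (by decide) hc

end Cfsg.Agent.H37
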