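import Mathlib

/-! The symmetric group acting on orbits of tuples. -/

namespace Cfsg.Agent.H37

variable {G : Type*} [Group G] {α : Type*} [MulAction G α] {m : ℕ}

/-- Permuting coordinates commutes with the action. -/
def permTuple (σ : Equiv.Perm (Fin m)) :
    MulAction.orbitRel.Quotient G (Fin m ↪ α) → MulAction.orbitRel.Quotient G (Fin m ↪ α) :=
  Quotient.map' (fun x : Fin m ↪ α => (σ⁻¹ : Equiv.Perm (Fin m)).toEmbedding.trans x) fun x y h => by
    obtain ⟨g, rfl⟩ := h
    exact ⟨g, rfl⟩

theorem permTuple_mk (σ : Equiv.Perm (Fin m)) (x : Fin m ↪ α) :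
    permTuple (G := G) σ (Quotient.mk'' x) = Quotient.mk'' ((σ⁻¹ : Equiv.Perm (Fin m)).toEmbedding.trans x) := rfl

variable (G α m) in
/-- The action of the symmetric group on orbits of tuples. -/
def permTupleHom : Equiv.Perm (Fin m) →* Equiv.Perm (MulAction.orbitRel.Quotient G (Fin m ↪ α)) :=
  MonoidHom.toHomPerm
    { toFun := permTuple
      map_one' := by
        funext q
        induction q using Quotient.inductionOn' with
        | h x => rfl
      map_mul' := fun σ τ => by
        funext q
        induction q using Quotient.inductionOn' with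
        | h x => rfl }

theorem permTupleHom_mk (σ : Equiv.Perm (Fin m)) (x : Fin m ↪ α) :
    permTupleHom G α m σ (Quotient.mk'' x) = Quotient.mk'' ((σ⁻¹ : Equiv.Perm (Fin m)).toEmbedding.trans x) := rfl

/-- A fixed orbit gives an element inducing the permutation. -/
theorem exists_of_fixed {σ : Equiv.Perm (Fin m)} {x : Fin m ↪ α}
    (h : permTupleHom G α m σ (Quotient.mk'' x) = Quotient.mk'' x) : ∃ g : G, ∀ i, g • x i = x (σ i) := by
  rw [permTupleHom_mk, Quotient.eq''] at h
  obtain ⟨g, hg⟩ := h
  refine ⟨g⁻¹, fun i => ?_⟩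
  have e : g • x (σ i) = x (σ⁻¹ (σ i)) := DFunLike.congr_fun hg (σ i)
  rw [inv_smul_eq_iff, e]
  simp

/-- An element inducing the permutation fixes the orbit. -/
theorem fixed_of_exists {σ : Equiv.Perm (Fin m)} {x : Fin m ↪ α} {g : G}
    (hg : ∀ i, g • x i = x (σ i)) : permTupleHom G α m σ (Quotient.mk'' x) = Quotient.mk'' x := by
  rw [permTupleHom_mk, Quotient.eq'']
  refine ⟨g⁻¹, Function.Embedding.ext fun i => ?_⟩
  show g⁻¹ • x i = x (σ⁻¹ i)
  rw [inv_smul_eq_iff, hg]
  simp

/-- If the symmetric group orbit of a tuple orbit is small, even permutations are induced. -/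
theorem even_induced_of_small [Finite α] {k : ℕ} (hk : 4 ≤ k) (x : Fin (k + 1) ↪ α)
    (hsmall : (Set.range fun σ => permTupleHom G α (k + 1) σ (Quotient.mk'' x)).ncard ≤ k)
    (σ : Equiv.Perm (Fin (k + 1))) (hσ : Equiv.Perm.sign σ = 1) : ∃ g : G, ∀ i, g • x i = x (σ i) := by
  classical
  let f := permTupleHom G α (k + 1)
  let q : MulAction.orbitRel.Quotient G (Fin (k + 1) ↪ α) := Quotient.mk'' x
  letI : MulAction (Equiv.Perm (Fin (k + 1))) (MulAction.orbitRel.Quotient G (Fin (k + 1) ↪ α)) :=
    MulAction.compHom _ f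
  have : Finite (MulAction.orbitRel.Quotient G (Fin (k + 1) ↪ α)) := Quotient.finite _
  let O := MulAction.orbit (Equiv.Perm (Fin (k + 1))) q
  let ρ : Equiv.Perm (Fin (k + 1)) →* Equiv.Perm O := MulAction.toPermHom _ O
  have hO : Nat.card O ≤ k := by rw [Nat.card_coe_set_eq]; exact hsmall
  have hnt : Nontrivial ρ.ker := by
    rw [Subgroup.nontrivial_iff_ne_bot]
    intro hbot
    have h1 := Nat.card_le_card_of_injective ρ ((MonoidHom.ker_eq_bot_iff ρ).1 hbot)
    rw [Nat.card_perm, Nat.card_perm, Nat.card_eq_fintype_card, Fintype.card_fin] at h1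
    have h2 : k.factorial < (k + 1).factorial := (Nat.factorial_lt (show 0 < k by omega)).2 (Nat.lt_succ_self k)
    have h3 := Nat.factorial_le hO
    omega
  have hA := Equiv.Perm.alternatingGroup_le_of_normal (by rw [Nat.card_eq_fintype_card, Fintype.card_fin]; omega) hnt
  have hmem : σ ∈ ρ.ker := hA (Equiv.Perm.mem_alternatingGroup.2 hσ)
  have h := Equiv.ext_iff.1 (MonoidHom.mem_ker.1 hmem) ⟨q, MulAction.mem_orbit_self q⟩
  exact exists_of_fixed (congrArg Subtype.val h)

/-- When only the identity fixes a tuple, orbit count times order is the number of tuples. -/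
theorem card_quotient_mul [Fintype α] [Finite G] (hfree : ∀ (x : Fin m ↪ α) (g : G), g • x = x → g = 1) :
    Nat.card (MulAction.orbitRel.Quotient G (Fin m ↪ α)) * Nat.card G = (Fintype.card α).descFactorial m := by
  classical
  have : Fintype G := Fintype.ofFinite G
  rw [← Nat.card_prod, Nat.card_congr ((MulAction.selfEquivSigmaOrbitsQuotientStabilizer G (Fin m ↪ α)).trans
      ((Equiv.sigmaCongrRight fun ω => Equiv.ofBijective (fun q => (q : G ⧸ MulAction.stabilizer G ω.out).out) ?_).trans
        (Equiv.sigmaEquivProd _ _))).symm, Nat.card_eq_fintype_card, Fintype.card_embedding_eq, Fintype.card_fin]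
  refine ⟨fun a b h => by
    simp only at h
    rw [← Quotient.out_eq a, ← Quotient.out_eq b, h], fun g => ⟨QuotientGroup.mk g, ?_⟩⟩
  obtain ⟨h, hh⟩ := QuotientGroup.mk_out_eq_mul (MulAction.stabilizer G ω.out) g
  simp only
  rw [hh, show (h : G) = 1 from hfree _ _ h.2, mul_one]

end Cfsg.Agent.H37
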