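import Cfsg.Agent.H37.FourTransitive
import Cfsg.Agent.H37.Orientation
import Cfsg.Agent.H37.TupleOrbits
import Cfsg.Agent.S0710

/-! Consequences for highly transitive groups: induced alternating groups on sets one larger. -/

namespace Cfsg.Agent.H37

open MulAction

variable {α : Type*} [Fintype α] [DecidableEq α]

/-- When only the identity fixes more than `m + 4` points, the orbit count on longer tuples is small. -/
theorem tuple_orbit_count_bound {G : Subgroup (Equiv.Perm α)} {m : ℕ}
    (hG : MulAction.IsMultiplyPretransitive G α (m + 4)) (hn : m + 4 ≤ Fintype.card α)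
    (hfree : ∀ g ∈ G, m + 4 < {x | g x = x}.ncard → g = 1) :
    Nat.card (MulAction.orbitRel.Quotient G (Fin (m + 4 + 1) ↪ α)) ≤ 3 ∨
      (Nat.card (MulAction.orbitRel.Quotient G (Fin (m + 4 + 1) ↪ α)) = 7 ∧ Fintype.card α = m + 11 ∧
        Nat.card G = (Fintype.card α).descFactorial (m + 4)) := by
  classical
  have hfree' : ∀ (x : Fin (m + 4 + 1) ↪ α) (g : G), g • x = x → g = 1 := by
    intro x g hg
    apply Subtype.ext
    refine hfree g g.2 ?_
    have hsub : Set.range x ⊆ {y | (g : Equiv.Perm α) y = y} := by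
      rintro _ ⟨i, rfl⟩
      exact DFunLike.congr_fun hg i
    have := Set.ncard_le_ncard hsub (Set.toFinite _)
    rw [Set.ncard_range_of_injective x.injective, Nat.card_eq_fintype_card, Fintype.card_fin] at this
    omega
  obtain ⟨a⟩ : Nonempty (Fin m ↪ α) := Function.Embedding.nonempty_of_card_le (by rw [Fintype.card_fin]; omega)
  obtain ⟨H, hH4, hHfree, hcard, hHG, -⟩ := exists_pointwise_restrict G (j := 4) hG hn a
  have hHfree4 : ∀ g : H, 4 < (fixSet g).ncard → g = 1 := fun g hg =>
    Subtype.ext (hHfree 4 hfree g g.2 hg)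
  obtain ⟨x⟩ : Nonempty (Fin 4 ↪ ↥((Set.range a)ᶜ : Set α)) := Function.Embedding.nonempty_of_card_le (by
    rw [Fintype.card_fin, ← Nat.card_eq_fintype_card]; omega)
  set d := Nat.card (MulAction.stabilizer H x)
  have hH := card_mul_descFactorial H hH4 x
  have hGc : Nat.card G = (Fintype.card α).descFactorial (m + 4) * d := by
    rw [← hHG, ← hH, ← Nat.card_eq_fintype_card (α := ↥((Set.range a)ᶜ : Set α)), ← Nat.descFactorial_mul_descFactorial (k := m) (m := m + 4) (by omega),
      show m + 4 - m = 4 by omega, show Fintype.card α - m = Nat.card ↥((Set.range a)ᶜ : Set α) by omega]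
    ring
  have hY := card_quotient_mul (G := G) (α := α) (m := m + 4 + 1) hfree'
  set Q := Nat.card (MulAction.orbitRel.Quotient G (Fin (m + 4 + 1) ↪ α))
  rw [hGc, Nat.descFactorial_succ (Fintype.card α) (m + 4)] at hY
  have hpos : 0 < (Fintype.card α).descFactorial (m + 4) := Nat.descFactorial_pos.2 hn
  have hQd : Q * d = Fintype.card α - (m + 4) := by
    refine Nat.eq_of_mul_eq_mul_right hpos ?_
    rw [← hY]
    show Q * d * _ = Q * _
    ring
  have hdpos : 0 < d := Nat.card_pos
  rcases four_bound hH4 hHfree4 x with h | ⟨h1, h11⟩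
  · left
    rw [← Nat.card_eq_fintype_card] at h
    have h' : Q * d ≤ 3 * d := by
      rw [hQd]
      change Nat.card ↥((Set.range a)ᶜ : Set α) - 4 ≤ 3 * d at h
      omega
    exact Nat.le_of_mul_le_mul_right h' hdpos
  · right
    have h1' : d = 1 := h1
    rw [← Nat.card_eq_fintype_card] at h11
    rw [h1', mul_one] at hQd
    rw [h1', mul_one] at hGc
    exact ⟨by omega, by omega, hGc⟩

/-- In a `k`-transitive group, `4 ≤ k < n`, some `(k+1)`-tuple has all even permutations induced. -/
theorem exists_even_induced {G : Subgroup (Equiv.Perm α)} {k : ℕ} (hk : 4 ≤ k) (hkn : k < Fintype.card α)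
    (hG : MulAction.IsMultiplyPretransitive G α k) :
    ∃ x : Fin (k + 1) ↪ α, ∀ σ : Equiv.Perm (Fin (k + 1)), Equiv.Perm.sign σ = 1 →
      ∃ g ∈ G, ∀ i, g (x i) = x (σ i) := by
  classical
  induction hn : Fintype.card α using Nat.strong_induction_on generalizing α with
  | _ n ih =>
  subst hn
  by_cases hfree : ∀ g ∈ G, k < {x | g x = x}.ncard → g = 1
  · suffices h : ∃ x : Fin (k + 1) ↪ α,
        (Set.range fun σ => permTupleHom G α (k + 1) σ (Quotient.mk'' x)).ncard ≤ k by
      obtain ⟨x, hx⟩ := h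
      refine ⟨x, fun σ hσ => ?_⟩
      obtain ⟨g, hg⟩ := even_induced_of_small hk x hx σ hσ
      exact ⟨g, g.2, hg⟩
    obtain ⟨m, rfl⟩ : ∃ m, k = m + 4 := ⟨k - 4, by omega⟩
    have : Finite (MulAction.orbitRel.Quotient G (Fin (m + 4 + 1) ↪ α)) := Quotient.finite _
    obtain ⟨x⟩ : Nonempty (Fin (m + 4 + 1) ↪ α) := Function.Embedding.nonempty_of_card_le (by rw [Fintype.card_fin]; omega)
    have hall : ∀ y : Fin (m + 4 + 1) ↪ α, (Set.range fun σ => permTupleHom G α (m + 4 + 1) σ (Quotient.mk'' y)).ncard ≤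
        Nat.card (MulAction.orbitRel.Quotient G (Fin (m + 4 + 1) ↪ α)) := fun y => by
      rw [← Set.ncard_univ]
      exact Set.ncard_le_ncard (Set.subset_univ _) (Set.toFinite _)
    rcases tuple_orbit_count_bound hG (by omega) hfree with h | ⟨h7, hn11, hcard⟩
    · exact ⟨x, (hall x).trans (by omega)⟩
    by_cases hm : 3 ≤ m
    · exact ⟨x, (hall x).trans (by omega)⟩
    by_cases hm2 : m = 2
    · subst hm2
      exfalso
      haveI : MulAction.IsPretransitive G α := by
        rw [← MulAction.is_one_pretransitive_iff]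
        exact MulAction.isMultiplyPretransitive_of_le (n := 2 + 4) (by norm_num) (by rw [Nat.card_eq_fintype_card]; omega)
      refine Cfsg.Agent.S0710.result hn11 G ?_
      rw [hcard, hn11]
      rfl
    letI : MulAction (Equiv.Perm (Fin (m + 4 + 1))) (MulAction.orbitRel.Quotient G (Fin (m + 4 + 1) ↪ α)) :=
      MulAction.compHom _ (M := Equiv.Perm (MulAction.orbitRel.Quotient G (Fin (m + 4 + 1) ↪ α))) (permTupleHom G α (m + 4 + 1))
    let q : MulAction.orbitRel.Quotient G (Fin (m + 4 + 1) ↪ α) := Quotient.mk'' x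
    set O := MulAction.orbit (Equiv.Perm (Fin (m + 4 + 1))) q with hO
    by_cases hsmall : O.ncard ≤ m + 4
    · exact ⟨x, hsmall⟩
    push Not at hsmall
    have hle : O.ncard ≤ 7 := by
      rw [← h7, ← Set.ncard_univ]
      exact Set.ncard_le_ncard (Set.subset_univ _) (Set.toFinite _)
    have hne7 : O.ncard ≠ 7 := by
      intro h
      have hd : O.ncard ∣ (m + 4 + 1).factorial := by
        rw [hO, ← MulAction.index_stabilizer]
        exact (Subgroup.index_dvd_card _).trans (by rw [Nat.card_perm, Nat.card_eq_fintype_card, Fintype.card_fin])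
      rw [h, Nat.Prime.dvd_factorial (by norm_num)] at hd
      omega
    obtain ⟨q', hq'⟩ : ∃ q', q' ∉ O := by
      by_contra h
      push Not at h
      rw [Set.eq_univ_of_forall h, Set.ncard_univ] at hne7
      exact hne7 h7
    obtain ⟨y, rfl⟩ : ∃ y, q' = Quotient.mk'' y := ⟨_, (Quotient.out_eq' q').symm⟩
    refine ⟨y, ?_⟩
    have hd : Disjoint O (Set.range fun σ => permTupleHom G α (m + 4 + 1) σ (Quotient.mk'' y)) := by
      rw [Set.disjoint_left]
      rintro z hz ⟨σ, rfl⟩
      apply hq'
      have := MulAction.mem_orbit_of_mem_orbit (σ⁻¹) hz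
      change σ⁻¹ • σ • (Quotient.mk'' y : MulAction.orbitRel.Quotient G (Fin (m + 4 + 1) ↪ α)) ∈ O at this
      rwa [inv_smul_smul] at this
    have h1 := Set.ncard_union_eq hd
    have h2 := Set.ncard_le_ncard (Set.subset_univ (O ∪ Set.range fun σ => permTupleHom G α (m + 4 + 1) σ (Quotient.mk'' y))) (Set.toFinite _)
    rw [h1, Set.ncard_univ, h7] at h2
    have key : ∀ p r : ℕ, m + 4 < r → r + p ≤ 7 → p ≤ m + 4 := fun p r _ _ => by omega
    exact key _ _ hsmall h2
  · push Not at hfree
    obtain ⟨g, hg, hgfix, hg1⟩ := hfree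
    obtain ⟨j, p, hp, hgp⟩ := exists_prime_power_order hg1
    have hpfix : k < {x | (g ^ j) x = x}.ncard :=
      lt_of_lt_of_le hgfix (Set.ncard_le_ncard (fun x hx => Equiv.Perm.pow_apply_eq_self_of_apply_eq_self hx j) (Set.toFinite _))
    obtain ⟨F, H, hinv, hHG, hkF, hFn, -, hF⟩ :=
      exists_smaller_transitive (by omega) hG hp (pow_mem hg j) hgp hpfix
    have hcF : Fintype.card F = F.ncard := by rw [← Nat.card_eq_fintype_card, Nat.card_coe_set_eq]
    obtain ⟨x, hx⟩ := ih (Fintype.card F) (by rw [hcF]; exact hFn) (by rw [hcF]; exact hkF) hF rfl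
    refine ⟨x.trans (Function.Embedding.subtype _), fun σ hσ => ?_⟩
    obtain ⟨e, he, hei⟩ := hx σ hσ
    obtain ⟨g', hg', hge⟩ := exists_of_mem_restrictGroup he
    refine ⟨g', hHG hg', fun i => ?_⟩
    show g' (x i : α) = (x (σ i) : α)
    rw [hge, hei]

/-- A highly transitive group inducing only even permutations on tuples has degree at most `m + 6`. -/
theorem card_le_of_even_induced {G : Subgroup (Equiv.Perm α)} {m : ℕ}
    (hG : MulAction.IsMultiplyPretransitive G α (m + 4)) (hn : m + 4 ≤ Fintype.card α)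
    (heven : ∀ g ∈ G, ∀ (x : Fin (m + 5) ↪ α) (σ : Equiv.Perm (Fin (m + 5))),
      (∀ i, g (x i) = x (σ i)) → Equiv.Perm.sign σ = 1) : Fintype.card α ≤ m + 6 := by
  classical
  obtain ⟨a⟩ : Nonempty (Fin m ↪ α) := Function.Embedding.nonempty_of_card_le (by rw [Fintype.card_fin]; omega)
  obtain ⟨H, hH4, -, hcard, -, hlift⟩ := exists_pointwise_restrict G (j := 4) hG hn a
  have hE : EvenOnFive H := by
    intro e he x σ hσ
    obtain ⟨g, hg, hga, hge⟩ := hlift e he
    let y : Fin (m + 5) ↪ α := ⟨Fin.append a (fun i => (x i : α)), Fin.append_injective_iff.2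
      ⟨a.injective, Subtype.val_injective.comp x.injective, fun i k e => (x k).2 ⟨i, e⟩⟩⟩
    let τ : Equiv.Perm (Fin (m + 5)) := (finSumFinEquiv.permCongr (Equiv.Perm.sumCongr 1 σ))
    have h := heven g hg y τ (by
      intro i
      induction i using Fin.addCases with
      | left i => simp [y, τ, Equiv.permCongr_apply, hga]
      | right i =>
        show g (Fin.append a (fun i => (x i : α)) (Fin.natAdd m i)) = _
        rw [Fin.append_right, hge, hσ]
        simp [y, τ, Equiv.permCongr_apply])
    rw [Equiv.Perm.sign_permCongr, Equiv.Perm.sign_sumCongr, map_one, one_mul] at h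
    exact h
  have := hE.card_le_six hH4
  rw [← Nat.card_eq_fintype_card] at this
  omega

end Cfsg.Agent.H37
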