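import Mathlib

/-! Restricting permutation groups to invariant sets and to complements of fixed tuples. -/

namespace Cfsg.Agent.H37

variable {α : Type*}

/-- The action of a group of permutations on an invariant set, as a homomorphism. -/
def restrictHom (H : Subgroup (Equiv.Perm α)) (F : Set α) (hinv : ∀ g ∈ H, ∀ x, g x ∈ F ↔ x ∈ F) :
    H →* Equiv.Perm F where
  toFun g := (g : Equiv.Perm α).subtypePerm (hinv g g.2)
  map_one' := Equiv.ext fun x => Subtype.ext rfl
  map_mul' g h := Equiv.ext fun x => Subtype.ext rfl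

/-- The permutation group induced on an invariant set. -/
def restrictGroup (H : Subgroup (Equiv.Perm α)) (F : Set α) (hinv : ∀ g ∈ H, ∀ x, g x ∈ F ↔ x ∈ F) :
    Subgroup (Equiv.Perm F) :=
  (restrictHom H F hinv).range

theorem exists_of_mem_restrictGroup {H : Subgroup (Equiv.Perm α)} {F : Set α}
    {hinv : ∀ g ∈ H, ∀ x, g x ∈ F ↔ x ∈ F} {e : Equiv.Perm F} (he : e ∈ restrictGroup H F hinv) :
    ∃ g ∈ H, ∀ x : F, g (x : α) = ((e x : F) : α) := by
  obtain ⟨g, rfl⟩ := he
  exact ⟨g, g.2, fun x => rfl⟩

/-- The element of the restricted group given by an element of `H`. -/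
def toRestrict {H : Subgroup (Equiv.Perm α)} {F : Set α}
    (hinv : ∀ g ∈ H, ∀ x, g x ∈ F ↔ x ∈ F) (g : Equiv.Perm α) (hg : g ∈ H) : restrictGroup H F hinv :=
  ⟨restrictHom H F hinv ⟨g, hg⟩, ⟨_, rfl⟩⟩

theorem toRestrict_apply {H : Subgroup (Equiv.Perm α)} {F : Set α}
    (hinv : ∀ g ∈ H, ∀ x, g x ∈ F ↔ x ∈ F) (g : Equiv.Perm α) (hg : g ∈ H) (x : F) :
    ((toRestrict hinv g hg • x : F) : α) = g x := rfl

/-- Orbit-stabiliser for a multiply transitive group on tuples. -/
theorem card_mul_descFactorial [Fintype α] (G : Subgroup (Equiv.Perm α)) {j : ℕ}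
    (hj : MulAction.IsMultiplyPretransitive G α j) (x : Fin j ↪ α) :
    (Fintype.card α).descFactorial j * Nat.card (MulAction.stabilizer G x) = Nat.card G := by
  classical
  have := Subgroup.index_mul_card (MulAction.stabilizer G x)
  have e : (MulAction.stabilizer G x).index = Nat.card (Fin j ↪ α) := by
    rw [MulAction.index_stabilizer]
    exact (congrArg Set.ncard (Set.eq_univ_of_forall fun y => hj.exists_smul_eq x y)).trans (Set.ncard_univ _)
  rw [e, Nat.card_eq_fintype_card (α := Fin j ↪ α), Fintype.card_embedding_eq, Fintype.card_fin] at this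
  exact this

/-- The pointwise stabiliser of a tuple, as a group on the remaining points. -/
theorem exists_pointwise_restrict [Fintype α] [DecidableEq α] (G : Subgroup (Equiv.Perm α)) {m j : ℕ}
    (hk : MulAction.IsMultiplyPretransitive G α (m + j)) (hn : m + j ≤ Fintype.card α) (a : Fin m ↪ α) :
    ∃ (H : Subgroup (Equiv.Perm ↥((Set.range a)ᶜ : Set α))),
      MulAction.IsMultiplyPretransitive H ↥((Set.range a)ᶜ : Set α) j ∧
      (∀ l : ℕ, (∀ g ∈ G, m + l < {x | g x = x}.ncard → g = 1) → ∀ g ∈ H, l < {x | g x = x}.ncard → g = 1) ∧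
      Fintype.card α = Nat.card ↥((Set.range a)ᶜ : Set α) + m ∧
      Nat.card H * (Fintype.card α).descFactorial m = Nat.card G ∧
      (∀ e ∈ H, ∃ g ∈ G, (∀ i, g (a i) = a i) ∧ ∀ x : ↥((Set.range a)ᶜ : Set α), g (x : α) = ((e x : ↥((Set.range a)ᶜ : Set α)) : α)) := by
  classical
  set F : Set α := (Set.range a)ᶜ with hF
  let S : Subgroup (Equiv.Perm α) := (MulAction.stabilizer G a).map G.subtype
  have hSa : ∀ g ∈ S, g ∈ G ∧ ∀ i, g (a i) = a i := by
    rintro _ ⟨g, hg, rfl⟩
    exact ⟨g.2, fun i => DFunLike.congr_fun (MulAction.mem_stabilizer_iff.1 hg) i⟩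
  have hSmem : ∀ g ∈ G, (∀ i, g (a i) = a i) → g ∈ S := fun g hg hga =>
    ⟨⟨g, hg⟩, MulAction.mem_stabilizer_iff.2 (Function.Embedding.ext hga), rfl⟩
  have hinv : ∀ g ∈ S, ∀ x, g x ∈ F ↔ x ∈ F := by
    intro g hg x
    simp only [hF, Set.mem_compl_iff, Set.mem_range, not_exists]
    constructor
    · intro h i e
      exact h i (by rw [← e, (hSa g hg).2 i])
    · intro h i e
      exact h i (g.injective (((hSa g hg).2 i).trans e))
  have hnc : Fintype.card α = Nat.card F + m := by
    rw [Nat.card_coe_set_eq, hF, Set.ncard_compl, Nat.card_eq_fintype_card, Set.ncard_range_of_injective a.injective,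
      Nat.card_eq_fintype_card (α := Fin m), Fintype.card_fin]
    omega
  have hmt : MulAction.IsMultiplyPretransitive G α m :=
    MulAction.isMultiplyPretransitive_of_le (n := m + j) (by omega) (by rw [Nat.card_eq_fintype_card]; exact hn)
  have hinj : Function.Injective (restrictHom S F hinv) := by
    intro g h e
    apply Subtype.ext
    ext x
    by_cases hx : x ∈ F
    · exact congrArg Subtype.val (Equiv.ext_iff.1 e ⟨x, hx⟩)
    · simp only [hF, Set.mem_compl_iff, not_not] at hx
      obtain ⟨i, rfl⟩ := hx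
      rw [(hSa g g.2).2, (hSa h h.2).2]
  refine ⟨restrictGroup S F hinv, ?_, ?_, hnc, ?_, ?_⟩
  · rw [MulAction.isMultiplyPretransitive_iff]
    intro x y
    let ext' : (Fin j ↪ F) → (Fin (m + j) ↪ α) := fun z =>
      ⟨Fin.append a (fun i => (z i : α)), Fin.append_injective_iff.2
        ⟨a.injective, Subtype.val_injective.comp z.injective, fun i k e => (z k).2 ⟨i, e⟩⟩⟩
    obtain ⟨g, hg⟩ := MulAction.exists_smul_eq G (ext' x) (ext' y)
    have hga : ∀ i, (g : Equiv.Perm α) (a i) = a i := fun i => by
      have h' : (g : Equiv.Perm α) (Fin.append a (fun i => (x i : α)) (Fin.castAdd j i)) =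
          Fin.append a (fun i => (y i : α)) (Fin.castAdd j i) := DFunLike.congr_fun hg (Fin.castAdd j i)
      simpa only [Fin.append_left] using! h'
    refine ⟨toRestrict hinv g (hSmem g g.2 hga), ?_⟩
    ext i
    have h' : (g : Equiv.Perm α) (Fin.append a (fun i => (x i : α)) (Fin.natAdd m i)) =
        Fin.append a (fun i => (y i : α)) (Fin.natAdd m i) := DFunLike.congr_fun hg (Fin.natAdd m i)
    simp only [Fin.append_right] at h'
    exact h'
  · intro l hfree e he hlt
    obtain ⟨g, rfl⟩ := he
    have h1 : (g : Equiv.Perm α) = 1 := by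
      refine hfree g (hSa g g.2).1 ?_
      have hsub : Set.range a ∪ Subtype.val '' {x : F | restrictHom S F hinv g x = x} ⊆ {x | (g : Equiv.Perm α) x = x} := by
        rintro x (⟨i, rfl⟩ | ⟨y, hy, rfl⟩)
        · exact (hSa g g.2).2 i
        · exact congrArg Subtype.val hy
      have hd : Disjoint (Set.range a) (Subtype.val '' {x : F | restrictHom S F hinv g x = x}) := by
        rw [Set.disjoint_left]
        rintro x hx ⟨y, -, rfl⟩
        exact y.2 hx
      refine lt_of_lt_of_le ?_ (Set.ncard_le_ncard hsub (Set.toFinite _))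
      rw [Set.ncard_union_eq hd, Set.ncard_range_of_injective a.injective, Nat.card_eq_fintype_card, Fintype.card_fin,
        Set.ncard_image_of_injective _ Subtype.val_injective]
      omega
    rw [show g = 1 from Subtype.ext h1, map_one]
  · have hS : Nat.card S = Nat.card (MulAction.stabilizer G a) :=
      Nat.card_congr (Subgroup.equivMapOfInjective _ _ G.subtype_injective).toEquiv.symm
    rw [show Nat.card (restrictGroup S F hinv) = Nat.card S from Nat.card_congr (MonoidHom.ofInjective hinj).toEquiv.symm,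
      hS, mul_comm, card_mul_descFactorial G hmt a]
  · intro e he
    obtain ⟨g, hg, hge⟩ := exists_of_mem_restrictGroup he
    exact ⟨g, (hSa g hg).1, (hSa g hg).2, hge⟩

end Cfsg.Agent.H37
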