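import Cfsg.Agent.H37.Involution
import Cfsg.Agent.H37.Restrict
import Cfsg.Agent.H37.Transitivity

/-! Shared facts for four-transitive groups with odd four-point stabilisers. -/

namespace Cfsg.Agent.H37

open MulAction

variable {α : Type*} {G : Subgroup (Equiv.Perm α)}

/-- The set of points fixed by an element of a permutation group. -/
def fixSet (g : G) : Set α := {p | g • p = p}

theorem mem_fixSet {g : G} {p : α} : p ∈ fixSet g ↔ g • p = p := Iff.rfl

/-- An involution moving at least three points has two disjoint cycles. -/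
theorem exists_two_cycles [Fintype α] {g : G} (hg : g * g = 1)
    (hmove : (fixSet g).ncard + 3 ≤ Fintype.card α) :
    ∃ x : Fin 4 ↪ α, g • x 0 = x 1 ∧ g • x 2 = x 3 := by
  classical
  have hc : (fixSet g)ᶜ.ncard = Fintype.card α - (fixSet g).ncard := by
    rw [Set.ncard_compl, Nat.card_eq_fintype_card]
  have gg : ∀ p : α, g • g • p = p := fun p => by rw [← mul_smul, hg, one_smul]
  obtain ⟨u, hu⟩ : (fixSet g)ᶜ.Nonempty := (Set.ncard_pos (Set.toFinite _)).1 (by omega)
  obtain ⟨w, hw, hwu⟩ : ∃ w ∈ (fixSet g)ᶜ, w ∉ ({u, g • u} : Set α) := by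
    by_contra h
    push Not at h
    have h1 := Set.ncard_le_ncard (s := (fixSet g)ᶜ) (t := {u, g • u}) h (Set.toFinite _)
    have h2 : ({u, g • u} : Set α).ncard ≤ 2 := Set.ncard_insert_le _ _ |>.trans (by simp)
    omega
  simp only [Set.mem_insert_iff, Set.mem_singleton_iff, not_or] at hwu
  refine ⟨emb4 u (g • u) w (g • w) (Ne.symm hu) (Ne.symm hwu.1) ?_ (Ne.symm hwu.2) ?_ (Ne.symm hw), rfl, rfl⟩
  · intro e
    exact hwu.2 (by rw [e, gg])
  · intro e
    exact hwu.1 (smul_left_cancel g e).symm

/-- Fixed points of a commuting element are permuted. -/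
theorem smul_mem_fixSet {g v : G} (h : Commute v g) {p : α} (hp : p ∈ fixSet v) : g • p ∈ fixSet v := by
  rw [mem_fixSet] at hp ⊢
  rw [← mul_smul, h.eq, mul_smul, hp]

/-- An element of prime order without fixed points on an invariant finite set divides its size. -/
theorem prime_dvd_ncard [Finite α] {g : G} {q : ℕ} (hq : q.Prime) (hg : orderOf g = q) (S : Set α)
    (hinv : ∀ p ∈ S, g • p ∈ S) (hfree : ∀ p ∈ S, g • p ≠ p) : q ∣ S.ncard := by
  have hinv' : ∀ c : Subgroup.zpowers g, ∀ p ∈ S, c • p ∈ S := by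
    rintro ⟨c, hc⟩ p hp
    obtain ⟨n, rfl⟩ := mem_powers_iff_mem_zpowers.2 hc
    show g ^ n • p ∈ S
    clear hc
    induction n with
    | zero => simpa using hp
    | succ n ih => rw [pow_succ', mul_smul]; exact hinv _ ih
  refine dvd_ncard_of_orbits (G := Subgroup.zpowers g) S hinv' fun p hp => ?_
  haveI : Fact q.Prime := ⟨hq⟩
  have hd : (MulAction.orbit (Subgroup.zpowers g) p).ncard ∣ q := by
    rw [← MulAction.index_stabilizer, ← hg, ← Nat.card_zpowers]
    exact Subgroup.index_dvd_card _
  rcases (Nat.dvd_prime hq).1 hd with h | h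
  · obtain ⟨o, ho⟩ := Set.ncard_eq_one.1 h
    have h1 : g • p ∈ MulAction.orbit (Subgroup.zpowers g) p :=
      MulAction.mem_orbit p (⟨g, Subgroup.mem_zpowers g⟩ : Subgroup.zpowers g)
    have h2 : p ∈ MulAction.orbit (Subgroup.zpowers g) p := MulAction.mem_orbit_self p
    rw [ho, Set.mem_singleton_iff] at h1 h2
    exact absurd (h1.trans h2.symm) (hfree p hp)
  · rw [h]

/-- A power of a non-identity element has prime order. -/
theorem exists_prime_power_order {Γ : Type*} [Group Γ] [Finite Γ] {g : Γ} (hg : g ≠ 1) :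
    ∃ (n : ℕ) (q : ℕ), q.Prime ∧ orderOf (g ^ n) = q := by
  obtain ⟨q, hq, hd⟩ := Nat.exists_prime_and_dvd (show orderOf g ≠ 1 from fun e => hg (orderOf_eq_one_iff.1 e))
  exact ⟨orderOf g / q, q, hq, orderOf_pow_orderOf_div (orderOf_pos g).ne' hd⟩

/-- An involutive map on a finite set has fixed points with the parity of the set. -/
theorem odd_fixed_of_involutive {β : Type*} [DecidableEq β] (S : Finset β) (f : β → β) (hf : ∀ x ∈ S, f x ∈ S)
    (hff : ∀ x ∈ S, f (f x) = x) (hodd : Odd S.card) : Odd (S.filter fun x => f x = x).card := by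
  have h2 : ∑ x ∈ S.filter (fun x => ¬ f x = x), (1 : ZMod 2) = 0 := by
    refine Finset.sum_involution (fun x _ => f x) (fun x _ => by decide) ?_ ?_ ?_
    · intro x hx _
      exact (Finset.mem_filter.1 hx).2
    · intro x hx
      obtain ⟨h1, h2⟩ := Finset.mem_filter.1 hx
      exact Finset.mem_filter.2 ⟨hf x h1, fun e => h2 (by rw [hff x h1] at e; exact e.symm)⟩
    · intro x hx
      exact hff x (Finset.mem_filter.1 hx).1
  rw [Finset.sum_const, nsmul_one, ZMod.natCast_eq_zero_iff_even] at h2
  rw [Nat.odd_iff] at hodd ⊢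
  rw [Nat.even_iff] at h2
  have := Finset.card_filter_add_card_filter_not (s := S) (fun x => f x = x)
  omega

/-- Stabilisers of tuples in a multiply transitive group have equal order. -/
theorem card_stab_eq [Fintype α] {j : ℕ} (hj : MulAction.IsMultiplyPretransitive G α j) (x y : Fin j ↪ α) :
    Nat.card (MulAction.stabilizer G x) = Nat.card (MulAction.stabilizer G y) := by
  have hpos : 0 < (Fintype.card α).descFactorial j := Nat.descFactorial_pos.2 (by
    have := Fintype.card_le_of_embedding x
    simpa using this)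
  exact Nat.eq_of_mul_eq_mul_left hpos ((card_mul_descFactorial G hj x).trans (card_mul_descFactorial G hj y).symm)

/-- Conjugation by an element preserving a tuple's range normalises its stabiliser. -/
theorem conj_mem_stab {j : ℕ} {x : Fin j ↪ α} {u : G} {σ : Fin j → Fin j} (hu : ∀ i, u • x i = x (σ i))
    (hσ : Function.Surjective σ) {g : G} (hg : g ∈ MulAction.stabilizer G x) :
    u * g * u⁻¹ ∈ MulAction.stabilizer G x := by
  refine mem_stab_emb.2 fun i => ?_
  obtain ⟨k, rfl⟩ := hσ i
  rw [mul_smul, mul_smul, show u⁻¹ • x (σ k) = x k by rw [inv_smul_eq_iff, hu], mem_stab_emb.1 hg, hu]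

/-- The three double transpositions and two transpositions used on four points. -/
def sig (a b c d : Fin 4) : Equiv.Perm (Fin 4) := Equiv.swap a b * Equiv.swap c d

end Cfsg.Agent.H37
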