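import Cfsg.Agent.H37.FourCommon
import Cfsg.Agent.H37.Tits

/-! Four-transitive groups in which only the identity fixes five points. -/

namespace Cfsg.Agent.H37

open MulAction

variable {α : Type*} [Fintype α] [DecidableEq α] {G : Subgroup (Equiv.Perm α)}

/-- Even four-point stabilisers: a count of involutions gives a lower bound on their order. -/
theorem four_even_bound (h4 : MulAction.IsMultiplyPretransitive G α 4)
    (hfree : ∀ g : G, 4 < (fixSet g).ncard → g = 1) (x : Fin 4 ↪ α)
    (hev : Even (Nat.card (MulAction.stabilizer G x))) :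
    Fintype.card α - 4 ≤ 2 * Nat.card (MulAction.stabilizer G x) := by
  classical
  set d := Nat.card (MulAction.stabilizer G x) with hd
  obtain ⟨z', hz'⟩ := exists_prime_orderOf_dvd_card' (G := MulAction.stabilizer G x) 2 hev.two_dvd
  obtain ⟨z, hzdef⟩ : ∃ z : G, z = z' := ⟨_, rfl⟩
  have hz : z * z = 1 := by
    rw [hzdef, ← Subgroup.coe_mul, ← pow_two, ← hz', pow_orderOf_eq_one, Subgroup.coe_one]
  have hz1 : z ≠ 1 := fun e => by
    rw [← Subgroup.orderOf_coe, ← hzdef, e, orderOf_one] at hz'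
    omega
  have hzx : ∀ i, z • x i = x i := hzdef ▸ mem_stab_emb.1 z'.2
  have hzfix : fixSet z = Set.range x := by
    refine (Set.eq_of_subset_of_ncard_le (by rintro _ ⟨i, rfl⟩; exact hzx i) ?_ (Set.toFinite _)).symm
    rw [Set.ncard_range_of_injective x.injective, Nat.card_eq_fintype_card, Fintype.card_fin]
    by_contra h
    exact hz1 (hfree z (by omega))
  obtain ⟨a, ha⟩ : ∃ a, a = x 0 := ⟨_, rfl⟩
  obtain ⟨b, hb⟩ : ∃ b, b = x 1 := ⟨_, rfl⟩
  have hab : a ≠ b := ha ▸ hb ▸ x.injective.ne (by decide)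
  let R : Finset α := ({a, b} : Finset α)ᶜ
  have hR : ∀ p, p ∈ R ↔ p ≠ a ∧ p ≠ b := fun p => by simp [R]
  have hRc : R.card = Fintype.card α - 2 := by rw [Finset.card_compl, Finset.card_pair hab]
  have hw : ∀ pq : α × α, pq ∈ R.offDiag → ∃ w : G, w * w = 1 ∧
      fixSet w = ↑({a, b, pq.1, pq.2} : Finset α) := by
    rintro ⟨p, r⟩ hpr
    rw [Finset.mem_offDiag, hR, hR] at hpr
    obtain ⟨⟨hpa, hpb⟩, ⟨hra, hrb⟩, hpr'⟩ := hpr
    obtain ⟨c, hc⟩ := MulAction.exists_smul_eq G x (emb4 a b p r hab hpa.symm hra.symm hpb.symm hrb.symm hpr')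
    refine ⟨c * z * c⁻¹, by rw [show c * z * c⁻¹ * (c * z * c⁻¹) = c * (z * z) * c⁻¹ by group, hz, mul_one, mul_inv_cancel], ?_⟩
    have hci : ∀ i, c • x i = ![a, b, p, r] i := fun i => DFunLike.congr_fun hc i
    have himg : fixSet (c * z * c⁻¹) = (fun y => c • y) '' fixSet z := by
      ext y
      constructor
      · intro hy
        refine ⟨c⁻¹ • y, ?_, smul_inv_smul c y⟩
        rw [mem_fixSet, eq_inv_smul_iff, ← mul_smul, ← mul_smul]
        exact hy
      · rintro ⟨q, hq, rfl⟩
        show (c * z * c⁻¹) • c • q = c • q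
        rw [mul_smul, mul_smul, inv_smul_smul, mem_fixSet.1 hq]
    rw [himg, hzfix, ← Set.range_comp]
    ext y
    simp only [Set.mem_range, Function.comp_apply, hci, Finset.coe_insert, Finset.coe_singleton,
      Set.mem_insert_iff, Set.mem_singleton_iff]
    constructor
    · rintro ⟨i, rfl⟩
      fin_cases i <;> simp
    · rintro (rfl | rfl | rfl | rfl)
      · exact ⟨0, rfl⟩
      · exact ⟨1, rfl⟩
      · exact ⟨2, rfl⟩
      · exact ⟨3, rfl⟩
  choose! w hw2 hwfix using hw
  let D : Finset ((α × α) × α) := (R.offDiag ×ˢ R).filter fun q => q.2 ∉ ({q.1.1, q.1.2} : Finset α)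
  let T : Finset (G × α) := Finset.univ.filter fun gu =>
    gu.1 * gu.1 = 1 ∧ gu.1 • a = a ∧ gu.1 • b = b ∧ gu.1 • gu.2 ≠ gu.2
  have hD : D.card = (R.card * R.card - R.card) * (R.card - 2) := by
    rw [← Finset.offDiag_card, Finset.card_eq_sum_card_fiberwise (f := fun q : (α × α) × α => q.1) (t := R.offDiag)
      (fun q hq => (Finset.mem_product.1 (Finset.mem_filter.1 hq).1).1), Finset.sum_const_nat (m := R.card - 2)]
    intro pq hpq
    obtain ⟨h1, h2, h3⟩ := Finset.mem_offDiag.1 hpq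
    rw [show R.card - 2 = (R \ {pq.1, pq.2}).card by
      rw [Finset.card_sdiff_of_subset (Finset.insert_subset h1 (Finset.singleton_subset_iff.2 h2)), Finset.card_pair h3]]
    refine Finset.card_bij (fun q _ => q.2) ?_ ?_ ?_
    · intro q hq
      obtain ⟨hq1, rfl⟩ := Finset.mem_filter.1 hq
      obtain ⟨hq2, hq3⟩ := Finset.mem_filter.1 hq1
      exact Finset.mem_sdiff.2 ⟨(Finset.mem_product.1 hq2).2, hq3⟩
    · intro q hq q' hq' h
      exact Prod.ext ((Finset.mem_filter.1 hq).2.trans (Finset.mem_filter.1 hq').2.symm) h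
    · intro u hu
      obtain ⟨hu1, hu2⟩ := Finset.mem_sdiff.1 hu
      exact ⟨(pq, u), Finset.mem_filter.2 ⟨Finset.mem_filter.2 ⟨Finset.mem_product.2 ⟨hpq, hu1⟩, hu2⟩, rfl⟩, rfl⟩
  have hDT : D.card ≤ 2 * T.card := by
    refine Finset.card_le_mul_card_image_of_maps_to (f := fun q => (w q.1, q.2)) ?_ 2 ?_
    · intro q hq
      obtain ⟨hq1, hq2⟩ := Finset.mem_filter.1 hq
      obtain ⟨hq3, hq4⟩ := Finset.mem_product.1 hq1
      obtain ⟨hq5, hq6⟩ := (hR _).1 hq4
      simp only [Finset.mem_insert, Finset.mem_singleton, not_or] at hq2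
      refine Finset.mem_filter.2 ⟨Finset.mem_univ _, hw2 _ hq3, ?_, ?_, fun hfix => ?_⟩
      · exact mem_fixSet.1 (by rw [hwfix _ hq3]; simp)
      · exact mem_fixSet.1 (by rw [hwfix _ hq3]; simp)
      · have : q.2 ∈ fixSet (w q.1) := hfix
        rw [hwfix _ hq3] at this
        simp [hq5, hq6, hq2.1, hq2.2] at this
    · intro gu _
      rcases (D.filter fun q => (w q.1, q.2) = gu).eq_empty_or_nonempty with h | ⟨q₀, hq₀⟩
      · simp [h]
      refine (Finset.card_le_card (t := ({q₀, ((q₀.1.2, q₀.1.1), q₀.2)} : Finset _)) ?_).trans Finset.card_le_two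
      intro q hq
      obtain ⟨hq1, hq2⟩ := Finset.mem_filter.1 hq
      obtain ⟨hq01, hq02⟩ := Finset.mem_filter.1 hq₀
      rw [← hq02, Prod.mk.injEq] at hq2
      obtain ⟨e1, e2⟩ := hq2
      have h1 := hwfix _ (Finset.mem_product.1 (Finset.mem_filter.1 hq1).1).1
      have h2 := hwfix _ (Finset.mem_product.1 (Finset.mem_filter.1 hq01).1).1
      rw [e1, h2, Finset.coe_inj] at h1
      obtain ⟨hd1, hd2, hd3⟩ := Finset.mem_offDiag.1 (Finset.mem_product.1 (Finset.mem_filter.1 hq1).1).1
      rw [hR] at hd1 hd2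
      have m1 : q.1.1 = q₀.1.1 ∨ q.1.1 = q₀.1.2 := by
        have : q.1.1 ∈ ({a, b, q₀.1.1, q₀.1.2} : Finset α) := by rw [h1]; simp
        simpa [hd1.1, hd1.2] using this
      have m2 : q.1.2 = q₀.1.1 ∨ q.1.2 = q₀.1.2 := by
        have : q.1.2 ∈ ({a, b, q₀.1.1, q₀.1.2} : Finset α) := by rw [h1]; simp
        simpa [hd2.1, hd2.2] using this
      rw [Finset.mem_insert, Finset.mem_singleton]
      rcases m1 with m1 | m1 <;> rcases m2 with m2 | m2
      · exact absurd (m1.trans m2.symm) hd3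
      · exact Or.inl (Prod.ext (Prod.ext m1 m2) e2)
      · exact Or.inr (Prod.ext (Prod.ext m1 m2) e2)
      · exact absurd (m1.trans m2.symm) hd3
  have hT : T.card ≤ d * R.offDiag.card := by
    refine Finset.card_le_mul_card_image_of_maps_to (f := fun gu : G × α => (gu.2, gu.1 • gu.2)) ?_ d ?_
    · intro gu hgu
      obtain ⟨-, h0, h1, h2, h3⟩ := Finset.mem_filter.1 hgu
      refine Finset.mem_offDiag.2 ⟨(hR _).2 ⟨?_, ?_⟩, (hR _).2 ⟨?_, ?_⟩, Ne.symm h3⟩
      · exact fun (e : gu.2 = a) => h3 (e.symm ▸ h1)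
      · exact fun (e : gu.2 = b) => h3 (e.symm ▸ h2)
      · exact fun (e : gu.1 • gu.2 = a) => h3 (by rw [e]; exact (smul_left_cancel gu.1 (e.trans h1.symm)).symm)
      · exact fun (e : gu.1 • gu.2 = b) => h3 (by rw [e]; exact (smul_left_cancel gu.1 (e.trans h2.symm)).symm)
    · rintro ⟨u, v⟩ huv
      obtain ⟨hu, hv, huv'⟩ := Finset.mem_offDiag.1 huv
      rw [hR] at hu hv
      let y := emb4 a b u v hab hu.1.symm hv.1.symm hu.2.symm hv.2.symm huv'
      rcases (T.filter fun gu : G × α => (gu.2, gu.1 • gu.2) = (u, v)).eq_empty_or_nonempty with h | ⟨g₀, hg₀⟩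
      · rw [h]; simp
      rw [hd, card_stab_eq h4 x y, Nat.card_eq_fintype_card, Fintype.card_subtype]
      refine Finset.card_le_card_of_injOn (fun gu => g₀.1 * gu.1) ?_ ?_
      · intro gu hgu
        obtain ⟨hgu1, hgu2⟩ := Finset.mem_filter.1 hgu
        obtain ⟨hg01, hg02⟩ := Finset.mem_filter.1 hg₀
        obtain ⟨-, h0, h1, h2, -⟩ := Finset.mem_filter.1 hgu1
        obtain ⟨-, g0, g1, g2, -⟩ := Finset.mem_filter.1 hg01
        simp only [Prod.mk.injEq] at hgu2 hg02
        rw [hgu2.1] at hgu2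
        rw [hg02.1] at hg02
        simp only [Finset.coe_filter, Finset.mem_univ, true_and]
        refine mem_stab_emb.2 fun i => ?_
        rw [mul_smul]
        fin_cases i
        · show g₀.1 • gu.1 • a = a
          rw [h1, g1]
        · show g₀.1 • gu.1 • b = b
          rw [h2, g2]
        · show g₀.1 • gu.1 • u = u
          rw [hgu2.2, ← hg02.2, ← mul_smul, g0, one_smul]
        · show g₀.1 • gu.1 • v = v
          rw [← hgu2.2, ← mul_smul gu.1, h0, one_smul, hg02.2, hgu2.2]
      · intro gu hgu gu' hgu' h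
        simp only [Finset.coe_filter, Set.mem_setOf_eq, Prod.mk.injEq] at hgu hgu'
        exact Prod.ext (mul_left_cancel h) (hgu.2.1.trans hgu'.2.1.symm)
  rw [Finset.offDiag_card] at hT
  rw [hD] at hDT
  by_contra hlt
  push Not at hlt
  have hpos : 0 < R.card * R.card - R.card := by
    have : 2 ≤ R.card := by omega
    have := Nat.mul_le_mul_right R.card this
    omega
  have hc : (R.card * R.card - R.card) * (R.card - 2) ≤ (R.card * R.card - R.card) * (2 * d) := by
    calc _ ≤ 2 * T.card := hDT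
      _ ≤ 2 * (d * (R.card * R.card - R.card)) := by omega
      _ = _ := by ring
  have := Nat.le_of_mul_le_mul_left hc hpos
  omega

/-- Odd non-trivial four-point stabilisers force degree at most eleven. -/
theorem four_odd_bound (h4 : MulAction.IsMultiplyPretransitive G α 4)
    (hfree : ∀ g : G, 4 < (fixSet g).ncard → g = 1) (x : Fin 4 ↪ α)
    (hodd : Odd (Nat.card (MulAction.stabilizer G x))) (hd1 : Nat.card (MulAction.stabilizer G x) ≠ 1) :
    Fintype.card α ≤ 11 := by
  classical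
  by_contra hn
  push Not at hn
  have hodd' : ∀ y : Fin 4 ↪ α, Odd (Nat.card (MulAction.stabilizer G y)) := fun y => card_stab_eq h4 x y ▸ hodd
  have hle : ∀ g : G, g ≠ 1 → (fixSet g).ncard ≤ 4 := fun g hg => by
    by_contra h
    exact hg (hfree g (by omega))
  have hconj : ∀ g h : G, g * g = 1 → g ≠ 1 → h * h = 1 → h ≠ 1 → ∃ c : G, c * g * c⁻¹ = h := by
    intro g h hg hg1 hh hh1
    obtain ⟨y, hy1, hy2⟩ := exists_two_cycles hg (by have := hle g hg1; omega)
    obtain ⟨y', hy1', hy2'⟩ := exists_two_cycles hh (by have := hle h hh1; omega)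
    exact exists_conj_of_two_cycles h4 hodd' hg hh y y' hy1 hy2 hy1' hy2'
  have hne4 : ∀ {g : G} {i j : Fin 4}, i ≠ j → g • x i = x j → g ≠ 1 := fun hij h e => by
    rw [e, one_smul] at h
    exact hij (x.injective h)
  have hsame : ∀ g h : G, g * g = 1 → g ≠ 1 → h * h = 1 → h ≠ 1 → (fixSet h).ncard = (fixSet g).ncard := by
    intro g h hg hg1 hh hh1
    obtain ⟨c, hc⟩ := hconj g h hg hg1 hh hh1
    rw [show fixSet h = {p : α | h • p = p} from rfl, ← hc, ncard_fixed_conj]
    rfl
  obtain ⟨s, hs, hsx⟩ := exists_lift h4 hodd' x (Equiv.swap 2 3) (Equiv.swap_mul_self _ _)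
  obtain ⟨t, ht, htx, hst⟩ := exists_lift_commute h4 hodd' x (Equiv.swap 2 3) (Equiv.swap 0 1)
    (Equiv.swap_mul_self _ _) (by decide) s hs hsx
  have hs1 : s ≠ 1 := hne4 (i := 2) (j := 3) (by decide) (hsx 2)
  have ht1 : t ≠ 1 := hne4 (i := 0) (j := 1) (by decide) (htx 0)
  obtain ⟨u1, hu1, hu1x⟩ := exists_lift h4 hodd' x (Equiv.swap 0 1 * Equiv.swap 2 3) (by decide)
  obtain ⟨u2, hu2, hu2x, hu12⟩ := exists_lift_commute h4 hodd' x (Equiv.swap 0 1 * Equiv.swap 2 3)
    (Equiv.swap 0 2 * Equiv.swap 1 3) (by decide) (by decide) u1 hu1 hu1x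
  have hu3 : (u1 * u2) * (u1 * u2) = 1 := by
    rw [mul_assoc, ← mul_assoc u2, ← hu12, mul_assoc u1 u2 u2, hu2, mul_one, hu1]
  have hu3x : ∀ i, (u1 * u2) • x i = x ((Equiv.swap 0 1 * Equiv.swap 2 3 : Equiv.Perm (Fin 4))
      ((Equiv.swap 0 2 * Equiv.swap 1 3 : Equiv.Perm (Fin 4)) i)) :=
    fun i => by rw [mul_smul, hu2x, hu1x]
  have hu11 : u1 ≠ 1 := hne4 (i := 0) (j := 1) (by decide) ((hu1x 0).trans (congrArg x (by decide)))
  have hu21 : u2 ≠ 1 := hne4 (i := 0) (j := 2) (by decide) ((hu2x 0).trans (congrArg x (by decide)))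
  have hu31 : u1 * u2 ≠ 1 := hne4 (i := 0) (j := 3) (by decide) ((hu3x 0).trans (congrArg x (by decide)))
  have hx01 : x 0 ∈ fixSet s ∧ x 1 ∈ fixSet s :=
    ⟨(hsx 0).trans (congrArg x (by decide)), (hsx 1).trans (congrArg x (by decide))⟩
  have hs2 : 2 ≤ (fixSet s).ncard := by
    have hsub : ({x 0, x 1} : Set α) ⊆ fixSet s := by rintro p (rfl | rfl); exacts [hx01.1, hx01.2]
    have := Set.ncard_le_ncard hsub (Set.toFinite _)
    rwa [Set.ncard_pair (x.injective.ne (by decide))] at this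
  set M := MulAction.stabilizer G x with hM
  have hMne : M ≠ ⊥ := fun e => hd1 (by rw [e]; exact Subgroup.card_bot)
  obtain ⟨g, hgM, hg1, hgc⟩ := exists_centralised M hMne hu1 hu2
    (fun m hm => conj_mem_stab hu1x (Equiv.surjective _) hm) (fun m hm => conj_mem_stab hu2x (Equiv.surjective _) hm)
  obtain ⟨k, q, hq, hgq⟩ := exists_prime_power_order hg1
  have hqodd : Odd q := by
    have h1 : orderOf (g ^ k) ∣ Nat.card M := Subgroup.orderOf_dvd_natCard _ (pow_mem hgM k)
    rw [hgq] at h1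
    exact hodd.of_dvd_nat h1
  have hgk : ∀ i, (g ^ k) • x i = x i := mem_stab_emb.1 (pow_mem hgM k)
  have hgk1 : g ^ k ≠ 1 := fun e => hq.ne_one (by rw [← hgq, e, orderOf_one])
  have hdvd : q ∣ (fixSet s).ncard := by
    have key : ∀ (v : G) (σ : Equiv.Perm (Fin 4)), v * v = 1 → v ≠ 1 → (∀ i, v • x i = x (σ i)) → (∀ i, σ i ≠ i) →
        Commute v g → q ∣ (fixSet s).ncard := by
      intro v σ hv hv1 hvx hσ hc
      have hL : ∀ i, x i ∉ fixSet v := fun i h => hσ i (x.injective ((hvx i).symm.trans h))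
      rw [← hsame s v hs hs1 hv hv1]
      refine prime_dvd_ncard hq hgq (fixSet v) (fun p hp => smul_mem_fixSet (hc.pow_right k) hp) ?_
      intro p hp hgp
      have hsub : insert p (Set.range x) ⊆ fixSet (g ^ k) := by
        rintro y (rfl | ⟨i, rfl⟩)
        · exact hgp
        · exact hgk i
      have h := Set.ncard_le_ncard hsub (Set.toFinite _)
      rw [Set.ncard_insert_of_notMem (by rintro ⟨i, rfl⟩; exact hL i hp), Set.ncard_range_of_injective x.injective,
        Nat.card_eq_fintype_card, Fintype.card_fin] at h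
      have := hle _ hgk1
      omega
    rcases hgc with hc | hc | hc
    · exact key u1 _ hu1 hu11 hu1x (by decide) hc
    · exact key u2 _ hu2 hu21 hu2x (by decide) hc
    · exact key (u1 * u2) ((Equiv.swap 0 1 * Equiv.swap 2 3) * (Equiv.swap 0 2 * Equiv.swap 1 3)) hu3 hu31 hu3x (by decide) hc
  have hf3 : (fixSet s).ncard = 3 := by
    have h1 := hle s hs1
    have h2 := Nat.le_of_dvd (by omega) hdvd
    have h3 : 3 ≤ q := by
      have := hq.two_le
      rw [Nat.odd_iff] at hqodd
      omega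
    obtain ⟨c, hc⟩ := hdvd
    rcases c with _ | _ | c
    · omega
    · have : (fixSet s).ncard = q := by rw [hc, zero_add, mul_one]
      rw [Nat.odd_iff] at hqodd
      omega
    · have : q * (c + 1 + 1) = q * c + q + q := by ring
      omega
  obtain ⟨e, hes, he0, he1⟩ : ∃ e ∈ fixSet s, e ≠ x 0 ∧ e ≠ x 1 := by
    by_contra h
    push Not at h
    have hsub : fixSet s ⊆ {x 0, x 1} := fun p hp => by
      by_cases h0 : p = x 0
      · exact Or.inl h0
      · exact Or.inr (h p hp h0)
    have := Set.ncard_le_ncard hsub (Set.toFinite _)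
    rw [Set.ncard_pair (x.injective.ne (by decide))] at this
    omega
  have hFs : fixSet s = {x 0, x 1, e} := by
    refine (Set.eq_of_subset_of_ncard_le (by rintro p (rfl | rfl | rfl); exacts [hx01.1, hx01.2, hes]) ?_ (Set.toFinite _)).symm
    rw [hf3, Set.ncard_eq_three.2 ⟨x 0, x 1, e, x.injective.ne (by decide), he0.symm, he1.symm, rfl⟩]
  have hstc : Commute s t := hst
  have ss : ∀ p : α, s • s • p = p := fun p => by rw [← mul_smul, hs, one_smul]
  have tt : ∀ p : α, t • t • p = p := fun p => by rw [← mul_smul, ht, one_smul]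
  have st : ∀ p : α, s • t • p = t • s • p := fun p => by rw [← mul_smul, hst, mul_smul]
  have ht0 : t • x 0 = x 1 := htx 0
  have ht1' : t • x 1 = x 0 := (htx 1).trans (congrArg x (by decide))
  have hte : t • e = e := by
    have h := smul_mem_fixSet hstc hes
    rw [hFs] at h
    rcases h with h | h | h
    · exact absurd (show e = x 1 by rw [← tt e, h, ht0]) he1
    · exact absurd (show e = x 0 by rw [← tt e, h, ht1']) he0
    · exact h
  have hx23 : x 2 ∈ fixSet t ∧ x 3 ∈ fixSet t :=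
    ⟨(htx 2).trans (congrArg x (by decide)), (htx 3).trans (congrArg x (by decide))⟩
  have hs2' : s • x 2 = x 3 := hsx 2
  have hs23 : x 3 ≠ x 2 := x.injective.ne (by decide)
  have he2 : e ≠ x 2 := fun h => hs23 (hs2'.symm.trans (mem_fixSet.1 (h ▸ hes)))
  have he3 : e ≠ x 3 := fun h => hs23 (smul_left_cancel s ((mem_fixSet.1 (h ▸ hes)).trans hs2'.symm))
  have hft : (fixSet t).ncard = 3 := by rw [hsame s t hs hs1 ht ht1, hf3]
  have hFt : fixSet t = {x 2, x 3, e} := by
    refine (Set.eq_of_subset_of_ncard_le (by rintro p (rfl | rfl | rfl); exacts [hx23.1, hx23.2, hte]) ?_ (Set.toFinite _)).symm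
    rw [hft, Set.ncard_eq_three.2 ⟨x 2, x 3, e, x.injective.ne (by decide), he2.symm, he3.symm, rfl⟩]
  have hu : (s * t) * (s * t) = 1 := by
    rw [mul_assoc, ← mul_assoc t, ← hst, mul_assoc s t t, ht, mul_one, hs]
  have hu1' : s * t ≠ 1 := fun h => by
    have h' : t = s := by
      have : t = s * (s * t) := by rw [← mul_assoc, hs, one_mul]
      rw [this, h, mul_one]
    have h0 : s • x 2 = x 2 := h' ▸ hx23.1
    exact hs23 (hs2'.symm.trans h0)
  have hfu : (fixSet (s * t)).ncard = 3 := by rw [hsame s (s * t) hs hs1 hu hu1', hf3]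
  have heu : e ∈ fixSet (s * t) := by
    show (s * t) • e = e
    rw [mul_smul, hte]; exact hes
  set Φ := fixSet s ∪ fixSet t ∪ fixSet (s * t) with hΦ
  have hΦc : Φ.ncard ≤ 7 := by
    have hsub : Φ ⊆ ({x 0, x 1, e} ∪ {x 2, x 3}) ∪ (fixSet (s * t) \ {e}) := by
      rintro p ((hp | hp) | hp)
      · rw [hFs] at hp; exact Or.inl (Or.inl hp)
      · rw [hFt] at hp
        rcases hp with rfl | rfl | rfl
        · exact Or.inl (Or.inr (Or.inl rfl))
        · exact Or.inl (Or.inr (Or.inr rfl))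
        · exact Or.inl (Or.inl (Or.inr (Or.inr rfl)))
      · by_cases hpe : p = e
        · subst hpe; exact Or.inl (Or.inl (Or.inr (Or.inr rfl)))
        · exact Or.inr ⟨hp, hpe⟩
    refine (Set.ncard_le_ncard hsub (Set.toFinite _)).trans ((Set.ncard_union_le _ _).trans ?_)
    have h1 := Set.ncard_union_le ({x 0, x 1, e} : Set α) {x 2, x 3}
    rw [Set.ncard_eq_three.2 ⟨x 0, x 1, e, x.injective.ne (by decide), he0.symm, he1.symm, rfl⟩,
      Set.ncard_pair (x.injective.ne (by decide))] at h1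
    rw [Set.ncard_sdiff_singleton_of_mem heu, hfu]
    omega
  have hcent : ∀ c : G, c * s = s * c → c * t = t * c → c = 1 ∨ c = s ∨ c = t ∨ c = s * t := by
    intro c hcs hct
    have ds : ∀ y : α, c • (s • y) = s • (c • y) := fun y => by rw [← mul_smul, hcs, mul_smul]
    have dt : ∀ y : α, c • (t • y) = t • (c • y) := fun y => by rw [← mul_smul, hct, mul_smul]
    have hce : c • e = e := by
      have h1 := smul_mem_fixSet (show Commute s c from hcs.symm) hes
      have h2 := smul_mem_fixSet (show Commute t c from hct.symm) (show e ∈ fixSet t from hte)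
      rw [hFs] at h1
      rw [hFt] at h2
      rcases h1 with h1 | h1 | h1
      · rcases h2 with h2 | h2 | h2
        · exact absurd (h1.symm.trans h2) (x.injective.ne (by decide))
        · exact absurd (h1.symm.trans h2) (x.injective.ne (by decide))
        · exact h2
      · rcases h2 with h2 | h2 | h2
        · exact absurd (h1.symm.trans h2) (x.injective.ne (by decide))
        · exact absurd (h1.symm.trans h2) (x.injective.ne (by decide))
        · exact h2
      · exact h1
    have d01 : c • x 0 = x 0 ∨ c • x 0 = x 1 := by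
      have h := smul_mem_fixSet (show Commute s c from hcs.symm) hx01.1
      rw [hFs] at h
      rcases h with h | h | h
      · exact Or.inl h
      · exact Or.inr h
      · exact absurd (smul_left_cancel c (h.trans hce.symm)) he0.symm
    have d23 : c • x 2 = x 2 ∨ c • x 2 = x 3 := by
      have h := smul_mem_fixSet (show Commute t c from hct.symm) hx23.1
      rw [hFt] at h
      rcases h with h | h | h
      · exact Or.inl h
      · exact Or.inr h
      · exact absurd (smul_left_cancel c (h.trans hce.symm)) he2.symm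
    have e1 : c • x 1 = t • (c • x 0) := by rw [← dt, ht0]
    have e3 : c • x 3 = s • (c • x 2) := by rw [← ds, hs2']
    have huniq : ∀ v : G, v • e = e → c • x 0 = v • x 0 → c • x 1 = v • x 1 → c • x 2 = v • x 2 → c • x 3 = v • x 3 → c = v := by
      intro v hve h0 h1 h2 h3
      by_contra hne
      have hne' : v⁻¹ * c ≠ 1 := fun h => hne (inv_mul_eq_one.1 h).symm
      have hsub : insert e (Set.range x) ⊆ fixSet (v⁻¹ * c) := by
        rintro y (rfl | ⟨i, rfl⟩)
        · show (v⁻¹ * c) • y = y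
          rw [mul_smul, inv_smul_eq_iff, hce, hve]
        · show (v⁻¹ * c) • x i = x i
          rw [mul_smul, inv_smul_eq_iff]
          fin_cases i
          · exact h0
          · exact h1
          · exact h2
          · exact h3
      have h := Set.ncard_le_ncard hsub (Set.toFinite _)
      rw [Set.ncard_insert_of_notMem (by
          rintro ⟨i, hi⟩
          fin_cases i
          · exact he0 hi.symm
          · exact he1 hi.symm
          · exact he2 hi.symm
          · exact he3 hi.symm),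
        Set.ncard_range_of_injective x.injective, Nat.card_eq_fintype_card, Fintype.card_fin] at h
      have := hle _ hne'
      omega
    have hs3' : s • x 3 = x 2 := by rw [← hs2', ss]
    rcases d01 with h0 | h0 <;> rcases d23 with h2 | h2
    · left
      refine huniq 1 (one_smul _ _) ?_ ?_ ?_ ?_ <;> simp only [one_smul, e1, e3, h0, h2, ht0, hs2']
    · right; left
      refine huniq s hes ?_ ?_ ?_ ?_ <;>
        simp only [e1, e3, h0, h2, ht0, hs2', hs3', mem_fixSet.1 hx01.1, mem_fixSet.1 hx01.2]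
    · right; right; left
      refine huniq t hte ?_ ?_ ?_ ?_ <;>
        simp only [e1, e3, h0, h2, ht0, ht1', hs2', mem_fixSet.1 hx23.1, mem_fixSet.1 hx23.2]
    · right; right; right
      refine huniq (s * t) heu ?_ ?_ ?_ ?_ <;>
        simp only [mul_smul, e1, e3, h0, h2, ht0, ht1', hs2', hs3', mem_fixSet.1 hx01.1, mem_fixSet.1 hx01.2,
          mem_fixSet.1 hx23.1, mem_fixSet.1 hx23.2]
  obtain ⟨a, ha⟩ : ∃ a, a ∉ Φ := by
    by_contra h
    push Not at h
    rw [Set.eq_univ_of_forall h, Set.ncard_univ, Nat.card_eq_fintype_card] at hΦc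
    omega
  have hreg : ∀ y, y ∉ Φ → y ≠ s • y ∧ y ≠ t • y ∧ y ≠ s • t • y ∧ s • y ≠ t • y ∧ s • y ≠ s • t • y ∧ t • y ≠ s • t • y := by
    intro y hy
    simp only [hΦ, Set.mem_union, mem_fixSet, mul_smul, not_or] at hy
    obtain ⟨⟨h1, h2⟩, h3⟩ := hy
    refine ⟨Ne.symm h1, Ne.symm h2, Ne.symm h3, fun h => h3 (by rw [← h, ss]), fun h => h2 (smul_left_cancel s h).symm, fun h => h1 ?_⟩
    rw [st] at h
    exact (smul_left_cancel t h).symm
  have hout : ∀ y, y ∉ Φ → y ∈ ({a, s • a, t • a, s • t • a} : Set α) := by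
    intro y hy
    obtain ⟨a1, a2, a3, a4, a5, a6⟩ := hreg a ha
    obtain ⟨b1, b2, b3, b4, b5, b6⟩ := hreg y hy
    obtain ⟨c, c1, c2, c3, c4⟩ := exists_map4 h4 a1 a2 a3 a4 a5 a6 b1 b2 b3 b4 b5 b6
    let W : Fin 4 ↪ α := emb4 y (s • y) (t • y) (s • t • y) b1 b2 b3 b4 b5 b6
    have ci : c⁻¹ • y = a ∧ c⁻¹ • (s • y) = s • a ∧ c⁻¹ • (t • y) = t • a ∧ c⁻¹ • (s • t • y) = s • t • a :=
      ⟨inv_smul_eq_iff.2 c1.symm, inv_smul_eq_iff.2 c2.symm, inv_smul_eq_iff.2 c3.symm, inv_smul_eq_iff.2 c4.symm⟩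
    obtain ⟨i1, i2, i3, i4⟩ := ci
    have sq : ∀ v : G, v * v = 1 → (c * v * c⁻¹) * (c * v * c⁻¹) = 1 := fun v hv => by
      rw [show c * v * c⁻¹ * (c * v * c⁻¹) = c * (v * v) * c⁻¹ by group, hv, mul_one, mul_inv_cancel]
    have m1 : (c * s * c⁻¹) * s ∈ MulAction.stabilizer G W := mem_stab_emb.2 fun i => by
      rw [mul_smul, mul_smul, mul_smul]
      fin_cases i
      · show c • s • c⁻¹ • s • y = y
        rw [i2, ss, c1]
      · show c • s • c⁻¹ • s • s • y = s • y
        rw [ss y, i1, c2]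
      · show c • s • c⁻¹ • s • t • y = t • y
        rw [i4, ss, c3]
      · show c • s • c⁻¹ • s • s • t • y = s • t • y
        rw [ss, i3, c4]
    obtain ⟨z, hz, hzc⟩ := exists_conj_of_mul_odd (sq s hs) hs ((hodd' W).of_dvd_nat (Subgroup.orderOf_dvd_natCard _ m1))
    have hzW : z ∈ MulAction.stabilizer G W := (Subgroup.zpowers_le.2 m1) hz
    obtain ⟨c', hc'⟩ : ∃ c' : G, c' = z⁻¹ * c := ⟨_, rfl⟩
    have hc's : c' * s = s * c' := by
      calc c' * s = z⁻¹ * (c * s * c⁻¹) * c := by rw [hc']; group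
        _ = z⁻¹ * (z * s * z⁻¹) * c := by rw [hzc]
        _ = s * c' := by rw [hc']; group
    have hzi := mem_stab_emb.1 (inv_mem hzW)
    have z1 : z⁻¹ • y = y := hzi 0
    have z2 : z⁻¹ • (s • y) = s • y := hzi 1
    have z3 : z⁻¹ • (t • y) = t • y := hzi 2
    have z4 : z⁻¹ • (s • t • y) = s • t • y := hzi 3
    have d1 : c' • a = y := by rw [hc', mul_smul, c1, z1]
    have d2 : c' • (s • a) = s • y := by rw [hc', mul_smul, c2, z2]
    have d3 : c' • (t • a) = t • y := by rw [hc', mul_smul, c3, z3]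
    have d4 : c' • (s • t • a) = s • t • y := by rw [hc', mul_smul, c4, z4]
    have j1 : c'⁻¹ • y = a := inv_smul_eq_iff.2 d1.symm
    have j2 : c'⁻¹ • (s • y) = s • a := inv_smul_eq_iff.2 d2.symm
    have j3 : c'⁻¹ • (t • y) = t • a := inv_smul_eq_iff.2 d3.symm
    have j4 : c'⁻¹ • (s • t • y) = s • t • a := inv_smul_eq_iff.2 d4.symm
    have sq' : (c' * t * c'⁻¹) * (c' * t * c'⁻¹) = 1 := by
      rw [show c' * t * c'⁻¹ * (c' * t * c'⁻¹) = c' * (t * t) * c'⁻¹ by group, ht, mul_one, mul_inv_cancel]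
    have m2 : (c' * t * c'⁻¹) * t ∈ MulAction.stabilizer G W := mem_stab_emb.2 fun i => by
      rw [mul_smul, mul_smul, mul_smul]
      fin_cases i
      · show c' • t • c'⁻¹ • t • y = y
        rw [j3, tt, d1]
      · show c' • t • c'⁻¹ • t • s • y = s • y
        rw [← st y, j4, ← st (t • a), tt, d2]
      · show c' • t • c'⁻¹ • t • t • y = t • y
        rw [tt y, j1, d3]
      · show c' • t • c'⁻¹ • t • s • t • y = s • t • y
        rw [← st (t • y), tt, j2, ← st, d4]
    obtain ⟨z', hz', hzc'⟩ := exists_conj_of_mul_odd sq' ht ((hodd' W).of_dvd_nat (Subgroup.orderOf_dvd_natCard _ m2))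
    have hz'W : z' ∈ MulAction.stabilizer G W := (Subgroup.zpowers_le.2 m2) hz'
    have hsc : Commute s ((c' * t * c'⁻¹) * t) := by
      have h1 : Commute s c' := hc's.symm
      exact ((h1.mul_right hstc).mul_right h1.inv_right).mul_right hstc
    have hz's : Commute s z' := by
      obtain ⟨n, rfl⟩ := Subgroup.mem_zpowers_iff.1 hz'
      exact hsc.zpow_right n
    obtain ⟨f, hf⟩ : ∃ f : G, f = z'⁻¹ * c' := ⟨_, rfl⟩
    have hfs : f * s = s * f := by
      rw [hf]; exact ((Commute.inv_right hz's).mul_right (show Commute s c' from hc's.symm)).symm.eq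
    have hft : f * t = t * f := by
      calc f * t = z'⁻¹ * (c' * t * c'⁻¹) * c' := by rw [hf]; group
        _ = z'⁻¹ * (z' * t * z'⁻¹) * c' := by rw [hzc']
        _ = t * f := by rw [hf]; group
    have hfa : f • a = y := by rw [hf, mul_smul, d1]; exact mem_stab_emb.1 (inv_mem hz'W) 0
    rcases hcent f hfs hft with h | h | h | h <;> rw [h] at hfa
    · left; rw [← hfa, one_smul]
    · right; left; exact hfa.symm
    · right; right; left; exact hfa.symm
    · right; right; right; rw [← hfa, mul_smul]; rfl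
  have hsub : (Set.univ : Set α) ⊆ Φ ∪ {a, s • a, t • a, s • t • a} := fun y _ => by
    by_cases hy : y ∈ Φ
    · exact Or.inl hy
    · exact Or.inr (hout y hy)
  have h1 := (Set.ncard_le_ncard hsub (Set.toFinite _)).trans (Set.ncard_union_le _ _)
  rw [Set.ncard_univ, Nat.card_eq_fintype_card] at h1
  have h2 : ({a, s • a, t • a, s • t • a} : Set α).ncard ≤ 4 := by
    have h3 := Set.ncard_insert_le a ({s • a, t • a, s • t • a} : Set α)
    have h4 := Set.ncard_insert_le (s • a) ({t • a, s • t • a} : Set α)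
    have h5 := Set.ncard_insert_le (t • a) ({s • t • a} : Set α)
    rw [Set.ncard_singleton] at h5
    omega
  omega

/-- The key bound: few orbits of a four-point stabiliser acting semiregularly outside. -/
theorem four_bound (h4 : MulAction.IsMultiplyPretransitive G α 4)
    (hfree : ∀ g : G, 4 < (fixSet g).ncard → g = 1) (x : Fin 4 ↪ α) :
    Fintype.card α - 4 ≤ 3 * Nat.card (MulAction.stabilizer G x) ∨
      (Nat.card (MulAction.stabilizer G x) = 1 ∧ Fintype.card α = 11) := by
  rcases Nat.even_or_odd (Nat.card (MulAction.stabilizer G x)) with he | ho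
  · left
    have := four_even_bound h4 hfree x he
    omega
  by_cases h1 : Nat.card (MulAction.stabilizer G x) = 1
  · have hsharp : ∀ y : Fin 4 ↪ α, MulAction.stabilizer G y = ⊥ := fun y =>
      Subgroup.eq_bot_of_card_eq _ (card_stab_eq h4 x y ▸ h1)
    obtain ⟨-, h⟩ := Tits.sharplyFour_card h4 hsharp ⟨x⟩
    rw [Nat.card_eq_fintype_card] at h
    rcases h with h | h
    · left; omega
    · exact Or.inr ⟨h1, h⟩
  · left
    have := four_odd_bound h4 hfree x ho h1
    have h3 : 3 ≤ Nat.card (MulAction.stabilizer G x) := by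
      have : 0 < Nat.card (MulAction.stabilizer G x) := Nat.card_pos
      rw [Nat.odd_iff] at ho
      omega
    omega

end Cfsg.Agent.H37
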