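import Mathlib

/-! Groups of prime exponent whose non-trivial orbits have prime length, and their normalisers. -/

namespace Cfsg.Agent.H37

open MulAction
open scoped Pointwise

variable {G α : Type*} [Group G] [MulAction G α] [Finite α]

/-- The non-trivial orbits of `P` lie outside `Δ` and have length `p`. -/
structure OrbitData (P : Subgroup G) (Δ : Set α) (p : ℕ) : Prop where
  pgroup : IsPGroup p P
  fix : ∀ z ∈ P, ∀ a ∈ Δ, z • a = a
  orbit_card : ∀ a ∉ Δ, (MulAction.orbit P a).ncard = p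

/-- An element preserving every orbit of `P` outside `Δ`. -/
def Keeps (P : Subgroup G) (Δ : Set α) (h : G) : Prop :=
  h ∈ Subgroup.normalizer (P : Set G) ∧ ∀ a ∉ Δ, h • a ∈ MulAction.orbit P a

variable {P : Subgroup G} {Δ : Set α} {p : ℕ} [hp : Fact p.Prime]

omit [Finite α] hp in
theorem orbit_out (D : OrbitData P Δ p) {a b : α} (ha : a ∉ Δ) (hb : b ∈ MulAction.orbit P a) : b ∉ Δ := by
  obtain ⟨⟨z, hz⟩, hza⟩ := hb
  intro h
  apply ha
  have hza' : z • a = b := hza
  have := D.fix z⁻¹ (inv_mem hz) _ h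
  rw [← hza', inv_smul_smul] at this
  rw [this, hza']
  exact h

/-- The restriction of `P` to one of its orbits is cyclic of order `p`. -/
theorem orbit_cyclic (D : OrbitData P Δ p) {a : α} (ha : a ∉ Δ) :
    (∀ z ∈ P, ∀ b ∈ MulAction.orbit P a, z ^ p • b = b) ∧
      ∀ w ∈ P, (∃ b ∈ MulAction.orbit P a, w • b ≠ b) → ∀ z ∈ P, ∃ i : ℕ, ∀ b ∈ MulAction.orbit P a, z • b = w ^ i • b := by
  classical
  let f : P →* Equiv.Perm (MulAction.orbit P a) := MulAction.toPermHom P (MulAction.orbit P a)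
  have hfeq : ∀ (z z' : P), f z = f z' ↔ ∀ b ∈ MulAction.orbit P a, (z : G) • b = (z' : G) • b := by
    intro z z'
    constructor
    · intro h b hb
      exact congrArg Subtype.val (Equiv.ext_iff.1 h ⟨b, hb⟩)
    · intro h
      ext ⟨b, hb⟩
      exact h b hb
  obtain ⟨e, he⟩ := IsPGroup.iff_card.1 (D.pgroup.of_surjective f.rangeRestrict f.rangeRestrict_surjective)
  have hdvd : p ^ e ∣ p.factorial := by
    rw [← he, ← D.orbit_card a ha, ← Nat.card_coe_set_eq, ← Nat.card_perm]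
    exact Subgroup.card_subgroup_dvd_card _
  have he1 : e ≤ 1 := by
    by_contra h
    have h2 : p ^ 2 ∣ p.factorial := (pow_dvd_pow p (by omega)).trans hdvd
    obtain ⟨q, hq⟩ := Nat.exists_eq_add_of_le' hp.out.one_le
    rw [hq, Nat.factorial_succ, pow_two] at h2
    have h3 : q + 1 ∣ q.factorial := Nat.dvd_of_mul_dvd_mul_left (Nat.succ_pos q) h2
    rw [← hq, hp.out.dvd_factorial] at h3
    omega
  have hcard : Nat.card f.range = p := by
    rw [he]
    rcases (show e = 0 ∨ e = 1 by omega) with rfl | rfl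
    · exfalso
      have hsub : MulAction.orbit P a ⊆ {a} := by
        rintro _ ⟨z, rfl⟩
        have hz : f z = f 1 := by
          have := Subgroup.eq_bot_of_card_eq f.range (by rw [he, pow_zero])
          have hz : f z ∈ f.range := ⟨z, rfl⟩
          rw [this, Subgroup.mem_bot] at hz
          rw [hz, map_one]
        exact ((hfeq z 1).1 hz a (MulAction.mem_orbit_self a)).trans (by simp)
      have := Set.ncard_le_ncard hsub (Set.toFinite _)
      rw [D.orbit_card a ha, Set.ncard_singleton] at this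
      have := hp.out.two_le
      omega
    · rw [pow_one]
  constructor
  · intro z hz b hb
    have h : f (⟨z, hz⟩ ^ p) = f 1 := by
      rw [map_pow, map_one]
      have := pow_card_eq_one' (x := (⟨f ⟨z, hz⟩, ⟨_, rfl⟩⟩ : f.range))
      rw [hcard] at this
      exact congrArg Subtype.val this
    simpa using (hfeq _ 1).1 h b hb
  · intro w hw hwb z hz
    have hw1 : (⟨f ⟨w, hw⟩, ⟨_, rfl⟩⟩ : f.range) ≠ 1 := by
      intro h
      obtain ⟨b, hb, hne⟩ := hwb
      refine hne (((hfeq ⟨w, hw⟩ 1).1 ?_ b hb).trans (one_smul G b))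
      rw [map_one]
      exact congrArg Subtype.val h
    have hmem := mem_powers_of_prime_card (g' := (⟨f ⟨z, hz⟩, ⟨_, rfl⟩⟩ : f.range)) hcard hw1
    obtain ⟨i, hi⟩ := hmem
    refine ⟨i, fun b hb => ?_⟩
    have h : f ⟨z, hz⟩ = f (⟨w, hw⟩ ^ i) := by
      rw [map_pow]
      exact (congrArg Subtype.val hi).symm
    simpa using (hfeq _ _).1 h b hb

/-- A non-trivial element on each orbit. -/
theorem exists_moving (D : OrbitData P Δ p) {a : α} (ha : a ∉ Δ) : ∃ w ∈ P, w • a ≠ a := by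
  by_contra h
  push Not at h
  have hsub : MulAction.orbit P a ⊆ {a} := by
    rintro _ ⟨z, rfl⟩
    exact h z z.2
  have := Set.ncard_le_ncard hsub (Set.toFinite _)
  rw [D.orbit_card a ha, Set.ncard_singleton] at this
  have := hp.out.two_le
  omega

omit [Finite α] hp in
theorem eq_of_agree [FaithfulSMul G α] (D : OrbitData P Δ p) {z z' : G} (hz : z ∈ P) (hz' : z' ∈ P)
    (h : ∀ a ∉ Δ, z • a = z' • a) : z = z' :=
  eq_of_smul_eq_smul fun a => by
    by_cases ha : a ∈ Δ
    · rw [D.fix z hz a ha, D.fix z' hz' a ha]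
    · exact h a ha

/-- The order of the non-trivial elements is `p`. -/
theorem pow_eq_one_of_mem [FaithfulSMul G α] (D : OrbitData P Δ p) {z : G} (hz : z ∈ P) : z ^ p = 1 :=
  eq_of_agree D (pow_mem hz p) (one_mem P) fun a ha => by
    rw [one_smul]
    exact (orbit_cyclic D ha).1 z hz a (MulAction.mem_orbit_self a)

omit hp in
theorem conj_mem_of_normalizer {h z : G} (hh : h ∈ Subgroup.normalizer (P : Set G)) (hz : z ∈ P) :
    h * z * h⁻¹ ∈ P :=
  (Subgroup.mem_normalizer_iff.1 hh z).1 hz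

/-- An element preserving an orbit acts on the restriction of `P` to it as a power map. -/
theorem exists_multiplier (D : OrbitData P Δ p) {h : G} (hh : Keeps P Δ h) {a : α} (ha : a ∉ Δ) :
    ∃ m : ℕ, ∀ z ∈ P, ∀ b ∈ MulAction.orbit P a, (h * z * h⁻¹) • b = z ^ m • b := by
  obtain ⟨w, hw, hwa⟩ := exists_moving D ha
  have hgen := (orbit_cyclic D ha).2 w hw ⟨a, MulAction.mem_orbit_self a, hwa⟩
  have hinvO : ∀ b ∈ MulAction.orbit P a, h⁻¹ • b ∈ MulAction.orbit P a := by
    intro b hb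
    have himg : (fun q => h • q) '' MulAction.orbit P a ⊆ MulAction.orbit P a := by
      rintro _ ⟨q, hq, rfl⟩
      have := hh.2 q (orbit_out D ha hq)
      rwa [MulAction.orbit_eq_iff.2 hq] at this
    have heq := Set.eq_of_subset_of_ncard_le himg
      (Set.ncard_image_of_injective _ (MulAction.injective h)).ge (Set.toFinite _)
    obtain ⟨q, hq, rfl⟩ := heq.symm ▸ hb
    rwa [inv_smul_smul]
  obtain ⟨m, hm⟩ := hgen _ (conj_mem_of_normalizer hh.1 hw)
  refine ⟨m, fun z hz b hb => ?_⟩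
  obtain ⟨i, hi⟩ := hgen z hz
  have e1 : (h * z * h⁻¹) • b = (h * w * h⁻¹) ^ i • b := by
    rw [conj_pow, mul_smul, mul_smul, mul_smul, mul_smul, hi _ (hinvO b hb)]
  have hpow : ∀ {u v : G}, u ∈ P → (∀ c ∈ MulAction.orbit P a, u • c = v • c) →
      ∀ (j : ℕ), ∀ c ∈ MulAction.orbit P a, u ^ j • c = v ^ j • c := by
    intro u v hu huv j
    induction j with
    | zero => intro c _; simp
    | succ j ih =>
      intro c hc
      have huc : u • c ∈ MulAction.orbit P a := by
        rw [← MulAction.orbit_eq_iff.2 hc]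
        exact MulAction.mem_orbit c (⟨u, hu⟩ : P)
      rw [pow_succ, pow_succ, mul_smul, mul_smul, ← huv c hc, ih _ huc]
  rw [e1, hpow (conj_mem_of_normalizer hh.1 hw) hm i b hb, ← pow_mul, mul_comm, pow_mul]
  exact (hpow hz hi m b hb).symm

omit [Finite α] hp in
theorem Keeps.commute_of_scalar {h n : G} {m : ℕ} (hm : ∀ z ∈ P, h * z * h⁻¹ = z ^ m)
    (hn : n ∈ Subgroup.normalizer (P : Set G)) {z : G} (hz : z ∈ P) :
    (h * n) * z * (h * n)⁻¹ = (n * h) * z * (n * h)⁻¹ := by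
  calc (h * n) * z * (h * n)⁻¹ = h * (n * z * n⁻¹) * h⁻¹ := by group
    _ = (n * z * n⁻¹) ^ m := hm _ (conj_mem_of_normalizer hn hz)
    _ = n * z ^ m * n⁻¹ := conj_pow
    _ = n * (h * z * h⁻¹) * n⁻¹ := by rw [hm z hz]
    _ = (n * h) * z * (n * h)⁻¹ := by group

/-- Two elements preserving all orbits act commutatively on `P`. -/
theorem Keeps.commute_conj [FaithfulSMul G α] (D : OrbitData P Δ p) {h n : G} (hh : Keeps P Δ h) (hn : Keeps P Δ n)
    {z : G} (hz : z ∈ P) : (h * n) * z * (h * n)⁻¹ = (n * h) * z * (n * h)⁻¹ := by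
  refine eq_of_agree D (conj_mem_of_normalizer (mul_mem hh.1 hn.1) hz) (conj_mem_of_normalizer (mul_mem hn.1 hh.1) hz)
    fun a ha => ?_
  obtain ⟨m₁, hm₁⟩ := exists_multiplier D hh ha
  obtain ⟨m₂, hm₂⟩ := exists_multiplier D hn ha
  have self := MulAction.mem_orbit_self (M := P) a
  have e : ∀ (u v : G) (k l : ℕ), (∀ z ∈ P, ∀ b ∈ MulAction.orbit P a, (u * z * u⁻¹) • b = z ^ k • b) →
      (∀ z ∈ P, ∀ b ∈ MulAction.orbit P a, (v * z * v⁻¹) • b = z ^ l • b) →
      v ∈ Subgroup.normalizer (P : Set G) → ((u * v) * z * (u * v)⁻¹) • a = z ^ (l * k) • a := by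
    intro u v k l hu hv hvn
    rw [show (u * v) * z * (u * v)⁻¹ = u * (v * z * v⁻¹) * u⁻¹ by group,
      hu _ (conj_mem_of_normalizer hvn hz) a self, conj_pow, hv _ (pow_mem hz k) a self, ← pow_mul, mul_comm]
  rw [e h n m₁ m₂ hm₁ hm₂ hn.1, e n h m₂ m₁ hm₂ hm₁ hh.1, mul_comm]

omit [Finite α] hp in
theorem commute_of_conj_eq {h n z : G}
    (e : ∀ z ∈ P, (h * n) * z * (h * n)⁻¹ = (n * h) * z * (n * h)⁻¹)
    (hh : h ∈ Subgroup.normalizer (P : Set G)) (hn : n ∈ Subgroup.normalizer (P : Set G)) (hz : z ∈ P) :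
    Commute (h * n * h⁻¹ * n⁻¹) z := by
  have hz' : (n * h)⁻¹ * z * (n * h) ∈ P := by
    have := conj_mem_of_normalizer (inv_mem (mul_mem hn hh)) hz
    rwa [inv_inv] at this
  have h' := e _ hz'
  have : h * n * h⁻¹ * n⁻¹ * z * (h * n * h⁻¹ * n⁻¹)⁻¹ = z := by
    calc h * n * h⁻¹ * n⁻¹ * z * (h * n * h⁻¹ * n⁻¹)⁻¹
        = (h * n) * ((n * h)⁻¹ * z * (n * h)) * (h * n)⁻¹ := by group
      _ = (n * h) * ((n * h)⁻¹ * z * (n * h)) * (n * h)⁻¹ := h'
      _ = z := by group
  exact mul_inv_eq_iff_eq_mul.1 this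

/-- An element centralising `P` and preserving its orbits has `p`-th power trivial outside `Δ`. -/
theorem centralizer_pow (D : OrbitData P Δ p) {g : G} (hc : ∀ z ∈ P, Commute g z)
    (hg : ∀ a ∉ Δ, g • a ∈ MulAction.orbit P a) {a : α} (ha : a ∉ Δ) : g ^ p • a = a := by
  obtain ⟨⟨z, hz⟩, hza⟩ := hg a ha
  have hza' : z • a = g • a := hza
  have h : ∀ j : ℕ, g ^ j • a = z ^ j • a := by
    intro j
    induction j with
    | zero => simp
    | succ j ih =>
      rw [pow_succ, mul_smul, ← hza', ← mul_smul, ((hc z hz).pow_left j).eq, mul_smul, ih, ← mul_smul, ← pow_succ']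
  rw [h, (orbit_cyclic D ha).1 z hz a (MulAction.mem_orbit_self a)]

end Cfsg.Agent.H37
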