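import Cfsg.Agent.H37.MillerScalar

/-! The elements of the normaliser that preserve every orbit. -/

namespace Cfsg.Agent.H37

open MulAction

variable {G α : Type*} [Group G] [MulAction G α] [Finite α] {P : Subgroup G} {Δ : Set α} {p : ℕ} [hp : Fact p.Prime]

/-- The normaliser preserves the complement of `Δ`. -/
theorem normalizer_out (D : OrbitData P Δ p) {n : G} (hn : n ∈ Subgroup.normalizer (P : Set G)) {a : α} (ha : a ∉ Δ) :
    n • a ∉ Δ := by
  intro h
  obtain ⟨z, hz, hza⟩ := exists_moving D ha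
  apply hza
  have := D.fix _ (conj_mem_of_normalizer hn hz) _ h
  rw [mul_smul, mul_smul, inv_smul_smul] at this
  exact smul_left_cancel n this

omit [Finite α] hp in
/-- The normaliser permutes the orbits. -/
theorem normalizer_orbit {n : G} (hn : n ∈ Subgroup.normalizer (P : Set G)) (a : α) :
    (fun b => n • b) '' MulAction.orbit P a = MulAction.orbit P (n • a) := by
  ext b
  constructor
  · rintro ⟨_, ⟨⟨z, hz⟩, rfl⟩, rfl⟩
    refine ⟨⟨n * z * n⁻¹, conj_mem_of_normalizer hn hz⟩, ?_⟩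
    show (n * z * n⁻¹) • n • a = n • z • a
    rw [mul_smul, mul_smul, inv_smul_smul]
  · rintro ⟨⟨z, hz⟩, rfl⟩
    have hz' : n⁻¹ * z * n ∈ P := by simpa using conj_mem_of_normalizer (inv_mem hn) hz
    refine ⟨_, MulAction.mem_orbit a (⟨_, hz'⟩ : P), ?_⟩
    show n • (n⁻¹ * z * n) • a = z • n • a
    rw [mul_smul, mul_smul, smul_inv_smul]

omit [Finite α] hp in
theorem Keeps.one : Keeps P Δ 1 :=
  ⟨one_mem _, fun a _ => by rw [one_smul]; exact MulAction.mem_orbit_self a⟩

omit [Finite α] hp in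
theorem Keeps.mul (D : OrbitData P Δ p) {g h : G} (hg : Keeps P Δ g) (hh : Keeps P Δ h) : Keeps P Δ (g * h) := by
  refine ⟨mul_mem hg.1 hh.1, fun a ha => ?_⟩
  rw [mul_smul, ← MulAction.orbit_eq_iff.2 (hh.2 a ha)]
  exact hg.2 _ (orbit_out D ha (hh.2 a ha))

omit [Finite α] hp in
theorem Keeps.pow (D : OrbitData P Δ p) {h : G} (hh : Keeps P Δ h) (j : ℕ) : Keeps P Δ (h ^ j) := by
  induction j with
  | zero => simpa using Keeps.one
  | succ j ih => rw [pow_succ]; exact ih.mul D hh

omit [Finite α] hp in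
theorem Keeps.inv [Finite G] (D : OrbitData P Δ p) {h : G} (hh : Keeps P Δ h) : Keeps P Δ h⁻¹ := by
  have e : h⁻¹ = h ^ (orderOf h - 1) := by
    refine inv_eq_of_mul_eq_one_right ?_
    rw [← pow_succ', Nat.sub_add_cancel (orderOf_pos h), pow_orderOf_eq_one]
  rw [e]
  exact hh.pow D _

theorem Keeps.conj (D : OrbitData P Δ p) {n h : G} (hn : n ∈ Subgroup.normalizer (P : Set G)) (hh : Keeps P Δ h) :
    Keeps P Δ (n * h * n⁻¹) := by
  refine ⟨mul_mem (mul_mem hn hh.1) (inv_mem hn), fun a ha => ?_⟩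
  have h1 := hh.2 _ (normalizer_out D (inv_mem hn) ha)
  have h2 : n • h • n⁻¹ • a ∈ (fun b => n • b) '' MulAction.orbit P (n⁻¹ • a) := ⟨_, h1, rfl⟩
  rw [normalizer_orbit hn, smul_inv_smul] at h2
  rwa [mul_smul, mul_smul]

/-- Elements of the normaliser acting equally on the orbits differ by an orbit-preserving element. -/
theorem keeps_of_same (D : OrbitData P Δ p) {n n' : G} (hn : n ∈ Subgroup.normalizer (P : Set G))
    (hn' : n' ∈ Subgroup.normalizer (P : Set G))
    (h : ∀ a ∉ Δ, MulAction.orbit P (n • a) = MulAction.orbit P (n' • a)) : Keeps P Δ (n'⁻¹ * n) := by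
  refine ⟨mul_mem (inv_mem hn') hn, fun a ha => ?_⟩
  have h1 : n • a ∈ (fun b => n' • b) '' MulAction.orbit P a := by
    rw [normalizer_orbit hn', ← h a ha]
    exact MulAction.mem_orbit_self _
  obtain ⟨b, hb, hb'⟩ := h1
  rw [mul_smul, ← hb', inv_smul_smul]
  exact hb

end Cfsg.Agent.H37
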