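import Cfsg.Agent.H37.OddFourKernel

/-! Commutators in symmetric groups. -/

namespace Cfsg.Agent.H37

theorem comm_perm_three : ∀ σ : Equiv.Perm (Fin 3), σ ≠ 1 → ∃ τ : Equiv.Perm (Fin 3),
    σ * τ * σ⁻¹ * τ⁻¹ ≠ 1 ∧ (σ * τ * σ⁻¹ * τ⁻¹) ^ 3 = 1 := by decide +kernel

theorem comm_perm_four : ∀ σ : Equiv.Perm (Fin 4), σ ≠ 1 → ∃ a b : Equiv.Perm (Fin 4),
    (σ * a * σ⁻¹ * a⁻¹) * b * (σ * a * σ⁻¹ * a⁻¹)⁻¹ * b⁻¹ ≠ 1 ∧
      ((σ * a * σ⁻¹ * a⁻¹) * b * (σ * a * σ⁻¹ * a⁻¹)⁻¹ * b⁻¹) ^ 2 = 1 := by decide +kernel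

/-- A normal subgroup that is not too small contains an element with a useful commutator. -/
theorem exists_comm_small {r : ℕ} (hr : 3 ≤ r) (M : Subgroup (Equiv.Perm (Fin r))) (hM : M.Normal)
    (hcard : r ≤ Nat.card M) :
    ∃ σ ∈ M, ∃ τ : Equiv.Perm (Fin r), (5 ≤ r → τ ∈ M) ∧ σ * τ * σ⁻¹ * τ⁻¹ ≠ 1 ∧
      ((σ * τ * σ⁻¹ * τ⁻¹) ^ 2 = 1 ∨ r = 3 ∧ (σ * τ * σ⁻¹ * τ⁻¹) ^ 3 = 1) ∧
      (σ * τ * σ⁻¹ * τ⁻¹).support.card ≤ 4 := by
  classical
  have hne : ∃ σ ∈ M, σ ≠ 1 := by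
    have : M ≠ ⊥ := fun e => by rw [e, Subgroup.card_bot] at hcard; omega
    simpa [Subgroup.eq_bot_iff_forall] using this
  have hsupp : r ≤ 4 → ∀ c : Equiv.Perm (Fin r), c.support.card ≤ 4 := fun h c =>
    (Finset.card_le_univ _).trans (by rw [Fintype.card_fin]; exact h)
  rcases (show r = 3 ∨ r = 4 ∨ 5 ≤ r by omega) with rfl | rfl | h5
  · obtain ⟨σ, hσ, hσ1⟩ := hne
    obtain ⟨τ, h1, h2⟩ := comm_perm_three σ hσ1
    exact ⟨σ, hσ, τ, fun h => absurd h (by omega), h1, Or.inr ⟨rfl, h2⟩, hsupp (by omega) _⟩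
  · obtain ⟨σ, hσ, hσ1⟩ := hne
    obtain ⟨a, b, h1, h2⟩ := comm_perm_four σ hσ1
    refine ⟨_, ?_, b, fun h => absurd h (by omega), h1, Or.inl h2, hsupp le_rfl _⟩
    rw [show σ * a * σ⁻¹ * a⁻¹ = σ * (a * σ⁻¹ * a⁻¹) by group]
    exact mul_mem hσ (hM.conj_mem _ (inv_mem hσ) a)
  · have hA : alternatingGroup (Fin r) ≤ M := by
      haveI := alternatingGroup.isSimpleGroup (α := Fin r) (by rw [Nat.card_eq_fintype_card, Fintype.card_fin]; omega)
      rcases IsSimpleGroup.eq_bot_or_eq_top_of_normal (M.subgroupOf (alternatingGroup (Fin r))) (hM.subgroupOf _) with h | h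
      · exfalso
        rw [Subgroup.subgroupOf_eq_bot] at h
        have hinj : Function.Injective fun m : M => Equiv.Perm.sign (m : Equiv.Perm (Fin r)) := by
          intro u v e
          have hmem : (u : Equiv.Perm (Fin r)) * (v : Equiv.Perm (Fin r))⁻¹ ∈ alternatingGroup (Fin r) :=
            Equiv.Perm.mem_alternatingGroup.2 (by rw [map_mul, map_inv, show Equiv.Perm.sign (u : Equiv.Perm (Fin r)) = _ from e, mul_inv_cancel])
          exact Subtype.ext (mul_inv_eq_one.1 (Subgroup.disjoint_def.1 h (mul_mem u.2 (inv_mem v.2)) hmem))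
        have := Nat.card_le_card_of_injective _ hinj
        rw [Nat.card_eq_fintype_card (α := ℤˣ), Fintype.card_units_int] at this
        omega
      · exact Subgroup.subgroupOf_eq_top.1 h
    let y : Fin 4 ↪ Fin r := (Fin.castLEEmb (by omega))
    let a : Equiv.Perm (Fin 4) := Equiv.swap 0 1 * Equiv.swap 1 2
    let b : Equiv.Perm (Fin 4) := Equiv.swap 0 1 * Equiv.swap 1 3
    let e := Equiv.Perm.viaEmbeddingHom y
    refine ⟨e a, hA (Equiv.Perm.mem_alternatingGroup.2 (sign_via_double y (by decide) (by decide))), e b,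
      fun _ => hA (Equiv.Perm.mem_alternatingGroup.2 (sign_via_double y (by decide) (by decide))), ?_, Or.inl ?_, ?_⟩
    · rw [← map_inv, ← map_inv, ← map_mul, ← map_mul, ← map_mul]
      intro h
      have h' := Equiv.Perm.viaEmbeddingHom_injective y (h.trans (map_one _).symm)
      exact absurd h' (by decide)
    · rw [← map_inv, ← map_inv, ← map_mul, ← map_mul, ← map_mul, ← map_pow,
        show (a * b * a⁻¹ * b⁻¹) ^ 2 = 1 by decide, map_one]
    · rw [← map_inv, ← map_inv, ← map_mul, ← map_mul, ← map_mul]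
      refine (Finset.card_le_card (t := Finset.univ.map y) fun q hq => ?_).trans (by simp)
      by_contra hc
      refine Equiv.Perm.mem_support.1 hq (Equiv.Perm.viaEmbedding_apply_of_notMem _ y q ?_)
      rintro ⟨i, rfl⟩
      exact hc (Finset.mem_map.2 ⟨i, Finset.mem_univ _, rfl⟩)

end Cfsg.Agent.H37
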