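import Cfsg.Agent.H37.OddFourBase

/-! Four-transitive groups with an element of small support. -/

namespace Cfsg.Agent.H37

open MulAction

variable {α : Type*} [Fintype α] [DecidableEq α] {G : Subgroup (Equiv.Perm α)}

theorem alt_le_of_support_le_three (h4 : MulAction.IsMultiplyPretransitive G α 4) (hn : 7 ≤ Fintype.card α)
    {g : Equiv.Perm α} (hg : g ∈ G) (hg1 : g ≠ 1) (hs : g.support.card ≤ 3) : alternatingGroup α ≤ G := by
  have h2 : 2 ≤ g.support.card := Equiv.Perm.two_le_card_support_of_ne_one hg1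
  rcases (show g.support.card = 2 ∨ g.support.card = 3 by omega) with h | h
  · refine alt_le_of_prime_order h4 Nat.prime_two (by omega) hg ?_ (by omega)
    obtain ⟨a, b, hab, rfl⟩ := Equiv.Perm.card_support_eq_two.1 h
    exact (Equiv.Perm.IsSwap.orderOf ⟨a, b, hab, rfl⟩)
  · exact alt_le_of_prime_order h4 Nat.prime_three (by omega) hg
      (Equiv.Perm.IsThreeCycle.orderOf (card_support_eq_three_iff.1 h)) (by omega)

/-- A non-trivial element moving at most four points gives the alternating group. -/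
theorem alt_le_of_small_support (h4 : MulAction.IsMultiplyPretransitive G α 4) (hn : 7 ≤ Fintype.card α)
    {g : Equiv.Perm α} (hg : g ∈ G) (hg1 : g ≠ 1) (hs : g.support.card ≤ 4) : alternatingGroup α ≤ G := by
  classical
  by_cases h3 : g.support.card ≤ 3
  · exact alt_le_of_support_le_three h4 hn hg hg1 h3
  have hc : g.support.card = 4 := by omega
  let y : Fin 4 ↪ α := (g.support.equivFinOfCardEq hc).symm.toEmbedding.trans (Function.Embedding.subtype _)
  have hy : ∀ i, g (y i) ≠ y i := fun i => Equiv.Perm.mem_support.1 ((g.support.equivFinOfCardEq hc).symm i).2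
  have hfixg : ∀ p, p ∉ Set.range y → g p = p := fun p hp => by
    by_contra h
    exact hp ⟨g.support.equivFinOfCardEq hc ⟨p, Equiv.Perm.mem_support.2 h⟩, by simp [y]⟩
  have hout : 3 ≤ (g.supportᶜ).card := by
    rw [Finset.card_compl, hc]; omega
  obtain ⟨T, hT, hTc⟩ := Finset.exists_subset_card_eq (n := 3) hout
  let w : Fin 3 ↪ α := (T.equivFinOfCardEq hTc).symm.toEmbedding.trans (Function.Embedding.subtype _)
  have hw : ∀ i, g (w i) = w i := fun i => by
    have := hT ((T.equivFinOfCardEq hTc).symm i).2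
    rw [Finset.mem_compl, Equiv.Perm.mem_support, not_not] at this
    exact this
  have hw0 : y 0 ∉ Set.range w := by
    rintro ⟨i, hi⟩
    exact hy 0 (hi ▸ hw i)
  let z : Fin 4 ↪ α := ⟨Fin.cons (y 0) w, Fin.cons_injective_iff.2 ⟨hw0, w.injective⟩⟩
  obtain ⟨c, hc'⟩ := MulAction.exists_smul_eq G y z
  have hci : ∀ i, (c : Equiv.Perm α) (y i) = z i := fun i => DFunLike.congr_fun hc' i
  set v : Equiv.Perm α := c * g * (c : Equiv.Perm α)⁻¹ with hv
  have hvG : v ∈ G := mul_mem (mul_mem c.2 hg) (inv_mem c.2)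
  have hfixv : ∀ p, p ∉ Set.range z → v p = p := fun p hp => by
    rw [hv, Equiv.Perm.mul_apply, Equiv.Perm.mul_apply, hfixg, Equiv.Perm.coe_inv, Equiv.apply_symm_apply]
    rintro ⟨i, hi⟩
    exact hp ⟨i, by rw [← hci, hi, Equiv.Perm.coe_inv, Equiv.apply_symm_apply]⟩
  -- the two supports meet only in `a`
  set a := y 0 with ha
  have hdisj : ∀ p, p ≠ a → g p = p ∨ v p = p := by
    intro p hp
    by_contra h
    push Not at h
    obtain ⟨i, hi⟩ : p ∈ Set.range z := by
      by_contra h'
      exact h.2 (hfixv p h')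
    revert hi
    refine Fin.cases (fun hi => hp hi.symm) (fun j hi => h.1 ?_) i
    rw [← hi]
    exact hw j
  have ga : g a ≠ a := hy 0
  have va : v a ≠ a := by
    intro h
    rw [hv, Equiv.Perm.mul_apply, Equiv.Perm.mul_apply] at h
    have h0 : (c : Equiv.Perm α)⁻¹ a = y 0 := by
      rw [Equiv.Perm.coe_inv, Equiv.symm_apply_eq, hci]; rfl
    rw [h0] at h
    have : (c : Equiv.Perm α) (y 0) = a := hci 0
    exact hy 0 ((c : Equiv.Perm α).injective (h.trans this.symm))
  have inv_fix : ∀ (f : Equiv.Perm α) p, f p = p → f⁻¹ p = p := fun f p h => by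
    rw [Equiv.Perm.coe_inv, Equiv.symm_apply_eq, h]
  set u : Equiv.Perm α := g * v * g⁻¹ * v⁻¹ with hu
  have huG : u ∈ G := mul_mem (mul_mem (mul_mem hg hvG) (inv_mem hg)) (inv_mem hvG)
  have hmove : ∀ (f : Equiv.Perm α) p, f p ≠ p → f (f p) ≠ f p := fun f p h e => h (f.injective e)
  have vga : v (g a) = g a := (hdisj _ ga).resolve_left (hmove g a ga)
  have gva : g (v a) = v a := (hdisj _ va).resolve_right (hmove v a va)
  have hsub : u.support ⊆ {a, g a, v a} := by
    intro p hp
    rw [Finset.mem_insert, Finset.mem_insert, Finset.mem_singleton]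
    by_contra h
    push Not at h
    refine Equiv.Perm.mem_support.1 hp ?_
    rw [hu, Equiv.Perm.mul_apply, Equiv.Perm.mul_apply, Equiv.Perm.mul_apply]
    rcases hdisj p h.1 with hgp | hvp
    · -- `g` fixes `p`
      have hq : v⁻¹ p ≠ a := fun e => h.2.2 (by rw [← e, Equiv.Perm.coe_inv, Equiv.apply_symm_apply])
      have : g (v⁻¹ p) = v⁻¹ p := by
        rcases hdisj _ hq with h' | h'
        · exact h'
        · rw [Equiv.Perm.coe_inv, Equiv.apply_symm_apply] at h'
          rw [Equiv.Perm.coe_inv, ← h', hgp]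
      rw [inv_fix g _ this, Equiv.Perm.coe_inv, Equiv.apply_symm_apply, hgp]
    · have hq : g⁻¹ p ≠ a := fun e => h.2.1 (by rw [← e, Equiv.Perm.coe_inv, Equiv.apply_symm_apply])
      have : v (g⁻¹ p) = g⁻¹ p := by
        rcases hdisj _ hq with h' | h'
        · rw [Equiv.Perm.coe_inv, Equiv.apply_symm_apply] at h'
          rw [Equiv.Perm.coe_inv, ← h', hvp]
        · exact h'
      rw [inv_fix v _ hvp, this, Equiv.Perm.coe_inv, Equiv.apply_symm_apply]
  have hu1 : u ≠ 1 := by
    intro h
    have h1 : u (g a) = g a := by rw [h]; rfl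
    rw [hu, Equiv.Perm.mul_apply, Equiv.Perm.mul_apply, Equiv.Perm.mul_apply, inv_fix v _ vga,
      Equiv.Perm.coe_inv, Equiv.symm_apply_apply, gva] at h1
    exact hmove g a ga (h1 ▸ gva)
  exact alt_le_of_support_le_three h4 hn huG hu1 ((Finset.card_le_card hsub).trans Finset.card_le_three)

end Cfsg.Agent.H37
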