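import Cfsg.Agent.H37.OddFourBase

/-! The configuration of two commuting involutions. -/

namespace Cfsg.Agent.H37

open MulAction

variable {α : Type*} [Fintype α] [DecidableEq α] {G : Subgroup (Equiv.Perm α)}

/-- In a four-transitive group with odd four-point stabilisers, the fixed points of one involution that are moved
by a commuting involution form a pair. -/
theorem fix_diff_pair {f : ℕ} (hf3 : f ≤ 3) (hsame : ∀ v : G, v * v = 1 → v ≠ 1 → (fixSet v).ncard = f)
    {u v : G} (hu : u * u = 1) (hu1 : u ≠ 1) (hv : v * v = 1) (huv : Commute u v) {p q : α} (hp : p ∈ fixSet u)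
    (hpq : v • p = q) (hne : q ≠ p) : fixSet u \ fixSet v = {p, q} := by
  have hq : q ∈ fixSet u := hpq ▸ smul_mem_fixSet huv hp
  have vv : ∀ a : α, v • v • a = a := fun a => by rw [← mul_smul, hv, one_smul]
  refine (Set.eq_of_subset_of_ncard_le ?_ ?_ (Set.toFinite _)).symm
  · rintro r (rfl | rfl)
    · exact ⟨hp, fun h => hne (hpq.symm.trans h)⟩
    · refine ⟨hq, fun h => hne ?_⟩
      rw [mem_fixSet, ← hpq, vv] at h
      rw [← hpq]
      exact h.symm
  rw [Set.ncard_pair hne.symm]
  by_contra hgt
  push Not at hgt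
  obtain ⟨r, ⟨hr, hrv⟩, hrp, hrq⟩ : ∃ r ∈ fixSet u \ fixSet v, r ≠ p ∧ r ≠ q := by
    by_contra hc
    push Not at hc
    have hsub : fixSet u \ fixSet v ⊆ {p, q} := fun r hr => by
      by_cases h : r = p
      · exact Or.inl h
      · exact Or.inr (hc r hr h)
    have := Set.ncard_le_ncard hsub (Set.toFinite _)
    rw [Set.ncard_pair hne.symm] at this
    omega
  have hsub : ({p, q, r, v • r} : Set α) ⊆ fixSet u := by
    rintro a (rfl | rfl | rfl | rfl)
    exacts [hp, hq, hr, smul_mem_fixSet huv hr]
  have h4c : ({p, q, r, v • r} : Set α).ncard = 4 := by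
    have n1 : p ≠ v • r := fun h => hrq (by rw [← hpq, h, vv])
    have n2 : q ≠ v • r := fun h => hrp (by rw [← vv r, ← h, ← hpq, vv])
    have n3 : r ≠ v • r := fun h => hrv h.symm
    rw [Set.ncard_insert_of_notMem (by simp [hne.symm, hrp.symm, n1]), Set.ncard_insert_of_notMem (by simp [hrq.symm, n2]),
      Set.ncard_pair n3]
  have := Set.ncard_le_ncard hsub (Set.toFinite _)
  rw [h4c, hsame u hu hu1] at this
  omega

/-- An element of odd order fixes each point of an invariant set with at most two elements. -/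
theorem fix_small_invariant {k : G} (hko : Odd (orderOf k)) {W : Set α} (hW : W.ncard ≤ 2)
    (hinv : ∀ p ∈ W, k • p ∈ W) : ∀ p ∈ W, k • p = p := by
  intro p hp
  by_contra hne
  have hWeq : ({p, k • p} : Set α) = W := by
    refine Set.eq_of_subset_of_ncard_le ?_ (by rw [Set.ncard_pair (Ne.symm hne)]; exact hW) (Set.toFinite _)
    rintro r (rfl | rfl)
    · exact hp
    · exact hinv _ hp
  have h2 : k • k • p = p := by
    have := hinv _ (hinv p hp)
    rw [← hWeq] at this
    rcases this with h | h
    · exact h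
    · exact absurd (smul_left_cancel k h) hne
  obtain ⟨j, hj⟩ := hko
  have h3 : ∀ j : ℕ, (k ^ (2 * j + 1)) • p = k • p := by
    intro j
    induction j with
    | zero => rw [pow_one]
    | succ j ih =>
      rw [show 2 * (j + 1) + 1 = 1 + 1 + (2 * j + 1) by ring, pow_add, mul_smul, ih, pow_add, pow_one, mul_smul]
      exact congrArg (k • ·) h2
  have := h3 j
  rw [← hj, pow_orderOf_eq_one, one_smul] at this
  exact hne this.symm

end Cfsg.Agent.H37
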