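import Cfsg.Agent.H37.OddFourBase

/-! The inductive contradiction for elements fixing many points. -/

namespace Cfsg.Agent.H37

open MulAction

variable {α : Type*} [Fintype α] [DecidableEq α] {G : Subgroup (Equiv.Perm α)}

/-- The sign of a double transposition transported along an embedding. -/
theorem sign_via_double {β : Type*} [Fintype β] [DecidableEq β] (y : Fin 4 ↪ β) {a b c d : Fin 4} (hab : a ≠ b) (hcd : c ≠ d) :
    Equiv.Perm.sign (Equiv.Perm.viaEmbeddingHom y (Equiv.swap a b * Equiv.swap c d)) = 1 := by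
  have e : ((Equiv.Perm.sign : Equiv.Perm β →* ℤˣ).comp (Equiv.Perm.viaEmbeddingHom y)) (Equiv.swap a b) =
      ((Equiv.Perm.sign : Equiv.Perm β →* ℤˣ).comp (Equiv.Perm.viaEmbeddingHom y)) (Equiv.swap c d) :=
    isConj_iff_eq.1 (MonoidHom.map_isConj _ (Equiv.Perm.isConj_swap hab hcd))
  show ((Equiv.Perm.sign : Equiv.Perm β →* ℤˣ).comp (Equiv.Perm.viaEmbeddingHom y)) (Equiv.swap a b * Equiv.swap c d) = 1
  rw [map_mul, e, Int.units_mul_self]

/-- No element of odd prime order dividing the number of regular orbits fixes more than four points. -/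
theorem no_big_fixed (h4 : MulAction.IsMultiplyPretransitive G α 4)
    (hodd : ∀ z : Fin 4 ↪ α, Odd (Nat.card (MulAction.stabilizer G z))) {f : ℕ} (hf : f = 2 ∨ f = 3)
    (hsame : ∀ v : G, v * v = 1 → v ≠ 1 → (fixSet v).ncard = f) {s t : G} (hs : s * s = 1) (ht : t * t = 1)
    (hst : Commute s t) {a : α} (ha : RegPt s t a) (hA : (fixSet s ∩ fixSet t).ncard + 2 = f)
    {p c : ℕ} (hp : p.Prime) (hp3 : 3 ≤ p) (hcard : Fintype.card α = f + 4 + p * c) {g : G} (hg : orderOf g = p)
    (hgfix : 4 < {q | (g : Equiv.Perm α) q = q}.ncard)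
    (IH : ∀ (F : Set α) [Fintype F] (H : Subgroup (Equiv.Perm F)) (y : Fin 4 ↪ F), Fintype.card F < Fintype.card α →
      MulAction.IsMultiplyPretransitive H F 4 → Odd (Nat.card (MulAction.stabilizer H y)) → OddFourGood F H y) :
    False := by
  classical
  obtain ⟨F, H, hinv, hHG, hkF, hFn, hmod, hF4⟩ := exists_smaller_transitive (by norm_num) h4 hp g.2
    (by rw [Subgroup.orderOf_coe, hg]) hgfix
  have hcF : Fintype.card F = F.ncard := by rw [← Nat.card_eq_fintype_card, Nat.card_coe_set_eq]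
  obtain ⟨y⟩ : Nonempty (Fin 4 ↪ F) := Function.Embedding.nonempty_of_card_le (by rw [Fintype.card_fin, hcF]; omega)
  set H' := restrictGroup H F hinv with hH'
  have hyodd : Odd (Nat.card (MulAction.stabilizer H' y)) := by
    by_contra heven
    rw [Nat.not_odd_iff_even] at heven
    haveI : Fact (Nat.Prime 2) := ⟨Nat.prime_two⟩
    obtain ⟨e, he⟩ := exists_prime_orderOf_dvd_card' (G := MulAction.stabilizer H' y) 2 heven.two_dvd
    obtain ⟨e₀, he₀⟩ : ∃ e₀ : H', e₀ = e := ⟨_, rfl⟩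
    obtain ⟨h, hh⟩ := e₀.2
    obtain ⟨hG, hhG⟩ : ∃ hG : G, hG = ⟨(h : Equiv.Perm α), hHG h.2⟩ := ⟨_, rfl⟩
    have hmem : hG ∈ MulAction.stabilizer G (y.trans (Function.Embedding.subtype _)) :=
      mem_stab_emb.2 fun i => by
        have h1 : e₀ • y i = y i := he₀ ▸ mem_stab_emb.1 e.2 i
        have h2 : ((restrictHom H F hinv h) (y i) : F) = y i := by rw [hh]; exact h1
        rw [hhG]
        exact congrArg Subtype.val h2
    have hpow : h ^ orderOf hG = 1 := Subtype.ext (by
      have := congrArg Subtype.val (pow_orderOf_eq_one hG)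
      rw [Subgroup.coe_pow, Subgroup.coe_one] at this ⊢
      rw [hhG] at this ⊢
      exact this)
    have ho : orderOf (e₀ : Equiv.Perm F) ∣ orderOf hG := by
      rw [← hh]
      refine orderOf_dvd_of_pow_eq_one ?_
      rw [← map_pow, hpow, map_one]
    rw [Subgroup.orderOf_coe, he₀, Subgroup.orderOf_coe, he] at ho
    exact (Nat.not_even_iff_odd.2 ((hodd _).of_dvd_nat (Subgroup.orderOf_dvd_natCard _ hmem))) (even_iff_two_dvd.2 ho)
  have hliftF : ∀ (e : Equiv.Perm F) (z : Fin 4 ↪ F), e ∈ H' → e * e = 1 →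
      ∃ u : G, u * u = 1 ∧ ∀ q : F, u • (q : α) = ((e q : F) : α) := by
    intro e z he he2
    obtain ⟨h, hh, hhe⟩ := exists_of_mem_restrictGroup he
    have h2 : ∀ q : F, (⟨h, hHG hh⟩ : G) • (⟨h, hHG hh⟩ : G) • (q : α) = q := fun q => by
      show h (h q) = (q : α)
      rw [hhe q, hhe (e q), ← Equiv.Perm.mul_apply, he2]
      rfl
    obtain ⟨m, hm1, hm2⟩ := exists_odd_power hodd (z.trans (Function.Embedding.subtype _)) (g := ⟨h, hHG hh⟩)
      fun i => h2 (z i)
    exact ⟨_, hm1, fun q => (hm2 _ (h2 q)).trans (hhe q)⟩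
  have hmodn : F.ncard ≡ f + 4 [MOD p] := by
    refine hmod.trans ?_
    rw [hcard]
    show (f + 4 + p * c) % p = (f + 4) % p
    rw [Nat.add_mul_mod_self_left]
  have hmod' : ∀ a b : ℕ, a ≡ b [MOD p] → a ≤ b → b < a + p → a = b := fun a b h hab hlt => by
    have h1 := (Nat.modEq_iff_dvd' hab).1 h
    rcases Nat.eq_zero_or_pos (b - a) with h2 | h2
    · omega
    · have := Nat.le_of_dvd h2 h1
      omega
  rcases IH F H' y (by rw [hcF]; exact hFn) hF4 hyodd with ⟨h45, -⟩ | ⟨h67, hA'⟩ | ⟨h11, -⟩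
  · have := hmod' _ _ hmodn (by omega) (by omega)
    omega
  · -- two commuting involutions with the same fixed points
    have hFf : F.ncard = f + 4 := by
      rcases Nat.le_total F.ncard (f + 4) with h | h
      · exact hmod' _ _ hmodn h (by omega)
      · exact (hmod' _ _ hmodn.symm h (by omega)).symm
    let σ₁ : Equiv.Perm (Fin 4) := Equiv.swap 0 1 * Equiv.swap 2 3
    let σ₂ : Equiv.Perm (Fin 4) := Equiv.swap 0 2 * Equiv.swap 1 3
    let e₁ : Equiv.Perm F := Equiv.Perm.viaEmbeddingHom y σ₁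
    let e₂ : Equiv.Perm F := Equiv.Perm.viaEmbeddingHom y σ₂
    have hap₁ : ∀ i, e₁ (y i) = y (σ₁ i) := fun i => Equiv.Perm.viaEmbedding_apply σ₁ y i
    have hap₂ : ∀ i, e₂ (y i) = y (σ₂ i) := fun i => Equiv.Perm.viaEmbedding_apply σ₂ y i
    have hout₁ : ∀ q, q ∉ Set.range y → e₁ q = q := fun q hq => Equiv.Perm.viaEmbedding_apply_of_notMem σ₁ y q hq
    have hout₂ : ∀ q, q ∉ Set.range y → e₂ q = q := fun q hq => Equiv.Perm.viaEmbedding_apply_of_notMem σ₂ y q hq
    have he₁ : e₁ * e₁ = 1 := by rw [← map_mul, show σ₁ * σ₁ = 1 by decide, map_one]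
    have he₂ : e₂ * e₂ = 1 := by rw [← map_mul, show σ₂ * σ₂ = 1 by decide, map_one]
    have he12 : ∀ q, e₁ (e₂ q) = e₂ (e₁ q) := fun q => by
      rw [← Equiv.Perm.mul_apply, ← Equiv.Perm.mul_apply, ← map_mul, ← map_mul, show σ₁ * σ₂ = σ₂ * σ₁ by decide]
    obtain ⟨u₁, hu₁, hu₁e⟩ := hliftF e₁ y
      (hA' ▸ Equiv.Perm.mem_alternatingGroup.2 (sign_via_double y (by decide) (by decide))) he₁
    obtain ⟨u₂', hu₂', hu₂e⟩ := hliftF e₂ y
      (hA' ▸ Equiv.Perm.mem_alternatingGroup.2 (sign_via_double y (by decide) (by decide))) he₂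
    obtain ⟨u₂, hu₂, hu12, hu₂F⟩ := exists_commuting_pair hodd (y.trans (Function.Embedding.subtype _)) F
      (fun i => (y i).2) hu₁ hu₂' (fun q hq => by
        rw [hu₁e ⟨q, hq⟩]; exact (e₁ ⟨q, hq⟩).2) (fun q hq => by
        rw [hu₂e ⟨q, hq⟩]; exact (e₂ ⟨q, hq⟩).2) (fun q hq => by
        rw [hu₂e ⟨q, hq⟩, hu₁e, hu₁e ⟨q, hq⟩, hu₂e, he12])
    have hu₂e' : ∀ q : F, u₂ • (q : α) = ((e₂ q : F) : α) := fun q => (hu₂F q q.2).trans (hu₂e q)
    have hne : ∀ i : Fin 4, i ≠ 0 → ((y 0 : F) : α) ≠ (y i : F) := fun i hi h =>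
      hi (y.injective (Subtype.ext h)).symm
    have hy0 : RegPt u₁ u₂ ((y 0 : F) : α) := by
      refine ⟨?_, ?_, ?_⟩
      · rw [hu₁e, hap₁]; exact hne _ (by decide)
      · rw [hu₂e', hap₂]; exact hne _ (by decide)
      · rw [hu₂e', hu₁e, hap₂, hap₁]; exact hne _ (by decide)
    obtain ⟨c', -, hc1, hc2⟩ := conj_pairs h4 hodd hs ht hst hu₁ hu₂ hu12 ha hy0
    have himg : fixSet u₁ ∩ fixSet u₂ = (fun p => c' • p) '' (fixSet s ∩ fixSet t) := by
      rw [← hc1, ← hc2, fixSet_conj, fixSet_conj, ← Set.image_inter (MulAction.injective c')]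
    have hsub : Subtype.val '' ((Set.range y)ᶜ : Set F) ⊆ fixSet u₁ ∩ fixSet u₂ := by
      rintro _ ⟨q, hq, rfl⟩
      refine ⟨?_, ?_⟩
      · show u₁ • (q : α) = q
        rw [hu₁e, hout₁ q hq]
      · show u₂ • (q : α) = q
        rw [hu₂e', hout₂ q hq]
    have h := Set.ncard_le_ncard hsub (Set.toFinite _)
    rw [himg, Set.ncard_image_of_injective _ (MulAction.injective c'), Set.ncard_image_of_injective _ Subtype.val_injective,
      Set.ncard_compl, Set.ncard_range_of_injective y.injective, Nat.card_coe_set_eq, Nat.card_eq_fintype_card,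
      Fintype.card_fin] at h
    omega
  · -- eleven points
    have hoddF : ∀ z : Fin 4 ↪ F, Odd (Nat.card (MulAction.stabilizer H' z)) := fun z => card_stab_eq hF4 y z ▸ hyodd
    obtain ⟨e, he, hey⟩ := exists_lift hF4 hoddF y (Equiv.swap 2 3) (Equiv.swap_mul_self _ _)
    obtain ⟨u, hu', hue⟩ := hliftF e y e.2 (congrArg Subtype.val he)
    have hu1' : u ≠ 1 := by
      intro h
      have h1 := hue (y 2)
      rw [h, one_smul] at h1
      exact absurd (y.injective ((Subtype.ext h1).trans (hey 2))) (by decide)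
    have h3 : 3 ≤ (fixSet u).ncard := by
      have hsub : Subtype.val '' fixSet e ⊆ fixSet u := by
        rintro _ ⟨q, hq, rfl⟩
        show u • (q : α) = q
        rw [hue]
        exact congrArg Subtype.val hq
      have h := Set.ncard_le_ncard hsub (Set.toFinite _)
      rw [Set.ncard_image_of_injective _ Subtype.val_injective] at h
      have h2 : 2 ≤ (fixSet e).ncard := by
        have hsub : ({y 0, y 1} : Set F) ⊆ fixSet e := by
          rintro q (rfl | rfl)
          · exact (hey 0).trans (congrArg y (by decide))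
          · exact (hey 1).trans (congrArg y (by decide))
        have := Set.ncard_le_ncard hsub (Set.toFinite _)
        rwa [Set.ncard_pair (y.injective.ne (show (0 : Fin 4) ≠ 1 by decide))] at this
      have ho := Nat.odd_iff.1 (odd_fixed_of_odd he (by rw [h11]; decide))
      omega
    rw [hsame u hu' hu1'] at h3
    have h1 := (Nat.modEq_iff_dvd' (show f + 4 ≤ F.ncard by omega)).1 hmodn.symm
    rw [show F.ncard - (f + 4) = 4 by omega] at h1
    have := (Nat.prime_dvd_prime_iff_eq hp Nat.prime_two).1 (hp.dvd_of_dvd_pow (show p ∣ 2 ^ 2 by norm_num; exact h1))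
    omega

end Cfsg.Agent.H37
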