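import Cfsg.Agent.H37.OddFourTen
import Cfsg.Agent.H37.OddFourKernel
import Cfsg.Agent.H37.OddFourConfig

/-! The inductive step for large degree. -/

namespace Cfsg.Agent.H37

open MulAction

variable {α : Type*} [Fintype α] [DecidableEq α] {G : Subgroup (Equiv.Perm α)}

/-- Counting in a regular action of a four-group outside an invariant set. -/
theorem exists_kernel_prime (h4 : MulAction.IsMultiplyPretransitive G α 4)
    (hodd : ∀ z : Fin 4 ↪ α, Odd (Nat.card (MulAction.stabilizer G z))) {s t : G} (hs : s * s = 1) (ht : t * t = 1)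
    (hst : Commute s t) (Φ : Set α) (hΦs : ∀ p ∈ Φ, s • p ∈ Φ) (hΦt : ∀ p ∈ Φ, t • p ∈ Φ)
    (hreg : ∀ y, y ∉ Φ → RegPt s t y) (K : Subgroup G)
    (hKs : ∀ k ∈ K, Commute s k) (hKt : ∀ k ∈ K, Commute t k) (hKΦ : ∀ k ∈ K, ∀ p ∈ Φ, k • p ∈ Φ)
    (hcent : ∀ c : G, Commute s c → Commute t c → ∃ v : G, (v = 1 ∨ v = s ∨ v = t ∨ v = s * t) ∧ v⁻¹ * c ∈ K) :
    ∃ w : ℕ, Fintype.card α = Φ.ncard + 4 * w ∧ (w ≠ 0 → w ∣ Nat.card K) := by
  classical
  have ss : ∀ p : α, s • s • p = p := fun p => by rw [← mul_smul, hs, one_smul]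
  have tt : ∀ p : α, t • t • p = p := fun p => by rw [← mul_smul, ht, one_smul]
  have st : ∀ p : α, s • t • p = t • s • p := fun p => by rw [← mul_smul, hst.eq, mul_smul]
  let O : α → Finset α := fun y => {y, s • y, t • y, s • t • y}
  have hOs : ∀ y, O (s • y) = O y := fun y => by
    ext q
    simp only [O, Finset.mem_insert, Finset.mem_singleton, ss, ← st]
    tauto
  have hOt : ∀ y, O (t • y) = O y := fun y => by
    ext q
    simp only [O, Finset.mem_insert, Finset.mem_singleton, tt]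
    tauto
  have hOmem : ∀ y q, q ∈ O y → O q = O y := by
    intro y q hq
    simp only [O, Finset.mem_insert, Finset.mem_singleton] at hq
    rcases hq with rfl | rfl | rfl | rfl
    · rfl
    · exact hOs y
    · exact hOt y
    · rw [hOs, hOt]
  have hOΦ : ∀ y, y ∉ Φ → ∀ q ∈ O y, q ∉ Φ := by
    intro y hy q hq hqΦ
    apply hy
    simp only [O, Finset.mem_insert, Finset.mem_singleton] at hq
    rcases hq with rfl | rfl | rfl | rfl
    · exact hqΦ
    · simpa [ss] using hΦs _ hqΦ
    · simpa [tt] using hΦt _ hqΦ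
    · simpa [tt, ss] using hΦt _ (hΦs _ hqΦ)
  set R : Finset α := Finset.univ.filter fun y => y ∉ Φ with hR
  have hRc : R.card + Φ.ncard = Fintype.card α := by
    have h := Finset.card_filter_add_card_filter_not (s := (Finset.univ : Finset α)) (fun y => y ∉ Φ)
    rw [Finset.card_univ] at h
    have e : (Finset.univ.filter fun y => ¬ y ∉ Φ).card = Φ.ncard := by
      rw [← Set.ncard_coe_finset]
      congr 1
      ext y
      simp
    rw [e] at h
    exact h
  set 𝒪 := R.image O with h𝒪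
  have hcnt : R.card = 4 * 𝒪.card := by
    rw [Finset.card_eq_sum_card_image O R, Finset.sum_const_nat (m := 4), mul_comm]
    intro S hS'
    obtain ⟨y, hy, rfl⟩ := Finset.mem_image.1 hS'
    have hyΦ := (Finset.mem_filter.1 hy).2
    have : (R.filter fun q => O q = O y) = O y := by
      ext q
      rw [Finset.mem_filter]
      refine ⟨fun h => h.2 ▸ Finset.mem_insert_self _ _,
        fun h => ⟨Finset.mem_filter.2 ⟨Finset.mem_univ _, hOΦ y hyΦ q h⟩, hOmem y q h⟩⟩
    rw [this]
    obtain ⟨b1, b2, b3⟩ := hreg y hyΦ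
    refine Finset.card_eq_four.2 ⟨y, s • y, t • y, s • t • y, b1, b2, b3, fun h => b3 (by rw [← h, ss]),
      fun h => b2 (smul_left_cancel s h), fun h => b1 ?_, rfl⟩
    rw [st] at h
    exact smul_left_cancel t h
  refine ⟨𝒪.card, by omega, fun hw0 => ?_⟩
  obtain ⟨a, haR⟩ : R.Nonempty := Finset.card_pos.1 (by omega)
  have haΦ := (Finset.mem_filter.1 haR).2
  have hKtr : ∀ y, y ∉ Φ → ∃ k ∈ K, O (k • a) = O y := by
    intro y hy
    obtain ⟨c, hca, hcs, hct⟩ := conj_pairs h4 hodd hs ht hst hs ht hst (hreg a haΦ) (hreg y hy)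
    obtain ⟨v, hv, hk⟩ := hcent c (mul_inv_eq_iff_eq_mul.1 hcs).symm (mul_inv_eq_iff_eq_mul.1 hct).symm
    refine ⟨_, hk, hOmem _ _ ?_⟩
    rw [mul_smul, hca]
    simp only [O, Finset.mem_insert, Finset.mem_singleton, inv_smul_eq_iff]
    rcases hv with rfl | rfl | rfl | rfl
    · left; rw [one_smul]
    · right; left; rw [ss]
    · right; right; left; rw [tt]
    · right; right; right
      rw [mul_smul, ← st (t • y), tt, ss]
  have hkst : ∀ k ∈ K, ∀ y : α, k • s • y = s • k • y ∧ k • t • y = t • k • y := fun k hk y =>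
    ⟨by rw [← mul_smul, ← (hKs k hk).eq, mul_smul], by rw [← mul_smul, ← (hKt k hk).eq, mul_smul]⟩
  let act : MulAction K (Finset α) :=
    { smul := fun k S => S.image fun q => (k : G) • q
      one_smul := fun S => by
        show S.image (fun q => ((1 : K) : G) • q) = S
        simp
      mul_smul := fun k l S => by
        show S.image (fun q => ((k * l : K) : G) • q) = (S.image fun q => (l : G) • q).image fun q => (k : G) • q
        rw [Finset.image_image]
        exact Finset.image_congr fun q _ => mul_smul (k : G) (l : G) q }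
  have hkO : ∀ (k : K) y, k • O y = O ((k : G) • y) := by
    intro k y
    show (O y).image (fun q => (k : G) • q) = _
    simp only [O, Finset.image_insert, Finset.image_singleton, (hkst k k.2 _).1, (hkst k k.2 _).2]
  have horb : MulAction.orbit K (O a) = (𝒪 : Set (Finset α)) := by
    ext S
    constructor
    · rintro ⟨k, rfl⟩
      show k • O a ∈ (𝒪 : Set (Finset α))
      rw [hkO, Finset.mem_coe]
      refine Finset.mem_image.2 ⟨(k : G) • a, Finset.mem_filter.2 ⟨Finset.mem_univ _, fun h => haΦ ?_⟩, rfl⟩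
      simpa [inv_smul_smul] using hKΦ _ (inv_mem k.2) _ h
    · intro hS'
      obtain ⟨y, hy, rfl⟩ := Finset.mem_image.1 hS'
      obtain ⟨k, hk, hka⟩ := hKtr y (Finset.mem_filter.1 hy).2
      exact ⟨⟨k, hk⟩, (hkO ⟨k, hk⟩ a).trans hka⟩
  rw [← Set.ncard_coe_finset, ← horb, ← MulAction.index_stabilizer]
  exact Subgroup.index_dvd_card _

theorem good_large (h4 : MulAction.IsMultiplyPretransitive G α 4) (x : Fin 4 ↪ α)
    (hodd₀ : Odd (Nat.card (MulAction.stabilizer G x))) (hn : 8 ≤ Fintype.card α)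
    (IH : ∀ (F : Set α) [Fintype F] (H : Subgroup (Equiv.Perm F)) (y : Fin 4 ↪ F), Fintype.card F < Fintype.card α →
      MulAction.IsMultiplyPretransitive H F 4 → Odd (Nat.card (MulAction.stabilizer H y)) → OddFourGood F H y) :
    Fintype.card α = 11 ∧ Nat.card (MulAction.stabilizer G x) = 1 := by
  classical
  have hodd : ∀ y : Fin 4 ↪ α, Odd (Nat.card (MulAction.stabilizer G y)) := fun y => card_stab_eq h4 x y ▸ hodd₀
  have hne4 : ∀ {g : G} {i j : Fin 4} (y : Fin 4 ↪ α), i ≠ j → g • y i = y j → g ≠ 1 := fun y hij h e => by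
    rw [e, one_smul] at h
    exact hij (y.injective h)
  obtain ⟨s, hs, hsx⟩ := exists_lift h4 hodd x (Equiv.swap 2 3) (Equiv.swap_mul_self _ _)
  obtain ⟨t, ht, htx, hst'⟩ := exists_lift_commute h4 hodd x (Equiv.swap 2 3) (Equiv.swap 0 1)
    (Equiv.swap_mul_self _ _) (by decide) s hs hsx
  have hst : Commute s t := hst'
  have hu : (s * t) * (s * t) = 1 := by
    rw [mul_assoc, ← mul_assoc t, ← hst.eq, mul_assoc s t t, ht, mul_one, hs]
  have hs1 : s ≠ 1 := hne4 x (i := 2) (j := 3) (by decide) (hsx 2)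
  have ht1 : t ≠ 1 := hne4 x (i := 0) (j := 1) (by decide) (htx 0)
  have hs0' : s • x 0 = x 0 := (hsx 0).trans (congrArg x (by decide))
  have hs1' : s • x 1 = x 1 := (hsx 1).trans (congrArg x (by decide))
  have hs2' : s • x 2 = x 3 := (hsx 2).trans (congrArg x (by decide))
  have ht0' : t • x 0 = x 1 := (htx 0).trans (congrArg x (by decide))
  have ht2' : t • x 2 = x 2 := (htx 2).trans (congrArg x (by decide))
  have ht3' : t • x 3 = x 3 := (htx 3).trans (congrArg x (by decide))
  have hu1 : s * t ≠ 1 := by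
    refine hne4 x (i := 0) (j := 1) (by decide) ?_
    rw [mul_smul, ht0', hs1']
  set f := (fixSet s).ncard with hf
  have hsame : ∀ v : G, v * v = 1 → v ≠ 1 → (fixSet v).ncard = f := fun v hv hv1 =>
    ncard_fixed_eq h4 hodd (by omega) hv hv1 hs hs1
  have hne01 : x 1 ≠ x 0 := x.injective.ne (by decide)
  have hne23 : x 3 ≠ x 2 := x.injective.ne (by decide)
  have hf2 : 2 ≤ f := by
    have hsub : ({x 0, x 1} : Set α) ⊆ fixSet s := by
      rintro p (rfl | rfl)
      · exact hs0'
      · exact hs1'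
    have := Set.ncard_le_ncard hsub (Set.toFinite _)
    rwa [Set.ncard_pair hne01.symm] at this
  have hf3 : f ≤ 3 := card_fixed_le_three hodd hs hs1
  set A := fixSet s ∩ fixSet t with hA
  have hS : fixSet s \ fixSet t = {x 0, x 1} := fix_diff_pair hf3 hsame hs hs1 ht hst hs0' ht0' hne01
  have hT : fixSet t \ fixSet s = {x 2, x 3} := fix_diff_pair hf3 hsame ht ht1 hs hst.symm ht2' hs2' hne23
  have hAc : A.ncard + 2 = f := by
    have := Set.ncard_inter_add_ncard_sdiff_eq_ncard (fixSet s) (fixSet t) (Set.toFinite _)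
    rw [hS, Set.ncard_pair hne01.symm] at this
    exact this
  have hAu : fixSet (s * t) ∩ fixSet s = A := by
    ext p
    constructor
    · rintro ⟨h1, h2⟩
      refine ⟨h2, ?_⟩
      have e : t • s • p = s • t • p := by rw [← mul_smul, ← hst.eq, mul_smul]
      rw [mem_fixSet, mul_smul, ← e, mem_fixSet.1 h2] at h1
      exact h1
    · rintro ⟨h1, h2⟩
      exact ⟨by rw [mem_fixSet, mul_smul, mem_fixSet.1 h2, mem_fixSet.1 h1], h1⟩
  set U := fixSet (s * t) \ fixSet s with hU
  have hUc : U.ncard = 2 := by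
    have := Set.ncard_inter_add_ncard_sdiff_eq_ncard (fixSet (s * t)) (fixSet s) (Set.toFinite _)
    rw [hAu, hsame _ hu hu1] at this
    show (fixSet (s * t) \ fixSet s).ncard = 2
    omega
  set Φ : Set α := A ∪ ({x 0, x 1} ∪ {x 2, x 3} ∪ U) with hΦ
  have hΦc : Φ.ncard = f + 4 := by
    have d3 : Disjoint ({x 0, x 1} ∪ {x 2, x 3} : Set α) U := by
      rw [Set.disjoint_union_left]
      constructor
      · rw [← hS, Set.disjoint_left]
        exact fun p hp hp' => hp'.2 hp.1
      · rw [← hT, Set.disjoint_left]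
        rintro p ⟨h1, h2⟩ ⟨h3, -⟩
        apply h2
        rw [mem_fixSet, mul_smul, mem_fixSet.1 h1] at h3
        exact h3
    have d2 : Disjoint ({x 0, x 1} : Set α) {x 2, x 3} := by
      rw [← hS, ← hT, Set.disjoint_left]
      exact fun p hp hp' => hp'.2 hp.1
    have d1 : Disjoint A ({x 0, x 1} ∪ {x 2, x 3} ∪ U) := by
      rw [Set.disjoint_union_right, Set.disjoint_union_right, ← hS, ← hT]
      refine ⟨⟨Set.disjoint_left.2 fun p hp hp' => hp'.2 hp.2, Set.disjoint_left.2 fun p hp hp' => hp'.2 hp.1⟩,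
        Set.disjoint_left.2 fun p hp hp' => hp'.2 hp.1⟩
    rw [hΦ, Set.ncard_union_eq d1, Set.ncard_union_eq d3, Set.ncard_union_eq d2, Set.ncard_pair hne01.symm,
      Set.ncard_pair hne23.symm, hUc]
    omega
  have hΦeq : ∀ p, p ∈ Φ ↔ p ∈ fixSet s ∨ p ∈ fixSet t ∨ p ∈ fixSet (s * t) := by
    intro p
    constructor
    · rintro (h | (h | h) | h)
      · exact Or.inl h.1
      · rw [← hS] at h; exact Or.inl h.1
      · rw [← hT] at h; exact Or.inr (Or.inl h.1)
      · exact Or.inr (Or.inr h.1)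
    · intro h
      by_cases h1 : p ∈ fixSet s
      · by_cases h2 : p ∈ fixSet t
        · exact Or.inl ⟨h1, h2⟩
        · exact Or.inr (Or.inl (Or.inl (hS ▸ ⟨h1, h2⟩)))
      · rcases h with h | h | h
        · exact absurd h h1
        · exact Or.inr (Or.inl (Or.inr (hT ▸ ⟨h, h1⟩)))
        · exact Or.inr (Or.inr ⟨h, h1⟩)
  have hreg : ∀ y, y ∉ Φ → RegPt s t y := fun y hy => by
    rw [hΦeq, mem_fixSet, mem_fixSet, mem_fixSet, mul_smul] at hy
    push Not at hy
    exact ⟨Ne.symm hy.1, Ne.symm hy.2.1, Ne.symm hy.2.2⟩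
  have hΦinv : ∀ v : G, Commute s v → Commute t v → ∀ p ∈ Φ, v • p ∈ Φ := by
    intro v hsv htv p hp
    rw [hΦeq] at hp ⊢
    exact hp.imp (smul_mem_fixSet hsv) (Or.imp (smul_mem_fixSet htv) (smul_mem_fixSet (hsv.mul_left htv)))
  let K : Subgroup G :=
    { carrier := {k | Commute s k ∧ Commute t k ∧ ∀ p ∈ Φ, k • p = p}
      one_mem' := ⟨Commute.one_right _, Commute.one_right _, fun p _ => one_smul _ p⟩
      mul_mem' := fun {a b} ha hb => ⟨ha.1.mul_right hb.1, ha.2.1.mul_right hb.2.1, fun p hp => by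
        rw [mul_smul, hb.2.2 p hp, ha.2.2 p hp]⟩
      inv_mem' := fun {a} ha => ⟨ha.1.inv_right, ha.2.1.inv_right, fun p hp => by
        rw [inv_smul_eq_iff, ha.2.2 p hp]⟩ }
  have hcent : ∀ c : G, Commute s c → Commute t c → ∃ v : G, (v = 1 ∨ v = s ∨ v = t ∨ v = s * t) ∧ v⁻¹ * c ∈ K := by
    intro c hcs hct
    have hS' : c • x 0 = x 0 ∨ c • x 0 = x 1 := by
      have h0 : x 0 ∈ fixSet s \ fixSet t := hS ▸ Or.inl rfl
      have : c • x 0 ∈ fixSet s \ fixSet t := ⟨smul_mem_fixSet hcs h0.1, fun h => h0.2 (by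
        have := smul_mem_fixSet hct.inv_right h
        rwa [inv_smul_smul] at this)⟩
      rwa [hS] at this
    have hT' : c • x 2 = x 2 ∨ c • x 2 = x 3 := by
      have h0 : x 2 ∈ fixSet t \ fixSet s := hT ▸ Or.inl rfl
      have : c • x 2 ∈ fixSet t \ fixSet s := ⟨smul_mem_fixSet hct h0.1, fun h => h0.2 (by
        have := smul_mem_fixSet hcs.inv_right h
        rwa [inv_smul_smul] at this)⟩
      rwa [hT] at this
    obtain ⟨v, hv, hv0, hv2, hvs, hvt⟩ : ∃ v : G, (v = 1 ∨ v = s ∨ v = t ∨ v = s * t) ∧ v • x 0 = c • x 0 ∧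
        v • x 2 = c • x 2 ∧ Commute s v ∧ Commute t v := by
      rcases hS' with h0 | h0 <;> rcases hT' with h2 | h2
      · exact ⟨1, Or.inl rfl, by rw [h0, one_smul], by rw [h2, one_smul], Commute.one_right _, Commute.one_right _⟩
      · exact ⟨s, Or.inr (Or.inl rfl), by rw [h0, hs0'], by rw [h2, hs2'], Commute.refl s, hst.symm⟩
      · exact ⟨t, Or.inr (Or.inr (Or.inl rfl)), by rw [h0, ht0'], by rw [h2, ht2'], hst, Commute.refl t⟩
      · exact ⟨s * t, Or.inr (Or.inr (Or.inr rfl)), by rw [h0, mul_smul, ht0', hs1'], by rw [h2, mul_smul, ht2', hs2'],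
          (Commute.refl s).mul_right hst, hst.symm.mul_right (Commute.refl t)⟩
    refine ⟨v, hv, ?_⟩
    set k := v⁻¹ * c with hk
    have hks : Commute s k := hvs.inv_right.mul_right hcs
    have hkt : Commute t k := hvt.inv_right.mul_right hct
    have k0 : k • x 0 = x 0 := by rw [hk, mul_smul, inv_smul_eq_iff, hv0]
    have k2 : k • x 2 = x 2 := by rw [hk, mul_smul, inv_smul_eq_iff, hv2]
    have k1 : k • x 1 = x 1 := by rw [← ht0', ← mul_smul, ← hkt.eq, mul_smul, k0]
    have k3 : k • x 3 = x 3 := by rw [← hs2', ← mul_smul, ← hks.eq, mul_smul, k2]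
    have kx : k ∈ MulAction.stabilizer G x := mem_stab_emb.2 fun i => by fin_cases i <;> assumption
    have hko : Odd (orderOf k) := (hodd x).of_dvd_nat (Subgroup.orderOf_dvd_natCard _ kx)
    refine ⟨hks, hkt, fun p hp => ?_⟩
    rcases hp with hp | (hp | hp) | hp
    · exact fix_small_invariant hko (W := A) (by omega)
        (fun q hq => ⟨smul_mem_fixSet hks hq.1, smul_mem_fixSet hkt hq.2⟩) p hp
    · rcases hp with rfl | rfl
      · exact k0
      · exact k1
    · rcases hp with rfl | rfl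
      · exact k2
      · exact k3
    · refine fix_small_invariant hko (W := U) (by omega)
        (fun q hq => ⟨smul_mem_fixSet (hks.mul_left hkt) hq.1, fun h => hq.2 ?_⟩) p hp
      have := smul_mem_fixSet hks.inv_right h
      rwa [inv_smul_smul] at this
  obtain ⟨w, hw, hwK⟩ := exists_kernel_prime h4 hodd hs ht hst Φ (hΦinv s (Commute.refl s) hst.symm)
    (hΦinv t hst (Commute.refl t)) hreg K (fun k hk => hk.1) (fun k hk => hk.2.1)
    (fun k hk p hp => (hk.2.2 p hp).symm ▸ hp) hcent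
  rw [hΦc] at hw
  have hw0 : w ≠ 0 := by omega
  by_cases hw1 : w = 1
  · exact good_ten_eleven h4 x hodd (f := f) (by omega) hsame (by omega)
  exfalso
  obtain ⟨p, hp, hpw⟩ := Nat.exists_prime_and_dvd hw1
  haveI : Fact p.Prime := ⟨hp⟩
  obtain ⟨g, hg⟩ := exists_prime_orderOf_dvd_card' (G := K) p (hpw.trans (hwK hw0))
  have hgx : (g : G) ∈ MulAction.stabilizer G x := mem_stab_emb.2 fun i => g.2.2.2 _ (by
    rw [hΦeq]
    fin_cases i
    · exact Or.inl hs0'
    · exact Or.inl hs1'
    · exact Or.inr (Or.inl ht2')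
    · exact Or.inr (Or.inl ht3'))
  have hpodd : Odd p := by
    have h := Subgroup.orderOf_dvd_natCard _ hgx
    rw [Subgroup.orderOf_coe, hg] at h
    exact hodd₀.of_dvd_nat h
  obtain ⟨a, ha⟩ : ∃ a, a ∉ Φ := by
    by_contra hall
    push Not at hall
    rw [Set.eq_univ_of_forall hall, Set.ncard_univ, Nat.card_eq_fintype_card] at hΦc
    omega
  obtain ⟨c, hc⟩ := hpw
  refine no_big_fixed h4 hodd (f := f) (by omega) hsame hs ht hst (hreg a ha) hAc hp (c := 4 * c) ?_ ?_
    (g := (g : G)) (by rw [Subgroup.orderOf_coe, hg]) ?_ IH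
  · have := hp.two_le
    rw [Nat.odd_iff] at hpodd
    omega
  · rw [show p * (4 * c) = 4 * w by rw [hc]; ring]
    omega
  · have := Set.ncard_le_ncard (show Φ ⊆ {q | ((g : G) : Equiv.Perm α) q = q} from fun q hq => g.2.2.2 q hq)
      (Set.toFinite _)
    omega

end Cfsg.Agent.H37
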