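import Cfsg.Agent.H37.MillerSylow
import Cfsg.Agent.H37.MillerKeeps
import Cfsg.Agent.H37.MillerPerm
import Cfsg.Agent.H37.SmallSupport
import Cfsg.Agent.S4221

/-! Miller's bound on the degree of transitivity. -/

namespace Cfsg.Agent.H37

open MulAction

variable {α : Type*} [Fintype α] [DecidableEq α] {G : Subgroup (Equiv.Perm α)}

/-- Degree nine: a four-transitive group contains the alternating group. -/
theorem alt_le_degree_nine (h4 : MulAction.IsMultiplyPretransitive G α 4) (hn : Fintype.card α = 9) :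
    alternatingGroup α ≤ G := by
  classical
  obtain ⟨y⟩ : Nonempty (Fin 4 ↪ α) := Function.Embedding.nonempty_of_card_le (by rw [Fintype.card_fin, hn]; omega)
  by_cases hodd : Odd (Nat.card (MulAction.stabilizer G y))
  · rcases Cfsg.Agent.S4221.result G h4 y hodd with ⟨h, -⟩ | ⟨h, -⟩ | ⟨h, -⟩ <;> omega
  rw [Nat.not_odd_iff_even] at hodd
  haveI : Fact (Nat.Prime 2) := ⟨Nat.prime_two⟩
  obtain ⟨u, hu⟩ := exists_prime_orderOf_dvd_card' (G := MulAction.stabilizer G y) 2 hodd.two_dvd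
  have ho : orderOf ((u : G) : Equiv.Perm α) = 2 := by rw [Subgroup.orderOf_coe, Subgroup.orderOf_coe, hu]
  refine alt_le_of_small_support h4 (by omega) (u : G).2 (fun e => by rw [e, orderOf_one] at ho; omega) ?_
  have h2 := Equiv.Perm.two_dvd_card_support (σ := ((u : G) : Equiv.Perm α)) (by rw [← ho]; exact pow_orderOf_eq_one _)
  have hsub : ((u : G) : Equiv.Perm α).support ⊆ (Finset.univ.map y)ᶜ := by
    intro a ha
    rw [Finset.mem_compl]
    intro h
    obtain ⟨i, -, rfl⟩ := Finset.mem_map.1 h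
    exact Equiv.Perm.mem_support.1 ha (mem_stab_emb.1 u.2 i)
  have h := Finset.card_le_card hsub
  rw [Finset.card_compl, Finset.card_map, Finset.card_univ, Fintype.card_fin] at h
  omega

/-- Miller's theorem. -/
theorem miller {k p r : ℕ} (hp : p.Prime) (hn : Fintype.card α = k * p + r) (hk : 1 ≤ k) (hpk : k < p)
    (hrk : k < r) (hr : 3 ≤ r) (hG : MulAction.IsMultiplyPretransitive G α (r + 1)) : alternatingGroup α ≤ G := by
  classical
  haveI : Fact p.Prime := ⟨hp⟩
  have hkp : p ≤ k * p := Nat.le_mul_of_pos_left p hk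
  have h4 : MulAction.IsMultiplyPretransitive G α 4 :=
    MulAction.isMultiplyPretransitive_of_le (n := r + 1) (by omega)
      (by rw [Nat.card_eq_fintype_card, hn]; have := hp.two_le; omega)
  by_contra hA
  by_cases h9 : k = 2 ∧ p = 3 ∧ r = 3
  · obtain ⟨rfl, rfl, rfl⟩ := h9
    exact hA (alt_le_degree_nine h4 (by omega))
  obtain ⟨x⟩ : Nonempty (Fin r ↪ α) :=
    Function.Embedding.nonempty_of_card_le (by rw [Fintype.card_fin, hn]; omega)
  obtain ⟨P, D, hlift⟩ := exists_sylow_data hn hk hpk hG x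
  set Δ := Set.range x
  have hΔc : (Δᶜ : Set α).ncard = k * p := by
    rw [Set.ncard_compl, Set.ncard_range_of_injective x.injective, Nat.card_eq_fintype_card, Nat.card_eq_fintype_card,
      Fintype.card_fin, hn]
    omega
  -- no element of `P` moves few points
  have hsmall : ∀ z ∈ P, ((z : Equiv.Perm α).support.card < 2 * p) → z = 1 := by
    intro z hz hs
    by_contra hz1
    have hord : orderOf z = p :=
      orderOf_eq_prime (pow_eq_one_of_mem D hz) hz1
    exact hA (alt_le_of_prime_order h4 hp (by omega) z.2 (by rw [Subgroup.orderOf_coe, hord]) hs)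
  have hsupp : ∀ z ∈ P, ∀ S : Set α, (∀ b ∉ Δ, b ∉ S → z • b = b) → (z : Equiv.Perm α).support.card ≤ (Δᶜ ∩ S).ncard := by
    intro z hz S hS
    rw [← Set.ncard_coe_finset]
    refine Set.ncard_le_ncard (fun b hb => ?_) (Set.toFinite _)
    rw [Finset.mem_coe, Equiv.Perm.mem_support] at hb
    refine ⟨fun h => hb (D.fix z hz b h), ?_⟩
    by_contra h
    exact hb (hS b (fun h' => hb (D.fix z hz b h')) h)
  have hone : ∀ z ∈ P, ∀ a : α, (∀ b ∉ Δ, b ∉ MulAction.orbit P a → z • b = b) → z = 1 := by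
    intro z hz a h
    refine hsmall z hz ?_
    have h1 := hsupp z hz _ h
    have h2 : (Δᶜ ∩ MulAction.orbit P a).ncard ≤ p := by
      by_cases ha : a ∈ Δ
      · have hsub : Δᶜ ∩ MulAction.orbit P a ⊆ ∅ := by
          rintro b ⟨hb, ⟨z', hz'⟩⟩
          have hba : b = a := hz'.symm.trans (D.fix z' z'.2 a ha)
          exact hb (hba ▸ ha)
        exact (Set.ncard_le_ncard hsub).trans (by simp)
      · exact (Set.ncard_le_ncard Set.inter_subset_right (Set.toFinite _)).trans (D.orbit_card a ha).le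
    have := hp.two_le
    omega
  obtain ⟨a₀, ha₀⟩ : ∃ a, a ∉ Δ := by
    obtain ⟨a, ha⟩ : (Δᶜ : Set α).Nonempty := (Set.ncard_pos (Set.toFinite _)).1 (by have := hp.two_le; omega)
    exact ⟨a, ha⟩
  have hk2 : 2 ≤ k := by
    by_contra hc
    have hk1 : k = 1 := by omega
    obtain ⟨z, hz, hza⟩ := exists_moving D ha₀
    have h := hsupp z hz Set.univ (fun b _ hb => absurd (Set.mem_univ b) hb)
    rw [Set.inter_univ, hΔc, hk1, one_mul] at h
    have := hp.two_le
    rw [hsmall z hz (by omega), one_smul] at hza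
    exact hza rfl
  have hp3 : 3 ≤ p := by omega
  -- the normal subgroup induced by the orbit-preserving elements
  let M : Subgroup (Equiv.Perm (Fin r)) :=
    { carrier := {σ | ∃ h : G, Keeps P Δ h ∧ ∀ i, h • x i = x (σ i)}
      one_mem' := ⟨1, Keeps.one, fun i => one_smul _ _⟩
      mul_mem' := fun {σ τ} ⟨g, hg, hgi⟩ ⟨h, hh, hhi⟩ => ⟨g * h, hg.mul D hh, fun i => by
        rw [mul_smul, hhi, hgi]; rfl⟩
      inv_mem' := fun {σ} ⟨g, hg, hgi⟩ => ⟨g⁻¹, hg.inv D, fun i => by
        rw [inv_smul_eq_iff, hgi, Equiv.Perm.coe_inv, Equiv.apply_symm_apply]⟩ }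
  choose n hnN hnx using hlift
  have hinvx : ∀ (g : G) (σ : Equiv.Perm (Fin r)), (∀ i, g • x i = x (σ i)) → ∀ i, g⁻¹ • x i = x (σ⁻¹ i) := by
    intro g σ hg i
    rw [inv_smul_eq_iff, hg, Equiv.Perm.coe_inv, Equiv.apply_symm_apply]
  have hMn : M.Normal := ⟨fun σ ⟨h, hh, hhi⟩ τ => ⟨n τ * h * (n τ)⁻¹, hh.conj D (hnN τ), fun i => by
    rw [mul_smul, mul_smul, hinvx _ _ (hnx τ), hhi, hnx]; rfl⟩⟩
  -- counting
  let 𝒪 : Set (Set α) := (fun a => MulAction.orbit P a) '' Δᶜ
  have h𝒪 : 𝒪.ncard = k := card_orbits D hΔc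
  have hmap : ∀ σ, ∀ O ∈ 𝒪, (fun b => n σ • b) '' O ∈ 𝒪 := by
    rintro σ _ ⟨a, ha, rfl⟩
    exact ⟨n σ • a, normalizer_out D (hnN σ) ha, (normalizer_orbit (hnN σ) a).symm⟩
  let φ : Equiv.Perm (Fin r) → (↥𝒪 ↪ ↥𝒪) := fun σ =>
    ⟨fun O => ⟨(fun b => n σ • b) '' (O : Set α), hmap σ O O.2⟩, fun O O' e =>
      Subtype.ext (Set.image_injective.2 (MulAction.injective (n σ)) (congrArg Subtype.val e))⟩
  have hfib : ∀ σ τ, φ σ = φ τ → τ⁻¹ * σ ∈ M := by
    intro σ τ e
    refine ⟨(n τ)⁻¹ * n σ, keeps_of_same D (hnN σ) (hnN τ) fun a ha => ?_, fun i => ?_⟩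
    · have h1 : (fun b => n σ • b) '' MulAction.orbit P a = (fun b => n τ • b) '' MulAction.orbit P a :=
        congrArg Subtype.val (DFunLike.congr_fun e (⟨_, ⟨a, ha, rfl⟩⟩ : ↥𝒪))
      rwa [normalizer_orbit (hnN σ), normalizer_orbit (hnN τ)] at h1
    · rw [mul_smul, hnx, hinvx _ _ (hnx τ)]; rfl
  have hcount : r.factorial ≤ Nat.card M * k.factorial := by
    have := Fintype.ofFinite ↥𝒪
    have h1 : (Finset.univ : Finset (Equiv.Perm (Fin r))).card ≤ Nat.card M * ((Finset.univ : Finset (Equiv.Perm (Fin r))).image φ).card := by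
      refine Finset.card_le_mul_card_image _ _ fun e he => ?_
      obtain ⟨τ, -, rfl⟩ := Finset.mem_image.1 he
      rw [Nat.card_eq_fintype_card, ← Finset.card_univ]
      refine Finset.card_le_card_of_injOn (fun σ => if h : τ⁻¹ * σ ∈ M then (⟨_, h⟩ : M) else 1)
        (fun σ _ => Finset.mem_univ _) fun σ hσ σ' hσ' e => ?_
      simp only [Finset.coe_filter, Set.mem_ofPred_eq] at hσ hσ'
      simp only [dif_pos (hfib σ τ hσ.2), dif_pos (hfib σ' τ hσ'.2), Subtype.mk.injEq] at e
      exact mul_left_cancel e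
    rw [Finset.card_univ, Fintype.card_perm, Fintype.card_fin] at h1
    refine h1.trans (Nat.mul_le_mul_left _ ((Finset.card_le_univ _).trans ?_))
    rw [Fintype.card_embedding_eq, ← Nat.card_eq_fintype_card, Nat.card_coe_set_eq, h𝒪, Nat.descFactorial_self]
  have hMcard : r ≤ Nat.card M := by
    obtain ⟨q, rfl⟩ : ∃ q, r = q + 1 := ⟨r - 1, by omega⟩
    have h1 : k.factorial ≤ q.factorial := Nat.factorial_le (by omega)
    rw [Nat.factorial_succ] at hcount
    exact Nat.le_of_mul_le_mul_right (hcount.trans (Nat.mul_le_mul_left _ h1)) q.factorial_pos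
  obtain ⟨σ, ⟨h, hh, hhσ⟩, τ, hτM, hc1, hc2, hc4⟩ := exists_comm_small hr M hMn hMcard
  -- an element of the normaliser over `τ` commuting with `h` modulo the centraliser of `P`
  obtain ⟨n', hn'N, hn'x, hcomm⟩ : ∃ n' : G, n' ∈ Subgroup.normalizer (P : Set G) ∧ (∀ i, n' • x i = x (τ i)) ∧
      ∀ z ∈ P, Commute (h * n' * h⁻¹ * n'⁻¹) z := by
    by_cases h5 : 5 ≤ r
    · obtain ⟨n', hn', hn'x⟩ := hτM h5
      exact ⟨n', hn'.1, hn'x, fun z hz => commute_of_conj_eq (fun z hz => hh.commute_conj D hn' hz) hh.1 hn'.1 hz⟩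
    · have htwo : ∀ z ∈ P, ∀ a b : α, a ∉ Δ → b ∉ Δ → b ∉ MulAction.orbit P a → z • a = a → z • b = b → z = 1 := by
        intro z hz a b ha hb hab hza hzb
        refine hsmall z hz ?_
        have h1 := hsupp z hz (MulAction.orbit P a ∪ MulAction.orbit P b)ᶜ fun c _ hc' => by
          rw [Set.mem_compl_iff, not_not] at hc'
          rcases hc' with hc' | hc'
          · exact fix_orbit D ha hz hza c hc'
          · exact fix_orbit D hb hz hzb c hc'
        have hdis : Disjoint (MulAction.orbit P a) (MulAction.orbit P b) := by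
          rw [Set.disjoint_left]
          intro c hca hcb
          exact hab (by rw [← MulAction.orbit_eq_iff.2 hca, MulAction.orbit_eq_iff.2 hcb]; exact MulAction.mem_orbit_self b)
        have hsub : MulAction.orbit P a ∪ MulAction.orbit P b ⊆ Δᶜ :=
          Set.union_subset (fun c hc => orbit_out D ha hc) (fun c hc => orbit_out D hb hc)
        rw [← Set.sdiff_eq, Set.ncard_sdiff hsub (Set.toFinite _), Set.ncard_union_eq hdis, D.orbit_card a ha,
          D.orbit_card b hb, hΔc] at h1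
        have : k * p ≤ 3 * p := Nat.mul_le_mul_right p (by omega)
        omega
      obtain ⟨m, hm⟩ := exists_scalar D hone htwo ⟨a₀, ha₀⟩ hh
      exact ⟨n τ, hnN τ, hnx τ, fun z hz =>
        commute_of_conj_eq (fun z hz => Keeps.commute_of_scalar hm (hnN τ) hz) hh.1 (hnN τ) hz⟩
  set g := h * n' * h⁻¹ * n'⁻¹ with hg
  have hgK : Keeps P Δ g := by
    rw [hg, show h * n' * h⁻¹ * n'⁻¹ = h * (n' * h⁻¹ * n'⁻¹) by group]
    exact hh.mul D ((hh.inv D).conj D hn'N)
  set c := σ * τ * σ⁻¹ * τ⁻¹ with hc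
  have hgx : ∀ i, g • x i = x (c i) := fun i => by
    rw [hg, mul_smul, mul_smul, mul_smul, hinvx _ _ hn'x, hinvx _ _ hhσ, hn'x, hhσ]
    rfl
  have hgpx : ∀ (j : ℕ) i, g ^ j • x i = x ((c ^ j) i) := by
    intro j
    induction j with
    | zero => intro i; simp
    | succ j ih => intro i; rw [pow_succ, pow_succ, mul_smul, hgx, ih]; rfl
  have hcp : c ^ p ≠ 1 := by
    intro h
    rcases hc2 with h2 | ⟨rfl, h3⟩
    · obtain ⟨j, rfl⟩ := hp.odd_of_ne_two (by omega)
      rw [pow_succ, pow_mul, h2, one_pow, one_mul] at h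
      exact hc1 h
    · have hco : Nat.Coprime p 3 := (Nat.coprime_primes hp Nat.prime_three).2 (fun e => h9 ⟨by omega, e, rfl⟩)
      have := Nat.dvd_gcd (orderOf_dvd_of_pow_eq_one h) (orderOf_dvd_of_pow_eq_one h3)
      rw [hco, Nat.dvd_one, orderOf_eq_one_iff] at this
      exact hc1 this
  have hout : ∀ a ∉ Δ, g ^ p • a = a := fun a ha => centralizer_pow D hcomm hgK.2 ha
  refine hA (alt_le_of_small_support h4 (by omega) (g := ((g ^ p : G) : Equiv.Perm α)) (g ^ p).2 ?_ ?_)
  · intro e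
    apply hcp
    ext i
    have h1 : g ^ p • x i = x i := by
      show ((g ^ p : G) : Equiv.Perm α) (x i) = x i
      rw [e]; rfl
    rw [hgpx] at h1
    simp [x.injective h1]
  · refine (Finset.card_le_card (t := c.support.map x) fun b hb => ?_).trans (by rw [Finset.card_map]; exact hc4)
    rw [Equiv.Perm.mem_support] at hb
    obtain ⟨i, rfl⟩ : b ∈ Δ := by
      by_contra hbΔ
      exact hb (hout b hbΔ)
    refine Finset.mem_map.2 ⟨i, Equiv.Perm.support_pow_le c p ?_, rfl⟩
    rw [Equiv.Perm.mem_support]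
    intro e
    exact hb ((hgpx p i).trans (congrArg x e))

end Cfsg.Agent.H37
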