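import Cfsg.Agent.H37.MillerBase

/-! Power automorphisms and orbit counting. -/

namespace Cfsg.Agent.H37

open MulAction

variable {G α : Type*} [Group G] [MulAction G α] [Finite α] {P : Subgroup G} {Δ : Set α} {p : ℕ} [hp : Fact p.Prime]

/-- An element fixing a point fixes its orbit. -/
theorem fix_orbit (D : OrbitData P Δ p) {a : α} (ha : a ∉ Δ) {w : G} (hw : w ∈ P) (hwa : w • a = a) :
    ∀ b ∈ MulAction.orbit P a, w • b = b := by
  intro b hb
  by_contra hne
  obtain ⟨q, hq, hqa⟩ := exists_moving D ha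
  obtain ⟨i, hi⟩ := (orbit_cyclic D ha).2 w hw ⟨b, hb, hne⟩ q hq
  apply hqa
  rw [hi a (MulAction.mem_orbit_self a)]
  clear hi
  induction i with
  | zero => simp
  | succ i ih => rw [pow_succ, mul_smul, hwa, ih]

omit [Finite α] hp in
theorem pow_agree {a : α} {u v : G} (hu : u ∈ P) (h : ∀ c ∈ MulAction.orbit P a, u • c = v • c) (j : ℕ) :
    ∀ c ∈ MulAction.orbit P a, u ^ j • c = v ^ j • c := by
  induction j with
  | zero => intro c _; simp
  | succ j ih =>
    intro c hc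
    have huc : u • c ∈ MulAction.orbit P a := by
      rw [← MulAction.orbit_eq_iff.2 hc]
      exact MulAction.mem_orbit c (⟨u, hu⟩ : P)
    rw [pow_succ, pow_succ, mul_smul, mul_smul, ← h c hc, ih _ huc]

/-- If no non-trivial element of `P` fixes two orbits pointwise, nor moves a single orbit, an orbit-preserving
element of the normaliser acts on `P` as a power map. -/
theorem exists_scalar [FaithfulSMul G α] (D : OrbitData P Δ p)
    (hone : ∀ z ∈ P, ∀ a : α, (∀ b ∉ Δ, b ∉ MulAction.orbit P a → z • b = b) → z = 1)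
    (htwo : ∀ z ∈ P, ∀ a b : α, a ∉ Δ → b ∉ Δ → b ∉ MulAction.orbit P a → z • a = a → z • b = b → z = 1)
    (hne : ∃ a, a ∉ Δ) {h : G} (hh : Keeps P Δ h) : ∃ m : ℕ, ∀ z ∈ P, h * z * h⁻¹ = z ^ m := by
  have hcm : ∀ z ∈ P, ∀ m : ℕ, (z ^ m)⁻¹ * (h * z * h⁻¹) ∈ P := fun z hz m =>
    mul_mem (inv_mem (pow_mem hz m)) (conj_mem_of_normalizer hh.1 hz)
  by_cases hfree : ∀ z ∈ P, ∀ a ∉ Δ, z • a = a → z = 1
  · obtain ⟨a, ha⟩ := hne
    obtain ⟨m, hm⟩ := exists_multiplier D hh ha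
    refine ⟨m, fun z hz => (inv_mul_eq_one.1 (hfree _ (hcm z hz m) a ha ?_)).symm⟩
    rw [mul_smul, hm z hz a (MulAction.mem_orbit_self a), inv_smul_smul]
  push Not at hfree
  obtain ⟨w, hw, a₁, ha₁, hwa₁, hw1⟩ := hfree
  have hwmove : ∀ b ∉ Δ, b ∉ MulAction.orbit P a₁ → w • b ≠ b := fun b hb hb' e => hw1 (htwo w hw a₁ b ha₁ hb hb' hwa₁ e)
  obtain ⟨a₂, ha₂, ha₁₂⟩ : ∃ b, b ∉ Δ ∧ b ∉ MulAction.orbit P a₁ := by
    by_contra hc
    push Not at hc
    refine hw1 (eq_of_agree D hw (one_mem P) fun b hb => ?_)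
    rw [one_smul]
    exact fix_orbit D ha₁ hw hwa₁ b (hc b hb)
  obtain ⟨m, hm⟩ := exists_multiplier D hh ha₂
  refine ⟨m, fun z hz => (inv_mul_eq_one.1 ?_).symm⟩
  have hw' : h * w * h⁻¹ = w ^ m := by
    refine (inv_mul_eq_one.1 (htwo _ (hcm w hw m) a₁ a₂ ha₁ ha₂ ha₁₂ ?_ ?_)).symm
    · obtain ⟨m₁, hm₁⟩ := exists_multiplier D hh ha₁
      have e1 : ∀ j : ℕ, w ^ j • a₁ = a₁ := by
        intro j
        induction j with
        | zero => simp
        | succ j ih => rw [pow_succ, mul_smul, hwa₁, ih]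
      rw [mul_smul, hm₁ w hw a₁ (MulAction.mem_orbit_self a₁), e1, inv_smul_eq_iff, e1]
    · rw [mul_smul, hm w hw a₂ (MulAction.mem_orbit_self a₂), inv_smul_smul]
  refine hone _ (hcm z hz m) a₁ fun b hb hb' => ?_
  obtain ⟨i, hi⟩ := (orbit_cyclic D hb).2 w hw ⟨b, MulAction.mem_orbit_self b, hwmove b hb hb'⟩ z hz
  obtain ⟨mb, hmb⟩ := exists_multiplier D hh hb
  have self := MulAction.mem_orbit_self (M := P) b
  have e2 : (h * z * h⁻¹) • b = z ^ m • b := by
    rw [hmb z hz b self, pow_agree hz hi mb b self, pow_agree hz hi m b self, ← pow_mul, ← pow_mul, mul_comm i mb,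
      mul_comm i m, pow_mul, pow_mul]
    refine pow_agree (pow_mem hw mb) (fun c hc => ?_) i b self
    rw [← hmb w hw c hc, hw']
  rw [mul_smul, e2, inv_smul_smul]

/-- The orbits outside `Δ`. -/
theorem card_orbits (D : OrbitData P Δ p) {k : ℕ} (hk : (Δᶜ : Set α).ncard = k * p) :
    ((fun a => MulAction.orbit P a) '' (Δᶜ : Set α)).ncard = k := by
  classical
  have : Fintype α := Fintype.ofFinite α
  have hmul : (Δᶜ : Set α).toFinset.card = p * ((Δᶜ : Set α).toFinset.image fun a => MulAction.orbit P a).card := by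
    rw [Finset.card_eq_sum_card_image (fun a => MulAction.orbit P a), Finset.sum_const_nat (m := p), mul_comm]
    intro S hS
    obtain ⟨a, ha, rfl⟩ := Finset.mem_image.1 hS
    have ha' : a ∉ Δ := Set.mem_toFinset.1 ha
    rw [← D.orbit_card a ha', ← Set.ncard_coe_finset]
    congr 1
    ext b
    simp only [Finset.coe_filter, Set.mem_toFinset, Set.mem_compl_iff, Set.mem_setOf_eq]
    exact ⟨fun hb => hb.2 ▸ MulAction.mem_orbit_self b, fun hb => ⟨orbit_out D ha' hb, MulAction.orbit_eq_iff.2 hb⟩⟩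
  rw [← Set.ncard_eq_toFinset_card', hk, mul_comm k p] at hmul
  rw [← Set.coe_toFinset (Δᶜ : Set α), ← Finset.coe_image, Set.ncard_coe_finset]
  exact (Nat.eq_of_mul_eq_mul_left hp.out.pos hmul).symm

end Cfsg.Agent.H37
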