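import Mathlib

/-! Small arithmetic obstructions for permutation groups. -/

namespace Cfsg.Agent.H37

open MulAction

variable {α : Type*} [Fintype α] [DecidableEq α]

/-- Sylow congruence for a permutation group of prime degree. -/
theorem prime_degree_congr {p c : ℕ} (hp : p.Prime) (hα : Fintype.card α = p) (G : Subgroup (Equiv.Perm α))
    (hG : Nat.card G = p * c) (hc : ¬ p ∣ c) : ∃ d, d ∣ p - 1 ∧ d ∣ c ∧ c ≡ d [MOD p] := by
  classical
  haveI : Fact p.Prime := ⟨hp⟩
  obtain ⟨σ, hσ⟩ := exists_prime_orderOf_dvd_card' (G := G) p (by rw [hG]; exact dvd_mul_right _ _)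
  have hσ' : orderOf (σ : Equiv.Perm α) = p := by rw [Subgroup.orderOf_coe, hσ]
  have hcyc : (σ : Equiv.Perm α).IsCycle :=
    Equiv.Perm.isCycle_of_prime_order'' (by rw [hα]; exact hp) (by rw [hσ', hα])
  have hsupp : (σ : Equiv.Perm α).support = Finset.univ := by
    apply Finset.eq_univ_of_card
    rw [← hcyc.orderOf, hσ', hα]
  set P := Subgroup.zpowers σ with hPdef
  have hP : Nat.card P = p := by rw [Nat.card_zpowers, hσ]
  have hc0 : c ≠ 0 := fun e => hc (e ▸ dvd_zero p)
  have hPs : Nat.card P = p ^ (Nat.card G).factorization p := by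
    rw [hP, hG, Nat.factorization_mul hp.ne_zero hc0, Finsupp.add_apply, hp.factorization_self,
      Nat.factorization_eq_zero_of_not_dvd hc, add_zero, pow_one]
  let Q : Sylow p G := Sylow.ofCard P hPs
  have hmod := card_sylow_modEq_one p G
  rw [Q.card_eq_index_normalizer] at hmod
  rw [show Subgroup.normalizer ((Q : Sylow p G) : Set G) = Subgroup.normalizer (P : Set G) from
    congrArg (fun X : Subgroup G => Subgroup.normalizer (X : Set G)) (rfl : (Q : Subgroup G) = P)] at hmod
  have hcent : Nat.card (Subgroup.centralizer (P : Set G)) = p := by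
    apply le_antisymm
    · obtain ⟨a⟩ : Nonempty α := Fintype.card_pos_iff.1 (by rw [hα]; exact hp.pos)
      refine le_of_le_of_eq (Nat.card_le_card_of_injective (fun x => ((x : G) : Equiv.Perm α) a) ?_)
        (Nat.card_eq_fintype_card.trans hα)
      intro x y hxy
      simp only at hxy
      apply Subtype.ext
      apply Subtype.ext
      ext z
      have hcomm : ∀ e : Subgroup.centralizer (P : Set G), Commute (σ : Equiv.Perm α) ((e : G) : Equiv.Perm α) := fun e =>
        congrArg Subtype.val (e.2 σ (Subgroup.mem_zpowers σ))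
      obtain ⟨i, rfl⟩ : (σ : Equiv.Perm α).SameCycle a z :=
        hcyc.sameCycle (Equiv.Perm.mem_support.1 (by simp [hsupp])) (Equiv.Perm.mem_support.1 (by simp [hsupp]))
      have h1 := Equiv.ext_iff.1 ((hcomm x).zpow_left i).eq a
      have h2 := Equiv.ext_iff.1 ((hcomm y).zpow_left i).eq a
      simp only [Equiv.Perm.coe_mul, Function.comp_apply] at h1 h2
      rw [← h1, ← h2, hxy]
    · rw [← hP]
      exact Subgroup.card_le_of_le (Subgroup.le_centralizer P)
  have hN : Nat.card (Subgroup.normalizer (P : Set G)) = p * Nat.card P.normalizerMonoidHom.range := by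
    have h := Subgroup.index_ker P.normalizerMonoidHom
    have h2 := Subgroup.card_mul_index P.normalizerMonoidHom.ker
    rw [← h2, h]
    congr 1
    rw [Subgroup.normalizerMonoidHom_ker, ← hcent]
    exact Nat.card_congr (Subgroup.subgroupOfEquivOfLe (Subgroup.centralizer_le_normalizer _)).toEquiv
  have hidx := Subgroup.card_mul_index (Subgroup.normalizer (P : Set G))
  rw [hN, hG, mul_assoc] at hidx
  have hidx' := Nat.eq_of_mul_eq_mul_left hp.pos hidx
  refine ⟨Nat.card P.normalizerMonoidHom.range, ?_, Dvd.intro _ hidx', ?_⟩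
  · have h3 := Subgroup.card_subgroup_dvd_card P.normalizerMonoidHom.range
    rwa [IsCyclic.card_mulAut, hP, Nat.totient_prime hp] at h3
  · conv_lhs => rw [← hidx']
    simpa using hmod.mul_left (Nat.card P.normalizerMonoidHom.range)

/-- The kernel of the sign on a permutation group with an odd element has index two. -/
theorem index_evenPart (G : Subgroup (Equiv.Perm α)) {g : G} (hg : Equiv.Perm.sign (g : Equiv.Perm α) = -1) :
    ((Equiv.Perm.sign : Equiv.Perm α →* ℤˣ).comp G.subtype).ker.index = 2 := by
  rw [Subgroup.index_ker, MonoidHom.range_eq_top.2, Subgroup.card_top, Nat.card_eq_fintype_card, Fintype.card_units_int]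
  intro u
  rcases Int.units_eq_one_or u with rfl | rfl
  · exact ⟨1, map_one _⟩
  · exact ⟨g, hg⟩

/-- An involution fixing `f` points has sign `(-1) ^ ((n - f) / 2)`. -/
theorem sign_involution {g : Equiv.Perm α} (hg : g * g = 1) :
    Equiv.Perm.sign g = (-1) ^ ((Fintype.card α - {x | g x = x}.ncard) / 2) := by
  classical
  have hct : ∀ m ∈ g.cycleType, m = 2 := by
    intro m hm
    have h1 := Equiv.Perm.dvd_of_mem_cycleType hm
    have h3 : orderOf g ∣ 2 := orderOf_dvd_of_pow_eq_one (by rw [pow_two, hg])
    have h4 := Equiv.Perm.two_le_of_mem_cycleType hm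
    have := Nat.le_of_dvd (by norm_num) (h1.trans h3)
    omega
  have hrep := Multiset.eq_replicate_card.2 hct
  have hsum := g.sum_cycleType
  rw [hrep, Multiset.sum_replicate, smul_eq_mul] at hsum
  have hsupp : g.support.card = Fintype.card α - {x | g x = x}.ncard := by
    have e : ({x | g x = x} : Set α) = ((g.supportᶜ : Finset α) : Set α) := by ext p; simp
    rw [e, Set.ncard_coe_finset, Finset.card_compl]
    have := g.support.card_le_univ
    omega
  rw [Equiv.Perm.sign_of_cycleType, hrep, Multiset.sum_replicate, Multiset.card_replicate, smul_eq_mul, ← hsupp, ← hsum,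
    Nat.mul_div_cancel _ (by norm_num)]
  rw [pow_add, pow_mul']
  simp

/-- There is no two-transitive group of order 30 on six points. -/
theorem no_two_transitive_six_thirty (hα : Fintype.card α = 6) (H : Subgroup (Equiv.Perm α))
    (h2 : MulAction.IsMultiplyPretransitive H α 2) : Nat.card H ≠ 30 := by
  classical
  intro hH
  have hprim : MulAction.IsPreprimitive H α := MulAction.isPreprimitive_of_is_two_pretransitive h2
  obtain ⟨z, hz⟩ := exists_prime_orderOf_dvd_card' (G := H) 2 (by rw [hH]; norm_num)
  have hz2 : (z : Equiv.Perm α) * z = 1 := by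
    rw [← Subgroup.coe_mul, ← pow_two, ← hz, pow_orderOf_eq_one, Subgroup.coe_one]
  have hfix : ∀ a, (z : Equiv.Perm α) a ≠ a := by
    intro a ha
    have h := Subgroup.orderOf_dvd_natCard (MulAction.stabilizer H a) (x := z) ha
    have h5 : Nat.card (MulAction.stabilizer H a) = 5 := by
      have := Subgroup.card_mul_index (MulAction.stabilizer H a)
      rw [MulAction.index_stabilizer_of_transitive H a, Nat.card_eq_fintype_card (α := α), hα, hH] at this
      omega
    rw [hz, h5] at h
    norm_num at h
  have hodd : Equiv.Perm.sign (z : Equiv.Perm α) = -1 := by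
    rw [sign_involution hz2, show ({x | (z : Equiv.Perm α) x = x} : Set α) = ∅ from Set.eq_empty_iff_forall_notMem.2 hfix,
      Set.ncard_empty, hα]
    decide
  set K := ((Equiv.Perm.sign : Equiv.Perm α →* ℤˣ).comp H.subtype).ker
  have hidx : K.index = 2 := index_evenPart H hodd
  have hK : Nat.card K = 15 := by
    have := K.card_mul_index
    rw [hidx, hH] at this
    omega
  haveI : MulAction.IsPretransitive K α := by
    apply MulAction.IsQuasiPreprimitive.isPretransitive_of_normal (G := H)
    intro hall
    have hbot : K = ⊥ := by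
      rw [eq_bot_iff]
      intro k hk
      rw [Subgroup.mem_bot]
      apply Subtype.ext
      ext x
      exact (Set.eq_univ_iff_forall.1 hall x) ⟨k, hk⟩
    rw [hbot, Subgroup.card_bot] at hK
    omega
  obtain ⟨a⟩ : Nonempty α := Fintype.card_pos_iff.1 (by omega)
  have h := Subgroup.card_mul_index (MulAction.stabilizer K a)
  rw [MulAction.index_stabilizer_of_transitive K a, Nat.card_eq_fintype_card (α := α), hα, hK] at h
  omega

/-- There is no two-transitive group of order 112 on eight points in which only the identity fixes three points. -/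
theorem no_two_transitive_eight (hα : Fintype.card α = 8) (H : Subgroup (Equiv.Perm α))
    (h2 : MulAction.IsMultiplyPretransitive H α 2) (hfree : ∀ g ∈ H, 2 < {x | g x = x}.ncard → g = 1) :
    Nat.card H ≠ 112 := by
  classical
  intro hH
  have hprim : MulAction.IsPreprimitive H α := MulAction.isPreprimitive_of_is_two_pretransitive h2
  obtain ⟨b, c, hbc⟩ := Fintype.exists_pair_of_one_lt_card (show 1 < Fintype.card α by omega)
  have hbcard : Nat.card (MulAction.stabilizer H b) = 14 := by
    have := Subgroup.card_mul_index (MulAction.stabilizer H b)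
    rw [MulAction.index_stabilizer_of_transitive H b, Nat.card_eq_fintype_card (α := α), hα, hH] at this
    omega
  obtain ⟨z', hz'⟩ := exists_prime_orderOf_dvd_card' (G := MulAction.stabilizer H b) 2 (by rw [hbcard]; norm_num)
  obtain ⟨z, hzd⟩ : ∃ z : H, z = z' := ⟨_, rfl⟩
  have hz2 : (z : Equiv.Perm α) * z = 1 := by
    rw [hzd, ← Subgroup.coe_mul, ← Subgroup.coe_mul, ← pow_two, ← hz', pow_orderOf_eq_one, Subgroup.coe_one, Subgroup.coe_one]
  have hz1 : (z : Equiv.Perm α) ≠ 1 := fun e => by
    rw [← Subgroup.orderOf_coe, ← hzd, ← Subgroup.orderOf_coe, e, orderOf_one] at hz'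
    omega
  have hf : {x | (z : Equiv.Perm α) x = x}.ncard = 2 := by
    have hle : {x | (z : Equiv.Perm α) x = x}.ncard ≤ 2 := by
      by_contra h
      exact hz1 (hfree _ z.2 (by omega))
    have hpos : 0 < {x | (z : Equiv.Perm α) x = x}.ncard :=
      (Set.ncard_pos (Set.toFinite _)).2 ⟨b, by rw [hzd]; exact z'.2⟩
    have hsum : {x | (z : Equiv.Perm α) x = x}.ncard % 2 = 0 := by
      have hsupp : (z : Equiv.Perm α).support.card + {x | (z : Equiv.Perm α) x = x}.ncard = 8 := by
        have e : ({x | (z : Equiv.Perm α) x = x} : Set α) = (((z : Equiv.Perm α).supportᶜ : Finset α) : Set α) := by ext p; simp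
        rw [e, Set.ncard_coe_finset, Finset.card_compl, hα]
        have := (z : Equiv.Perm α).support.card_le_univ
        omega
      have hct : ∀ m ∈ (z : Equiv.Perm α).cycleType, m = 2 := by
        intro m hm
        have h1 := Equiv.Perm.dvd_of_mem_cycleType hm
        have h3 : orderOf (z : Equiv.Perm α) ∣ 2 := orderOf_dvd_of_pow_eq_one (by rw [pow_two, hz2])
        have h4 := Equiv.Perm.two_le_of_mem_cycleType hm
        have := Nat.le_of_dvd (by norm_num) (h1.trans h3)
        omega
      rw [← (z : Equiv.Perm α).sum_cycleType, Multiset.eq_replicate_card.2 hct, Multiset.sum_replicate, smul_eq_mul] at hsupp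
      omega
    omega
  have hodd : Equiv.Perm.sign (z : Equiv.Perm α) = -1 := by
    rw [sign_involution hz2, hf, hα]
    decide
  set K := ((Equiv.Perm.sign : Equiv.Perm α →* ℤˣ).comp H.subtype).ker with hKdef
  have hKmem : ∀ g : H, g ∈ K ↔ Equiv.Perm.sign (g : Equiv.Perm α) = 1 := fun g => Iff.rfl
  have hK : Nat.card K = 56 := by
    have := K.card_mul_index
    rw [index_evenPart H hodd, hH] at this
    omega
  haveI : MulAction.IsPretransitive K α := by
    apply MulAction.IsQuasiPreprimitive.isPretransitive_of_normal (G := H)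
    intro hall
    have hbot : K = ⊥ := by
      rw [eq_bot_iff]
      intro k hk
      rw [Subgroup.mem_bot]
      apply Subtype.ext
      ext x
      exact (Set.eq_univ_iff_forall.1 hall x) ⟨k, hk⟩
    rw [hbot, Subgroup.card_bot] at hK
    omega
  have hKstab : ∀ a : α, Nat.card (MulAction.stabilizer K a) = 7 := by
    intro a
    have h := Subgroup.card_mul_index (MulAction.stabilizer K a)
    rw [MulAction.index_stabilizer_of_transitive K a, Nat.card_eq_fintype_card (α := α), hα, hK] at h
    omega
  haveI : Fact (Nat.Prime 2) := ⟨Nat.prime_two⟩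
  haveI : Fact (Nat.Prime 7) := ⟨by norm_num⟩
  obtain ⟨W, hW⟩ := Sylow.exists_subgroup_card_pow_prime (G := K) 2 (n := 3) (by rw [hK]; norm_num)
  have hfpf : ∀ w : K, ∀ a : α, w • a = a → w ≠ 1 → orderOf w = 7 := by
    intro w a hwa hw
    have h : orderOf w ∣ 7 := hKstab a ▸ Subgroup.orderOf_dvd_natCard (MulAction.stabilizer K a) hwa
    exact ((Nat.dvd_prime (by norm_num)).1 h).resolve_left fun e => hw (orderOf_eq_one_iff.1 e)
  let F : Set K := {w | w = 1 ∨ ∀ a : α, w • a ≠ a}
  have hWF : (W : Set K) ⊆ F := by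
    intro w hw
    by_cases h1 : w = 1
    · exact Or.inl h1
    refine Or.inr fun a ha => ?_
    have h7 := hfpf w a ha h1
    have h8 : orderOf w ∣ 2 ^ 3 := hW ▸ Subgroup.orderOf_dvd_natCard W hw
    rw [h7] at h8
    norm_num at h8
  have hFW : F = W := by
    refine (Set.eq_of_subset_of_ncard_le hWF ?_ (Set.toFinite _)).symm
    rw [← Nat.card_coe_set_eq (W : Set K), SetLike.coe_sort_coe, hW]
    let S : α → Finset K := fun a => Finset.univ.filter fun w => w • a = a ∧ w ≠ 1
    have hS : ∀ a, (S a).card = 6 := by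
      intro a
      have h7 := hKstab a
      rw [Nat.card_eq_fintype_card, Fintype.card_subtype] at h7
      have : S a = (Finset.univ.filter fun w : K => w ∈ MulAction.stabilizer K a).erase 1 := by
        ext w; simp [S, and_comm]
      rw [this, Finset.card_erase_of_mem (by simp), h7]
    have hdis : ((Finset.univ : Finset α) : Set α).PairwiseDisjoint S := by
      intro a _ a' _ haa'
      rw [Function.onFun, Finset.disjoint_left]
      intro w hw hw'
      simp only [S, Finset.mem_filter, Finset.mem_univ, true_and] at hw hw'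
      have h1 : ((w : H) : Equiv.Perm α) = 1 := by
        by_contra hne
        have hsub : ({a, a'} : Set α) ⊆ {x | ((w : H) : Equiv.Perm α) x = x} := by
          rintro x (rfl | rfl)
          · exact hw.1
          · exact hw'.1
        have hle : {x | ((w : H) : Equiv.Perm α) x = x}.ncard ≤ 2 := by
          by_contra h
          exact hne (hfree _ (w : H).2 (by omega))
        have heq := Set.eq_of_subset_of_ncard_le hsub (by rw [Set.ncard_pair haa']; exact hle) (Set.toFinite _)
        have h7 := hfpf w a hw.1 hw.2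
        have ho : orderOf ((w : H) : Equiv.Perm α) = 7 := by rw [Subgroup.orderOf_coe, Subgroup.orderOf_coe, h7]
        have hsupp : ((w : H) : Equiv.Perm α).support.card = 6 := by
          have e : (((((w : H) : Equiv.Perm α).support)ᶜ : Finset α) : Set α) = {a, a'} := by rw [heq]; ext p; simp
          have e2 := congrArg Set.ncard e
          rw [Set.ncard_coe_finset, Finset.card_compl, hα, Set.ncard_pair haa'] at e2
          omega
        have hdv : ∀ m ∈ ((w : H) : Equiv.Perm α).cycleType, m = 7 := fun m hm => by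
          have h1 := Equiv.Perm.dvd_of_mem_cycleType hm
          rw [ho] at h1
          have := Equiv.Perm.two_le_of_mem_cycleType hm
          exact ((Nat.dvd_prime (by norm_num)).1 h1).resolve_left (by omega)
        rw [← Equiv.Perm.sum_cycleType, Multiset.eq_replicate_card.2 hdv, Multiset.sum_replicate, smul_eq_mul] at hsupp
        omega
      exact hw.2 (Subtype.ext (Subtype.ext h1))
    have hsub : F.toFinset ⊆ Finset.univ \ (Finset.univ : Finset α).biUnion S := by
      intro w hw
      rw [Set.mem_toFinset] at hw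
      simp only [Finset.mem_sdiff, Finset.mem_univ, true_and, Finset.mem_biUnion, not_exists, S, Finset.mem_filter, not_and]
      intro a hwa h1
      exact (hw.resolve_left h1) a hwa
    have h := Finset.card_le_card hsub
    rw [← Set.ncard_eq_toFinset_card', Finset.card_sdiff_of_subset (Finset.subset_univ _), Finset.card_biUnion hdis,
      Finset.sum_const_nat (fun a _ => hS a), Finset.card_univ, Finset.card_univ, ← Nat.card_eq_fintype_card, hK, hα] at h
    omega
  have hreg : ∀ a y : α, ∃ w ∈ W, w • a = y := by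
    intro a y
    have hinj : Function.Injective fun w : W => (w : K) • a := by
      intro u v e
      have h : ((v⁻¹ * u : W) : K) • a = a := by
        simp only [Subgroup.coe_mul, Subgroup.coe_inv, mul_smul, inv_smul_eq_iff]
        exact e
      have hF : ((v⁻¹ * u : W) : K) ∈ F := hWF (v⁻¹ * u).2
      rcases hF with hF | hF
      · exact (inv_mul_eq_one.1 (Subtype.ext hF)).symm
      · exact absurd h (hF a)
    have hbij := (Fintype.bijective_iff_injective_and_card _).2 ⟨hinj, by
      rw [← Nat.card_eq_fintype_card, hW, hα]; norm_num⟩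
    obtain ⟨w, hw⟩ := hbij.2 y
    exact ⟨w, w.2, hw⟩
  have hnormal : ∀ (h : H) (w : K), w ∈ W → ∀ (hm : h * w * h⁻¹ ∈ K), (⟨h * w * h⁻¹, hm⟩ : K) ∈ W := by
    intro h w hw hm
    rw [← SetLike.mem_coe, ← hFW]
    rcases (hFW.symm ▸ hw : w ∈ F) with h1 | h1
    · left
      subst h1
      exact Subtype.ext (by simp)
    · right
      intro a ha
      refine h1 ((h : H)⁻¹ • a) ?_
      have ha' : (h * (w : H) * h⁻¹) • a = a := ha
      rw [mul_smul, mul_smul, ← eq_inv_smul_iff] at ha'
      exact ha'
  have hWsq : ∀ w ∈ W, w * w = 1 := by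
    obtain ⟨t, ht⟩ := exists_prime_orderOf_dvd_card' (G := W) 2 (by rw [hW]; norm_num)
    have ht2 : (t : K) * t = 1 := by
      rw [← Subgroup.coe_mul, ← pow_two, ← ht, pow_orderOf_eq_one, Subgroup.coe_one]
    have ht1 : (t : K) ≠ 1 := fun e => by
      rw [← Subgroup.orderOf_coe, e, orderOf_one] at ht
      omega
    have htb : (t : K) • b ≠ b := ((hWF t.2).resolve_left ht1) b
    intro w hw
    by_cases hw1 : w = 1
    · rw [hw1, mul_one]
    have hwb : w • b ≠ b := ((hWF hw).resolve_left hw1) b
    obtain ⟨g, hgb, hgy⟩ : ∃ g : H, g • b = b ∧ g • ((t : K) • b) = w • b :=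
      MulAction.is_two_pretransitive_iff.1 h2 htb.symm hwb.symm
    have hm : g * (t : K) * g⁻¹ ∈ K := by
      have := MonoidHom.normal_ker ((Equiv.Perm.sign : Equiv.Perm α →* ℤˣ).comp H.subtype)
      exact this.conj_mem _ (t : K).2 g
    have ht' := hnormal g t t.2 hm
    have hww : (⟨g * (t : K) * g⁻¹, hm⟩ : K) = w := by
      have e : (⟨g * (t : K) * g⁻¹, hm⟩ : K) • b = w • b := by
        show (g * ((t : K) : H) * g⁻¹) • b = w • b
        rw [mul_smul, mul_smul, inv_smul_eq_iff.2 hgb.symm]
        exact hgy
      rcases hWF (mul_mem (inv_mem hw) ht') with h | h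
      · exact (inv_mul_eq_one.1 h).symm
      · exact absurd (by rw [mul_smul, e, inv_smul_smul]) (h b)
    rw [← hww]
    apply Subtype.ext
    show (g * ((t : K) : H) * g⁻¹) * (g * ((t : K) : H) * g⁻¹) = 1
    rw [show g * ((t : K) : H) * g⁻¹ * (g * ((t : K) : H) * g⁻¹) = g * (((t : K) : H) * ((t : K) : H)) * g⁻¹ by group,
      show ((t : K) : H) * ((t : K) : H) = 1 from congrArg Subtype.val ht2, mul_one, mul_inv_cancel]
  have hWcomm : ∀ u ∈ W, ∀ v ∈ W, u * v = v * u := fun u hu v hv => by
    have e1 : u⁻¹ = u := inv_eq_of_mul_eq_one_right (hWsq u hu)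
    have e2 : v⁻¹ = v := inv_eq_of_mul_eq_one_right (hWsq v hv)
    have e3 : (u * v)⁻¹ = u * v := inv_eq_of_mul_eq_one_right (hWsq _ (mul_mem hu hv))
    rw [mul_inv_rev, e1, e2] at e3
    exact e3.symm
  have hzinv : z⁻¹ = z := inv_eq_of_mul_eq_one_right (Subtype.ext hz2)
  have hzK : ∀ w : K, z * w * z ∈ K := fun w => by
    have h := (MonoidHom.normal_ker ((Equiv.Perm.sign : Equiv.Perm α →* ℤˣ).comp H.subtype)).conj_mem _ w.2 z
    rwa [hzinv] at h
  have hcz : ∀ w ∈ W, (⟨z * (w : K) * z, hzK w⟩ : K) ∈ W := fun w hw => by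
    have h := hnormal z w hw (by rw [hzinv]; exact hzK w)
    simpa [hzinv] using h
  let Cz : Finset K := Finset.univ.filter fun w => w ∈ W ∧ z * (w : H) * z = w
  have hCz : Cz.card ≤ 2 := by
    have hfixset : ∀ w ∈ Cz, (w : H) • b ∈ ({x | (z : Equiv.Perm α) x = x} : Set α) := by
      intro w hw
      simp only [Cz, Finset.mem_filter, Finset.mem_univ, true_and] at hw
      show z • (w : H) • b = (w : H) • b
      conv_rhs => rw [← hw.2]
      rw [mul_smul, mul_smul, show z • b = b by rw [hzd]; exact z'.2]
    refine le_of_le_of_eq ?_ hf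
    rw [← Set.ncard_coe_finset]
    refine Set.ncard_le_ncard_of_injOn (fun w : K => (w : H) • b) hfixset ?_ (Set.toFinite _)
    intro u hu v hv e
    simp only [Cz, Finset.coe_filter, Finset.mem_univ, true_and] at hu hv
    rcases hWF (mul_mem (inv_mem hv.1) hu.1) with h | h
    · exact (inv_mul_eq_one.1 h).symm
    · refine absurd ?_ (h b)
      rw [mul_smul, inv_smul_eq_iff]
      exact e
  let φ : K → K := fun w => if hw : w ∈ W then w * ⟨z * (w : H) * z, hzK w⟩ else 1
  let Wf : Finset K := Finset.univ.filter fun w => w ∈ W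
  have hWf : Wf.card = 8 := by
    rw [show Wf.card = Nat.card W by rw [Nat.card_eq_fintype_card, Fintype.card_subtype], hW]
    norm_num
  have hφ : ∀ w ∈ Wf, φ w ∈ Cz := by
    intro w hw
    simp only [Wf, Finset.mem_filter, Finset.mem_univ, true_and] at hw
    simp only [φ, dif_pos hw, Cz, Finset.mem_filter, Finset.mem_univ, true_and]
    refine ⟨mul_mem hw (hcz w hw), ?_⟩
    have hc := congrArg Subtype.val (hWcomm w hw _ (hcz w hw))
    simp only [Subgroup.coe_mul] at hc ⊢
    rw [hc]
    have hzz : z * z = 1 := Subtype.ext hz2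
    calc z * (z * (w : H) * z * w) * z = (z * z) * w * z * w * z := by simp [mul_assoc]
      _ = w * (z * w * z) := by rw [hzz]; simp [mul_assoc]
      _ = z * w * z * w := hc
  have hfib : ∀ y ∈ Cz, (Wf.filter fun w => φ w = y).card ≤ Cz.card := by
    intro y _
    rcases (Wf.filter fun w => φ w = y).eq_empty_or_nonempty with h | ⟨w₀, hw₀⟩
    · rw [h]; simp
    obtain ⟨hw₀W, hw₀y⟩ := Finset.mem_filter.1 hw₀
    refine Finset.card_le_card_of_injOn (fun w => w₀ * w) ?_ (fun u _ v _ e => mul_left_cancel e)
    intro w hw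
    obtain ⟨hwW, hwy⟩ := Finset.mem_filter.1 hw
    simp only [Wf, Finset.mem_filter, Finset.mem_univ, true_and] at hwW hw₀W
    simp only [Cz, Finset.coe_filter, Finset.mem_univ, true_and]
    refine ⟨mul_mem hw₀W hwW, ?_⟩
    have e := congrArg Subtype.val (hw₀y.trans hwy.symm)
    simp only [φ, dif_pos hw₀W, dif_pos hwW, Subgroup.coe_mul] at e
    have hzz : z * z = 1 := Subtype.ext hz2
    have i1 : (w₀ : H) * w₀ = 1 := congrArg Subtype.val (hWsq w₀ hw₀W)
    have i2 : (w : H) * w = 1 := congrArg Subtype.val (hWsq w hwW)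
    have c2 := congrArg Subtype.val (hWcomm w₀ hw₀W w hwW)
    simp only [Subgroup.coe_mul] at c2 ⊢
    calc z * ((w₀ : H) * w) * z = (z * w₀ * z) * (z * w * z) := by
          rw [show z * (w₀ : H) * z * (z * w * z) = z * w₀ * (z * z) * (w * z) by simp [mul_assoc], hzz]; simp [mul_assoc]
      _ = ((w₀ : H) * w₀) * (z * w₀ * z) * (z * w * z) := by rw [i1, one_mul]
      _ = w₀ * ((w₀ : H) * (z * w₀ * z)) * (z * w * z) := by simp [mul_assoc]
      _ = w₀ * ((w : H) * (z * w * z)) * (z * w * z) := by rw [e]
      _ = w₀ * w * ((z * w * z) * (z * w * z)) := by simp [mul_assoc]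
      _ = w₀ * w := by
        rw [show z * (w : H) * z * (z * w * z) = z * w * (z * z) * (w * z) by simp [mul_assoc], hzz,
          show z * (w : H) * 1 * (w * z) = z * ((w : H) * w) * z by simp [mul_assoc], i2, mul_one, hzz, mul_one]
  have := Finset.card_le_mul_card_image_of_maps_to hφ Cz.card hfib
  rw [hWf] at this
  nlinarith [Nat.mul_le_mul hCz hCz]

end Cfsg.Agent.H37
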