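import Cfsg.Agent.H37.FourTransitive
import Cfsg.Agent.H37.Reduction
import Cfsg.Agent.H37.PrimeDegree
import Cfsg.Agent.S0713

/-! Four-transitive groups with four-point stabilisers of odd order. -/

namespace Cfsg.Agent.H37

open MulAction

variable {α : Type*} [Fintype α] [DecidableEq α] {G : Subgroup (Equiv.Perm α)}

/-- A point in a regular orbit of the group generated by two commuting involutions. -/
def RegPt (s t : G) (y : α) : Prop := y ≠ s • y ∧ y ≠ t • y ∧ y ≠ s • t • y

theorem fixSet_conj (c g : G) : fixSet (c * g * c⁻¹) = (fun p => c • p) '' fixSet g := by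
  ext p
  constructor
  · intro hp
    refine ⟨c⁻¹ • p, ?_, smul_inv_smul c p⟩
    rw [mem_fixSet, eq_inv_smul_iff, ← mul_smul, ← mul_smul]
    exact hp
  · rintro ⟨q, hq, rfl⟩
    show (c * g * c⁻¹) • c • q = c • q
    rw [mul_smul, mul_smul, inv_smul_smul, mem_fixSet.1 hq]

/-- Regular pairs of commuting involutions are conjugate. -/
theorem conj_pairs (h4 : MulAction.IsMultiplyPretransitive G α 4)
    (hodd : ∀ x : Fin 4 ↪ α, Odd (Nat.card (MulAction.stabilizer G x))) {s t s' t' : G}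
    (hs : s * s = 1) (ht : t * t = 1) (hst : Commute s t) (hs' : s' * s' = 1) (ht' : t' * t' = 1)
    (hst' : Commute s' t') {y y' : α} (hy : RegPt s t y) (hy' : RegPt s' t' y') :
    ∃ c : G, c • y = y' ∧ c * s * c⁻¹ = s' ∧ c * t * c⁻¹ = t' := by
  have ss : ∀ p : α, s • s • p = p := fun p => by rw [← mul_smul, hs, one_smul]
  have tt : ∀ p : α, t • t • p = p := fun p => by rw [← mul_smul, ht, one_smul]
  have st : ∀ p : α, s • t • p = t • s • p := fun p => by rw [← mul_smul, hst.eq, mul_smul]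
  have ss' : ∀ p : α, s' • s' • p = p := fun p => by rw [← mul_smul, hs', one_smul]
  have tt' : ∀ p : α, t' • t' • p = p := fun p => by rw [← mul_smul, ht', one_smul]
  have st' : ∀ p : α, s' • t' • p = t' • s' • p := fun p => by rw [← mul_smul, hst'.eq, mul_smul]
  have six : ∀ (u v : G), (∀ p : α, u • u • p = p) → (∀ p : α, u • v • p = v • u • p) → ∀ (p : α),
      p ≠ u • p ∧ p ≠ v • p ∧ p ≠ u • v • p → u • p ≠ v • p ∧ u • p ≠ u • v • p ∧ v • p ≠ u • v • p := by
    intro u v huu huv p hp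
    refine ⟨fun h => hp.2.2 (by rw [← h, huu]), fun h => hp.2.1 (smul_left_cancel u h), fun h => hp.1 ?_⟩
    rw [huv] at h
    exact smul_left_cancel v h
  obtain ⟨a1, a2, a3⟩ := hy
  obtain ⟨b1, b2, b3⟩ := hy'
  obtain ⟨a4, a5, a6⟩ := six s t ss st y ⟨a1, a2, a3⟩
  obtain ⟨b4, b5, b6⟩ := six s' t' ss' st' y' ⟨b1, b2, b3⟩
  obtain ⟨c, c1, c2, c3, c4⟩ := exists_map4 h4 a1 a2 a3 a4 a5 a6 b1 b2 b3 b4 b5 b6
  let W : Fin 4 ↪ α := emb4 y' (s' • y') (t' • y') (s' • t' • y') b1 b2 b3 b4 b5 b6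
  have i1 : c⁻¹ • y' = y := inv_smul_eq_iff.2 c1.symm
  have i2 : c⁻¹ • (s' • y') = s • y := inv_smul_eq_iff.2 c2.symm
  have i3 : c⁻¹ • (t' • y') = t • y := inv_smul_eq_iff.2 c3.symm
  have i4 : c⁻¹ • (s' • t' • y') = s • t • y := inv_smul_eq_iff.2 c4.symm
  have sq : ∀ d v : G, v * v = 1 → (d * v * d⁻¹) * (d * v * d⁻¹) = 1 := fun d v hv => by
    rw [show d * v * d⁻¹ * (d * v * d⁻¹) = d * (v * v) * d⁻¹ by group, hv, mul_one, mul_inv_cancel]
  have m1 : (c * s * c⁻¹) * s' ∈ MulAction.stabilizer G W := mem_stab_emb.2 fun i => by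
    rw [mul_smul, mul_smul, mul_smul]
    fin_cases i
    · show c • s • c⁻¹ • s' • y' = y'
      rw [i2, ss, c1]
    · show c • s • c⁻¹ • s' • s' • y' = s' • y'
      rw [ss', i1, c2]
    · show c • s • c⁻¹ • s' • t' • y' = t' • y'
      rw [i4, ss, c3]
    · show c • s • c⁻¹ • s' • s' • t' • y' = s' • t' • y'
      rw [ss', i3, c4]
  obtain ⟨z, hz, hzc⟩ := exists_conj_of_mul_odd (sq c s hs) hs' ((hodd W).of_dvd_nat (Subgroup.orderOf_dvd_natCard _ m1))
  have hzW := mem_stab_emb.1 (inv_mem ((Subgroup.zpowers_le.2 m1) hz : z ∈ MulAction.stabilizer G W))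
  obtain ⟨d, hd⟩ : ∃ d : G, d = z⁻¹ * c := ⟨_, rfl⟩
  have hds : d * s * d⁻¹ = s' := by
    calc d * s * d⁻¹ = z⁻¹ * (c * s * c⁻¹) * z := by rw [hd]; group
      _ = z⁻¹ * (z * s' * z⁻¹) * z := by rw [hzc]
      _ = s' := by group
  have d1 : d • y = y' := by rw [hd, mul_smul, c1]; exact hzW 0
  have d2 : d • (s • y) = s' • y' := by rw [hd, mul_smul, c2]; exact hzW 1
  have d3 : d • (t • y) = t' • y' := by rw [hd, mul_smul, c3]; exact hzW 2
  have d4 : d • (s • t • y) = s' • t' • y' := by rw [hd, mul_smul, c4]; exact hzW 3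
  have j1 : d⁻¹ • y' = y := inv_smul_eq_iff.2 d1.symm
  have j2 : d⁻¹ • (s' • y') = s • y := inv_smul_eq_iff.2 d2.symm
  have j3 : d⁻¹ • (t' • y') = t • y := inv_smul_eq_iff.2 d3.symm
  have j4 : d⁻¹ • (s' • t' • y') = s • t • y := inv_smul_eq_iff.2 d4.symm
  have m2 : (d * t * d⁻¹) * t' ∈ MulAction.stabilizer G W := mem_stab_emb.2 fun i => by
    rw [mul_smul, mul_smul, mul_smul]
    fin_cases i
    · show d • t • d⁻¹ • t' • y' = y'
      rw [j3, tt, d1]
    · show d • t • d⁻¹ • t' • s' • y' = s' • y'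
      rw [← st' y', j4, ← st (t • y), tt, d2]
    · show d • t • d⁻¹ • t' • t' • y' = t' • y'
      rw [tt' y', j1, d3]
    · show d • t • d⁻¹ • t' • s' • t' • y' = s' • t' • y'
      rw [← st' (t' • y'), tt', j2, ← st, d4]
  obtain ⟨z', hz', hzc'⟩ := exists_conj_of_mul_odd (sq d t ht) ht' ((hodd W).of_dvd_nat (Subgroup.orderOf_dvd_natCard _ m2))
  have hz'W := mem_stab_emb.1 (inv_mem ((Subgroup.zpowers_le.2 m2) hz' : z' ∈ MulAction.stabilizer G W))
  have hsc : Commute s' ((d * t * d⁻¹) * t') := by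
    refine Commute.mul_right ?_ hst'
    rw [← hds]
    exact Commute.conj_iff d |>.2 hst
  have hz's : Commute s' z'⁻¹ := by
    obtain ⟨n, rfl⟩ := Subgroup.mem_zpowers_iff.1 hz'
    exact (hsc.zpow_right n).inv_right
  refine ⟨z'⁻¹ * d, by rw [mul_smul, d1]; exact hz'W 0, ?_, ?_⟩
  · calc z'⁻¹ * d * s * (z'⁻¹ * d)⁻¹ = z'⁻¹ * (d * s * d⁻¹) * z' := by group
      _ = z'⁻¹ * s' * z' := by rw [hds]
      _ = s' := by rw [← hz's.eq]; group
  · calc z'⁻¹ * d * t * (z'⁻¹ * d)⁻¹ = z'⁻¹ * (d * t * d⁻¹) * z' := by group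
      _ = z'⁻¹ * (z' * t' * z'⁻¹) * z' := by rw [hzc']
      _ = t' := by group

omit [DecidableEq α] in
/-- An odd power of a suitable element is an involution with the same action on a set. -/
theorem exists_odd_power (hodd : ∀ x : Fin 4 ↪ α, Odd (Nat.card (MulAction.stabilizer G x))) (x : Fin 4 ↪ α) {g : G}
    (hx : ∀ i, g • g • x i = x i) :
    ∃ m : ℕ, g ^ (2 * m + 1) * g ^ (2 * m + 1) = 1 ∧ ∀ p : α, g • g • p = p → g ^ (2 * m + 1) • p = g • p := by
  have hsq : g * g ∈ MulAction.stabilizer G x := mem_stab_emb.2 fun i => by rw [mul_smul]; exact hx i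
  obtain ⟨k, hk⟩ : Odd (orderOf (g * g)) := (hodd x).of_dvd_nat (Subgroup.orderOf_dvd_natCard _ hsq)
  refine ⟨k, by rw [← (Commute.refl g).mul_pow, ← hk, pow_orderOf_eq_one], fun p hp => ?_⟩
  rw [pow_succ', mul_smul, pow_mul, pow_two]
  congr 1
  clear hk
  induction k with
  | zero => rw [pow_zero, one_smul]
  | succ k ih => rw [pow_succ', mul_smul, ih, mul_smul, hp]

omit [DecidableEq α] in
/-- Commuting involutions with a prescribed action on an invariant set. -/
theorem exists_commuting_pair (hodd : ∀ x : Fin 4 ↪ α, Odd (Nat.card (MulAction.stabilizer G x))) (x : Fin 4 ↪ α)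
    (F : Set α) (hx : ∀ i, x i ∈ F) {s t₀ : G} (hs : s * s = 1) (ht₀ : t₀ * t₀ = 1)
    (hFs : ∀ p ∈ F, s • p ∈ F) (hFt : ∀ p ∈ F, t₀ • p ∈ F) (hcomm : ∀ p ∈ F, s • t₀ • p = t₀ • s • p) :
    ∃ t : G, t * t = 1 ∧ Commute s t ∧ ∀ p ∈ F, t • p = t₀ • p := by
  have ss : ∀ p : α, s • s • p = p := fun p => by rw [← mul_smul, hs, one_smul]
  have tt : ∀ p : α, t₀ • t₀ • p = p := fun p => by rw [← mul_smul, ht₀, one_smul]
  set s' := t₀ * s * t₀ with hs'
  have hs'2 : s' * s' = 1 := by
    rw [hs', show t₀ * s * t₀ * (t₀ * s * t₀) = t₀ * s * (t₀ * t₀) * s * t₀ by simp [mul_assoc], ht₀, mul_one,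
      mul_assoc t₀ s s, hs, mul_one, ht₀]
  have hfixF : ∀ p ∈ F, (s' * s) • p = p := fun p hp => by
    rw [hs', mul_smul, mul_smul, mul_smul, ← hcomm p hp, ss, tt]
  have hmem : s' * s ∈ MulAction.stabilizer G x := mem_stab_emb.2 fun i => hfixF _ (hx i)
  obtain ⟨z, hz, hzc⟩ := exists_conj_of_mul_odd hs'2 hs ((hodd x).of_dvd_nat (Subgroup.orderOf_dvd_natCard _ hmem))
  have hzF : ∀ p ∈ F, z⁻¹ • p = p := by
    intro p hp
    have hle : Subgroup.zpowers (s' * s) ≤ MulAction.stabilizer G p := Subgroup.zpowers_le.2 (hfixF p hp)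
    exact MulAction.mem_stabilizer_iff.1 (inv_mem (hle hz))
  set t1 := z⁻¹ * t₀ with ht1
  have ht1c : Commute s t1 := by
    have e : s = z⁻¹ * (t₀ * s * t₀) * z := by rw [← hs', ← hzc]; group
    show s * t1 = t1 * s
    calc s * t1 = z⁻¹ * (t₀ * s * t₀) * z * (z⁻¹ * t₀) := by rw [← e]
      _ = z⁻¹ * t₀ * s * (t₀ * t₀) := by group
      _ = t1 * s := by rw [ht₀, mul_one]
  have hact : ∀ p ∈ F, t1 • p = t₀ • p := fun p hp => by rw [ht1, mul_smul, hzF _ (hFt p hp)]
  have h2 : ∀ p ∈ F, t1 • t1 • p = p := fun p hp => by rw [hact p hp, hact _ (hFt p hp), tt]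
  obtain ⟨m, hm1, hm2⟩ := exists_odd_power hodd x (g := t1) fun i => h2 _ (hx i)
  exact ⟨_, hm1, ht1c.pow_right _, fun p hp => (hm2 p (h2 p hp)).trans (hact p hp)⟩

omit [DecidableEq α] in
/-- The order of a point stabiliser of four points divides `(n-4)!`. -/
theorem stab_card_dvd_factorial (h4 : MulAction.IsMultiplyPretransitive G α 4) (x : Fin 4 ↪ α) :
    Nat.card (MulAction.stabilizer G x) ∣ (Fintype.card α - 4).factorial := by
  classical
  obtain ⟨H, -, -, hc, hcard, -⟩ := exists_pointwise_restrict G (m := 4) (j := 0) h4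
    (by simpa using Fintype.card_le_of_embedding x) x
  have hpos : 0 < (Fintype.card α).descFactorial 4 := Nat.descFactorial_pos.2 (by simpa using Fintype.card_le_of_embedding x)
  have h := card_mul_descFactorial G h4 x
  rw [← hcard, mul_comm (Nat.card H)] at h
  rw [Nat.eq_of_mul_eq_mul_left hpos h, show Fintype.card α - 4 = Nat.card ↥((Set.range x)ᶜ : Set α) by omega,
    ← Nat.card_perm]
  exact Subgroup.card_subgroup_dvd_card H

/-- A short cycle of prime order in a four-transitive group gives the alternating group. -/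
theorem alt_le_of_prime_order (h4 : MulAction.IsMultiplyPretransitive G α 4) {p : ℕ} (hp : p.Prime)
    (hpn : p + 3 ≤ Fintype.card α) {g : Equiv.Perm α} (hg : g ∈ G) (hgp : orderOf g = p)
    (hsupp : g.support.card < 2 * p) : alternatingGroup α ≤ G := by
  have h2 : MulAction.IsMultiplyPretransitive G α 2 :=
    MulAction.isMultiplyPretransitive_of_le (n := 4) (by norm_num) (by
      rw [Nat.card_eq_fintype_card]; have := hp.two_le; omega)
  have hc : g.IsCycle := Equiv.Perm.isCycle_of_prime_order (by rw [hgp]; exact hp) (by rw [hgp]; exact hsupp)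
  exact Cfsg.Agent.S0713.result G (MulAction.isPreprimitive_of_is_two_pretransitive h2) hp
    (by have := hp.two_le; omega) hpn hc (by rw [← hc.orderOf, hgp]) hg

/-- The structural statement used in the induction. -/
def OddFourGood (α : Type*) [Fintype α] [DecidableEq α] (G : Subgroup (Equiv.Perm α)) (x : Fin 4 ↪ α) : Prop :=
  ((Fintype.card α = 4 ∨ Fintype.card α = 5) ∧ G = ⊤) ∨
    ((Fintype.card α = 6 ∨ Fintype.card α = 7) ∧ G = alternatingGroup α) ∨
      (Fintype.card α = 11 ∧ Nat.card (MulAction.stabilizer G x) = 1)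

theorem card_fixed_le_three (hodd : ∀ x : Fin 4 ↪ α, Odd (Nat.card (MulAction.stabilizer G x))) {v : G}
    (hv : v * v = 1) (hv1 : v ≠ 1) : (fixSet v).ncard ≤ 3 := by
  classical
  by_contra h
  push Not at h
  rw [Set.ncard_eq_toFinset_card'] at h
  obtain ⟨S, hS, hSc⟩ := Finset.exists_subset_card_eq (n := 4) h
  let y : Fin 4 ↪ α := (S.equivFinOfCardEq hSc).symm.toEmbedding.trans (Function.Embedding.subtype _)
  have hmem : v ∈ MulAction.stabilizer G y :=
    mem_stab_emb.2 fun i => by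
      have := Set.mem_toFinset.1 (hS ((S.equivFinOfCardEq hSc).symm i).2)
      exact this
  have h2 : orderOf v = 2 := orderOf_eq_prime (by rw [pow_two, hv]) hv1
  have hd := (hodd y).of_dvd_nat (Subgroup.orderOf_dvd_natCard _ hmem)
  rw [h2] at hd
  exact absurd hd (by decide)

theorem ncard_fixed_eq (h4 : MulAction.IsMultiplyPretransitive G α 4)
    (hodd : ∀ x : Fin 4 ↪ α, Odd (Nat.card (MulAction.stabilizer G x))) (hn : 6 ≤ Fintype.card α)
    {v w : G} (hv : v * v = 1) (hv1 : v ≠ 1) (hw : w * w = 1) (hw1 : w ≠ 1) :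
    (fixSet v).ncard = (fixSet w).ncard := by
  have h1 := card_fixed_le_three hodd hv hv1
  have h2 := card_fixed_le_three hodd hw hw1
  obtain ⟨y, hy1, hy2⟩ := exists_two_cycles hv (by omega)
  obtain ⟨y', hy1', hy2'⟩ := exists_two_cycles hw (by omega)
  obtain ⟨c, hc⟩ := exists_conj_of_two_cycles h4 hodd hv hw y y' hy1 hy2 hy1' hy2'
  rw [← hc, fixSet_conj, Set.ncard_image_of_injective _ (MulAction.injective c)]

theorem odd_fixed_of_odd {v : G} (hv : v * v = 1) (hn : Odd (Fintype.card α)) : Odd (fixSet v).ncard := by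
  classical
  have h := odd_fixed_of_involutive (Finset.univ : Finset α) (fun p => v • p) (fun _ _ => Finset.mem_univ _)
    (fun p _ => by show v • v • p = p; rw [← mul_smul, hv, one_smul]) (by rwa [Finset.card_univ])
  have e : fixSet v = ↑(Finset.univ.filter fun p : α => v • p = p) := by ext p; simp [mem_fixSet]
  rwa [e, Set.ncard_coe_finset]

/-- Seven points: the stabiliser of four points is not trivial. -/
theorem seven_ne_sharp (h4 : MulAction.IsMultiplyPretransitive G α 4) (hn : Fintype.card α = 7) (x : Fin 4 ↪ α) :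
    Nat.card (MulAction.stabilizer G x) ≠ 1 := by
  classical
  intro h1
  have hbot : ∀ y : Fin 4 ↪ α, MulAction.stabilizer G y = ⊥ := fun y =>
    Subgroup.eq_bot_of_card_eq _ (card_stab_eq h4 x y ▸ h1)
  have hodd : ∀ y : Fin 4 ↪ α, Odd (Nat.card (MulAction.stabilizer G y)) := fun y => by
    rw [hbot, Subgroup.card_bot]; exact odd_one
  have hpure : ∀ y : Fin 4 ↪ α, ∃ u : G, (∀ i, u • y i = y ((Equiv.swap 0 1 * Equiv.swap 2 3 : Equiv.Perm (Fin 4)) i)) ∧
      ∀ p, p ∉ Set.range y → u • p = p := by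
    intro y
    obtain ⟨u, hu, huy⟩ := exists_lift h4 hodd y (Equiv.swap 0 1 * Equiv.swap 2 3) (by decide)
    obtain ⟨s, hs, hsy⟩ := exists_lift h4 hodd y (Equiv.swap 2 3) (Equiv.swap_mul_self _ _)
    have hu1 : u ≠ 1 := fun e => by
      have := huy 0
      rw [e, one_smul] at this
      exact absurd (y.injective this) (by decide)
    have hs1 : s ≠ 1 := fun e => by
      have := hsy 2
      rw [e, one_smul] at this
      exact absurd (y.injective this) (by decide)
    have h3 : (fixSet u).ncard = 3 := by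
      rw [ncard_fixed_eq h4 hodd (by omega) hu hu1 hs hs1]
      have hle := card_fixed_le_three hodd hs hs1
      have hge : 2 ≤ (fixSet s).ncard := by
        have hsub : ({y 0, y 1} : Set α) ⊆ fixSet s := by
          rintro p (rfl | rfl)
          · exact (hsy 0).trans (congrArg y (by decide))
          · exact (hsy 1).trans (congrArg y (by decide))
        have := Set.ncard_le_ncard hsub (Set.toFinite _)
        rwa [Set.ncard_pair (y.injective.ne (by decide))] at this
      have ho := Nat.odd_iff.1 (odd_fixed_of_odd hs (by rw [hn]; decide))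
      omega
    refine ⟨u, huy, ?_⟩
    have hsub : fixSet u ⊆ (Set.range y)ᶜ := by
      rintro p hp ⟨i, rfl⟩
      have := (huy i).symm.trans (mem_fixSet.1 hp)
      exact absurd (y.injective this) ((by decide : ∀ i : Fin 4, (Equiv.swap 0 1 * Equiv.swap 2 3 : Equiv.Perm (Fin 4)) i ≠ i) i)
    have heq := Set.eq_of_subset_of_ncard_le hsub (by
      rw [Set.ncard_compl, Set.ncard_range_of_injective y.injective, Nat.card_eq_fintype_card, Nat.card_eq_fintype_card,
        Fintype.card_fin, hn, h3]) (Set.toFinite _)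
    exact fun p hp => mem_fixSet.1 (heq ▸ hp)
  obtain ⟨e⟩ : Nonempty (Fin 7 ≃ α) := ⟨(Fintype.equivFinOfCardEq hn).symm⟩
  let y₁ : Fin 4 ↪ α := ⟨fun i => e (![0, 1, 3, 4] i), e.injective.comp (by decide)⟩
  let y₂ : Fin 4 ↪ α := ⟨fun i => e (![1, 2, 3, 4] i), e.injective.comp (by decide)⟩
  let z : Fin 4 ↪ α := ⟨fun i => e (![3, 4, 5, 6] i), e.injective.comp (by decide)⟩
  obtain ⟨u₁, h11, h12⟩ := hpure y₁
  obtain ⟨u₂, h21, h22⟩ := hpure y₂
  have a0 : u₁ • e 0 = e 1 := h11 0
  have a1 : u₁ • e 1 = e 0 := h11 1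
  have a3 : u₁ • e 3 = e 4 := h11 2
  have a4 : u₁ • e 4 = e 3 := h11 3
  have b2 : u₂ • e 2 = e 1 := h21 1
  have b3 : u₂ • e 3 = e 4 := h21 2
  have b4 : u₂ • e 4 = e 3 := h21 3
  have out₁ : ∀ j : Fin 7, j = 5 ∨ j = 6 → u₁ • e j = e j := fun j hj => h12 _ (by
    rintro ⟨i, hi⟩
    have : ![0, 1, 3, 4] i = j := e.injective hi
    rcases hj with rfl | rfl
    · exact (by decide : ∀ i : Fin 4, (![0, 1, 3, 4] i : Fin 7) ≠ 5) i this
    · exact (by decide : ∀ i : Fin 4, (![0, 1, 3, 4] i : Fin 7) ≠ 6) i this)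
  have out₂ : ∀ j : Fin 7, j = 5 ∨ j = 6 → u₂ • e j = e j := fun j hj => h22 _ (by
    rintro ⟨i, hi⟩
    have : ![1, 2, 3, 4] i = j := e.injective hi
    rcases hj with rfl | rfl
    · exact (by decide : ∀ i : Fin 4, (![1, 2, 3, 4] i : Fin 7) ≠ 5) i this
    · exact (by decide : ∀ i : Fin 4, (![1, 2, 3, 4] i : Fin 7) ≠ 6) i this)
  have hmem : u₁ * u₂ ∈ MulAction.stabilizer G z := mem_stab_emb.2 fun i => by
    rw [mul_smul]
    fin_cases i
    · show u₁ • u₂ • e 3 = e 3
      rw [b3, a4]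
    · show u₁ • u₂ • e 4 = e 4
      rw [b4, a3]
    · show u₁ • u₂ • e 5 = e 5
      rw [out₂ 5 (Or.inl rfl), out₁ 5 (Or.inl rfl)]
    · show u₁ • u₂ • e 6 = e 6
      rw [out₂ 6 (Or.inr rfl), out₁ 6 (Or.inr rfl)]
  rw [hbot, Subgroup.mem_bot] at hmem
  have h2 := congrArg (fun g : G => g • e 2) hmem
  simp only [mul_smul, one_smul, b2, a1] at h2
  exact absurd (e.injective h2) (by decide)

/-- The small degrees. -/
theorem good_small (h4 : MulAction.IsMultiplyPretransitive G α 4) (x : Fin 4 ↪ α)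
    (hodd : Odd (Nat.card (MulAction.stabilizer G x))) (hn : Fintype.card α ≤ 7) : OddFourGood α G x := by
  have h4' : 4 ≤ Fintype.card α := by simpa using Fintype.card_le_of_embedding x
  have hd := stab_card_dvd_factorial h4 x
  have hG := card_mul_descFactorial G h4 x
  have htop : Nat.card G = (Fintype.card α).factorial → G = ⊤ := fun h =>
    Subgroup.eq_top_of_card_eq G (by rw [h, Nat.card_perm, Nat.card_eq_fintype_card])
  have halt : 2 * Nat.card G = (Fintype.card α).factorial → G = alternatingGroup α := fun h => by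
    refine Equiv.Perm.eq_alternatingGroup_of_index_eq_two ?_
    have := G.index_mul_card
    rw [Nat.card_perm, Nat.card_eq_fintype_card (α := α), ← h] at this
    exact Nat.eq_of_mul_eq_mul_right Nat.card_pos this
  obtain ⟨k, hk⟩ := hodd
  have hdle := Nat.le_of_dvd (Nat.factorial_pos _) hd
  have h1 := seven_ne_sharp h4 (x := x)
  generalize Nat.card (MulAction.stabilizer G x) = d at hd hdle hk hG h1 ⊢
  rcases (show Fintype.card α = 4 ∨ Fintype.card α = 5 ∨ Fintype.card α = 6 ∨ Fintype.card α = 7 by omega) with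
    e | e | e | e <;> rw [e] at hd hdle hG htop halt <;> norm_num [Nat.factorial, Nat.descFactorial] at hd hdle hG htop halt
  · exact Or.inl ⟨Or.inl e, htop (by omega)⟩
  · exact Or.inl ⟨Or.inr e, htop (by omega)⟩
  · exact Or.inr (Or.inl ⟨Or.inl e, halt (by omega)⟩)
  · refine Or.inr (Or.inl ⟨Or.inr e, halt ?_⟩)
    have h1' := h1 e
    rcases (show d = 3 ∨ d = 5 by omega) with h | h
    · omega
    · rw [h] at hd; norm_num at hd

/-- A point stabiliser of order divisible by nine contains a three-cycle. -/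
theorem alt_le_of_nine (h4 : MulAction.IsMultiplyPretransitive G α 4) (x : Fin 4 ↪ α)
    (hn : Fintype.card α = 10 ∨ Fintype.card α = 11) (h9 : 9 ∣ Nat.card (MulAction.stabilizer G x)) :
    alternatingGroup α ≤ G := by
  classical
  haveI : Fact (Nat.Prime 3) := ⟨Nat.prime_three⟩
  obtain ⟨P, hP⟩ := Sylow.exists_subgroup_card_pow_prime (G := MulAction.stabilizer G x) 3 (n := 2) (by simpa using h9)
  let M : Finset α := Finset.univ.filter fun p => ∃ g ∈ P, (g : G) • p ≠ p
  have hMx : ∀ i, x i ∉ M := fun i h => by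
    obtain ⟨g, -, hg⟩ := (Finset.mem_filter.1 h).2
    exact hg (mem_stab_emb.1 g.2 i)
  have hMc : M.card + 4 ≤ Fintype.card α := by
    have hd : Disjoint M (Finset.univ.map x) := by
      rw [Finset.disjoint_left]
      intro p hp hp'
      obtain ⟨i, -, rfl⟩ := Finset.mem_map.1 hp'
      exact hMx i hp
    have := Finset.card_le_univ (M ∪ Finset.univ.map x)
    rw [Finset.card_union_of_disjoint hd, Finset.card_map, Finset.card_univ, Fintype.card_fin] at this
    omega
  have hinvM : ∀ (g : P) (p : α), p ∈ M → ((g : MulAction.stabilizer G x) : G) • p ∈ M := by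
    intro g p hp
    obtain ⟨h, hh, hne⟩ := (Finset.mem_filter.1 hp).2
    refine Finset.mem_filter.2 ⟨Finset.mem_univ _, g * h * (g : MulAction.stabilizer G x)⁻¹, mul_mem (mul_mem g.2 hh) (inv_mem g.2), ?_⟩
    intro e
    apply hne
    simp only [Subgroup.coe_mul, Subgroup.coe_inv, mul_smul, inv_smul_smul] at e
    exact smul_left_cancel _ e
  have hPp : IsPGroup 3 P := IsPGroup.of_card hP
  have hM6 : M.card ≤ 6 := by
    have h3 : 3 ∣ (M : Set α).ncard := by
      refine dvd_ncard_of_orbits (G := P.map (MulAction.stabilizer G x).subtype) _ ?_ ?_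
      · rintro ⟨_, g, hg, rfl⟩ p hp
        exact hinvM ⟨g, hg⟩ p hp
      · intro p hp
        obtain ⟨n, hn'⟩ := (hPp.map (MulAction.stabilizer G x).subtype).card_orbit p
        rw [Nat.card_coe_set_eq] at hn'
        rw [hn']
        refine dvd_pow_self 3 fun h0 => ?_
        subst h0
        obtain ⟨q, hq⟩ := Set.ncard_eq_one.1 (by simpa using hn')
        obtain ⟨h, hh, hne⟩ := (Finset.mem_filter.1 hp).2
        have h1 := MulAction.mem_orbit_self (M := P.map (MulAction.stabilizer G x).subtype) p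
        have h2 : (h : G) • p ∈ MulAction.orbit (P.map (MulAction.stabilizer G x).subtype) p :=
          MulAction.mem_orbit p (⟨(h : G), ⟨h, hh, rfl⟩⟩ : P.map (MulAction.stabilizer G x).subtype)
        rw [hq, Set.mem_singleton_iff] at h1 h2
        exact hne (h2.trans h1.symm)
    rw [Set.ncard_coe_finset] at h3
    omega
  by_cases hfree : ∀ g : P, g ≠ 1 → ∀ p ∈ M, ((g : MulAction.stabilizer G x) : G) • p ≠ p
  · exfalso
    obtain ⟨g, hg1⟩ : ∃ g : P, g ≠ 1 := by
      have : Nontrivial P := Finite.one_lt_card_iff_nontrivial.1 (by rw [hP]; norm_num)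
      exact exists_ne 1
    have hMne : M.Nonempty := by
      by_contra h
      rw [Finset.not_nonempty_iff_eq_empty] at h
      refine hg1 (Subtype.ext (Subtype.ext (Subtype.ext (Equiv.ext fun p => ?_))))
      by_contra hne
      have : p ∈ M := Finset.mem_filter.2 ⟨Finset.mem_univ _, g, g.2, hne⟩
      rw [h] at this
      exact Finset.notMem_empty _ this
    obtain ⟨p, hp⟩ := hMne
    have hinj : Function.Injective fun g : P => (⟨((g : MulAction.stabilizer G x) : G) • p, hinvM g p hp⟩ : M) := by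
      intro a b e
      by_contra hne
      refine hfree (b⁻¹ * a) (fun h => hne (inv_mul_eq_one.1 h).symm) p hp ?_
      simp only [Subgroup.coe_mul, Subgroup.coe_inv, mul_smul, inv_smul_eq_iff]
      exact congrArg Subtype.val e
    have := Nat.card_le_card_of_injective _ hinj
    rw [hP, Nat.card_eq_fintype_card, Fintype.card_coe] at this
    omega
  · push Not at hfree
    obtain ⟨g, hg1, p, hpM, hgp⟩ := hfree
    obtain ⟨j, hj⟩ := hPp g
    obtain ⟨k, q, hq, hgq⟩ := exists_prime_power_order hg1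
    obtain rfl : q = 3 := by
      have : q ∣ 3 ^ j := hgq ▸ orderOf_dvd_of_pow_eq_one (by rw [← pow_mul, mul_comm, pow_mul, hj, one_pow])
      exact (Nat.prime_dvd_prime_iff_eq hq Nat.prime_three).1 (hq.dvd_of_dvd_pow this)
    obtain ⟨u, hu⟩ : ∃ u : G, u = ((g ^ k : P) : MulAction.stabilizer G x) := ⟨_, rfl⟩
    have ho : orderOf (u : Equiv.Perm α) = 3 := by
      rw [hu, Subgroup.orderOf_coe, Subgroup.orderOf_coe, Subgroup.orderOf_coe, hgq]
    refine alt_le_of_prime_order h4 Nat.prime_three (by omega) u.2 ho ?_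
    have hsub : (u : Equiv.Perm α).support ⊆ M.erase p := by
      intro a ha
      rw [Equiv.Perm.mem_support] at ha
      refine Finset.mem_erase.2 ⟨?_, Finset.mem_filter.2 ⟨Finset.mem_univ _, (g ^ k : P), (g ^ k).2, ?_⟩⟩
      · rintro rfl
        apply ha
        show u • a = a
        rw [hu, Subgroup.coe_pow, Subgroup.coe_pow]
        exact MulAction.mem_stabilizer_iff.1 (pow_mem (MulAction.mem_stabilizer_iff.2 hgp) k)
      · rw [← hu]
        exact ha
    have := Finset.card_le_card hsub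
    rw [Finset.card_erase_of_mem hpM] at this
    have h3 : 3 ∣ (u : Equiv.Perm α).support.card := by
      have hct : ∀ m ∈ (u : Equiv.Perm α).cycleType, m = 3 := fun m hm => by
        have h1 := Equiv.Perm.dvd_of_mem_cycleType hm
        rw [ho] at h1
        have := Equiv.Perm.two_le_of_mem_cycleType hm
        exact ((Nat.dvd_prime Nat.prime_three).1 h1).resolve_left (by omega)
      rw [← Equiv.Perm.sum_cycleType, Multiset.eq_replicate_card.2 hct, Multiset.sum_replicate, smul_eq_mul]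
      exact dvd_mul_left _ _
    omega

end Cfsg.Agent.H37
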