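import Cfsg.Agent.H37.MillerBase
import Cfsg.Agent.H37.OddFourBase

/-! A Sylow subgroup of the stabiliser of `r` points and its normaliser. -/

namespace Cfsg.Agent.H37

open MulAction

variable {α : Type*} [Fintype α] [DecidableEq α] {G : Subgroup (Equiv.Perm α)}

theorem exists_sylow_data {k p r : ℕ} [hp : Fact p.Prime] (hn : Fintype.card α = k * p + r) (hk : 1 ≤ k)
    (hpk : k < p) (hG : MulAction.IsMultiplyPretransitive G α (r + 1)) (x : Fin r ↪ α) :
    ∃ P : Subgroup G, OrbitData P (Set.range x) p ∧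
      ∀ σ : Equiv.Perm (Fin r), ∃ n ∈ Subgroup.normalizer (P : Set G), ∀ i, n • x i = x (σ i) := by
  classical
  set Δ := Set.range x
  set H := MulAction.stabilizer G x
  have hle : r + 1 ≤ Fintype.card α := by
    have := Nat.mul_pos (show 0 < k by omega) hp.out.pos
    omega
  have hGr : MulAction.IsMultiplyPretransitive G α r :=
    MulAction.isMultiplyPretransitive_of_le (n := r + 1) (by omega) (by rw [Nat.card_eq_fintype_card]; exact hle)
  have htrans : ∀ a b : α, a ∉ Δ → b ∉ Δ → ∃ h ∈ H, h • a = b := by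
    intro a b ha hb
    let ya : Fin (r + 1) ↪ α := ⟨Fin.snoc x a, Fin.snoc_injective_iff.2 ⟨x.injective, ha⟩⟩
    let yb : Fin (r + 1) ↪ α := ⟨Fin.snoc x b, Fin.snoc_injective_iff.2 ⟨x.injective, hb⟩⟩
    obtain ⟨c, hc⟩ := MulAction.exists_smul_eq G ya yb
    refine ⟨c, mem_stab_emb.2 fun i => ?_, ?_⟩
    · have : c • ya (Fin.castSucc i) = yb (Fin.castSucc i) := DFunLike.congr_fun hc _
      simpa [ya, yb] using this
    · have : c • ya (Fin.last r) = yb (Fin.last r) := DFunLike.congr_fun hc _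
      simpa [ya, yb] using this
  obtain ⟨P0⟩ : Nonempty (Sylow p H) := inferInstance
  let P : Subgroup G := (P0 : Subgroup H).map H.subtype
  have hPH : P ≤ H := Subgroup.map_subtype_le _
  have hPp : IsPGroup p P := P0.isPGroup'.map _
  have hfix : ∀ z ∈ P, ∀ a ∈ Δ, z • a = a := by
    rintro z hz _ ⟨i, rfl⟩
    exact mem_stab_emb.1 (hPH hz) i
  have hΔc : (Δᶜ : Set α).ncard = k * p := by
    rw [Set.ncard_compl, Set.ncard_range_of_injective x.injective, Nat.card_eq_fintype_card, Nat.card_eq_fintype_card,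
      Fintype.card_fin, hn]
    omega
  have hout : ∀ a ∉ Δ, ∀ h ∈ H, h • a ∉ Δ := by
    rintro a ha h hh ⟨i, hi⟩
    exact ha ⟨i, smul_left_cancel h ((mem_stab_emb.1 hh i).trans hi)⟩
  have horb : ∀ a ∉ Δ, (MulAction.orbit P a).ncard = p := by
    intro a ha
    obtain ⟨e, he⟩ := hPp.card_orbit a
    rw [Nat.card_coe_set_eq] at he
    have hle : (MulAction.orbit P a).ncard ≤ k * p := by
      rw [← hΔc]
      refine Set.ncard_le_ncard ?_ (Set.toFinite _)
      rintro _ ⟨z, rfl⟩
      exact hout a ha z (hPH z.2)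
    have he1 : e ≤ 1 := by
      by_contra h
      have h2 : p ^ 2 ≤ p ^ e := Nat.pow_le_pow_right hp.out.pos (by omega)
      have h3 : k * p < p ^ 2 := by rw [pow_two]; exact Nat.mul_lt_mul_of_pos_right hpk hp.out.pos
      omega
    rcases (show e = 0 ∨ e = 1 by omega) with rfl | rfl
    · exfalso
      rw [pow_zero] at he
      obtain ⟨q, hq⟩ := Set.ncard_eq_one.1 he
      have hqa : a = q := by
        have := MulAction.mem_orbit_self (M := P) a
        rwa [hq] at this
      have hsub : (P0 : Subgroup H) ≤ MulAction.stabilizer H a := by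
        intro z hz
        have h1 : (⟨(z : G), ⟨z, hz, rfl⟩⟩ : P) • a ∈ MulAction.orbit P a := MulAction.mem_orbit _ _
        rw [hq, Set.mem_singleton_iff, ← hqa] at h1
        exact MulAction.mem_stabilizer_iff.2 h1
      have horbH : (MulAction.orbit H a).ncard = k * p := by
        rw [← hΔc]
        congr 1
        ext b
        constructor
        · rintro ⟨z, rfl⟩
          exact hout a ha z z.2
        · intro hb
          obtain ⟨h, hh, rfl⟩ := htrans a b ha hb
          exact MulAction.mem_orbit a (⟨h, hh⟩ : H)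
      refine P0.not_dvd_index ?_
      rw [← Subgroup.relIndex_mul_index hsub, MulAction.index_stabilizer, horbH]
      exact dvd_mul_of_dvd_right (dvd_mul_left p k) _
    · rw [he, pow_one]
  refine ⟨P, ⟨hPp, hfix, horb⟩, fun σ => ?_⟩
  obtain ⟨g, hg⟩ := MulAction.exists_smul_eq G x (σ.toEmbedding.trans x)
  have hgi : ∀ i, g • x i = x (σ i) := fun i => DFunLike.congr_fun hg i
  let P' : Subgroup G := P.map (MulAut.conj g).toMonoidHom
  have hP'H : P' ≤ H := by
    rintro _ ⟨z, hz, rfl⟩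
    exact conj_mem_stab hgi σ.surjective (hPH hz)
  obtain ⟨Q, hQ⟩ := ((hPp.map (MulAut.conj g).toMonoidHom).of_equiv (Subgroup.subgroupOfEquivOfLe hP'H).symm).exists_le_sylow
  obtain ⟨h, hh⟩ := MulAction.exists_smul_eq H Q P0
  have hsub : P.map (MulAut.conj ((h : G) * g)).toMonoidHom ≤ P := by
    rintro _ ⟨z, hz, rfl⟩
    have hz' : (⟨g * z * g⁻¹, hP'H ⟨z, hz, rfl⟩⟩ : H) ∈ (Q : Subgroup H) :=
      hQ (Subgroup.mem_subgroupOf.2 ⟨z, hz, rfl⟩)
    have hmem : h * ⟨g * z * g⁻¹, hP'H ⟨z, hz, rfl⟩⟩ * h⁻¹ ∈ (P0 : Subgroup H) := by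
      rw [← hh]
      exact ⟨_, hz', rfl⟩
    refine ⟨_, hmem, ?_⟩
    simp [mul_assoc]
  have heq : P.map (MulAut.conj ((h : G) * g)).toMonoidHom = P :=
    Subgroup.eq_of_le_of_card_ge hsub (le_of_eq (Subgroup.card_map_of_injective (MulEquiv.injective _)).symm)
  refine ⟨(h : G) * g, Subgroup.mem_normalizer_iff.2 fun z => ⟨fun hz => hsub ⟨z, hz, rfl⟩, fun hz => ?_⟩, fun i => ?_⟩
  · obtain ⟨z', hz', e⟩ := (heq.symm ▸ hz : (h : G) * g * z * ((h : G) * g)⁻¹ ∈ P.map (MulAut.conj ((h : G) * g)).toMonoidHom)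
    have : z' = z := (MulAut.conj ((h : G) * g)).injective e
    exact this ▸ hz'
  · rw [mul_smul, hgi]
    exact mem_stab_emb.1 h.2 (σ i)

end Cfsg.Agent.H37
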