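import Cfsg.Agent.H37.OddFourBase

/-! Four-transitive groups of degree ten or eleven with odd four-point stabilisers. -/

namespace Cfsg.Agent.H37

open MulAction

variable {α : Type*} [Fintype α] [DecidableEq α] {G : Subgroup (Equiv.Perm α)}

theorem divisors_ten (e : ℕ) (he : e ∣ 720) (ho : e % 2 = 1) (h9 : ¬ 9 ∣ e) (h5 : ¬ 5 ∣ e) : e = 1 ∨ e = 3 := by
  have hco : Nat.Coprime e 16 := by
    rw [show 16 = 2 ^ 4 by norm_num]
    exact Nat.Coprime.pow_right 4 (Nat.coprime_two_right.2 (Nat.odd_iff.2 ho))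
  have h45 : e ∣ 45 := hco.dvd_of_dvd_mul_left (show e ∣ 16 * 45 by norm_num; exact he)
  have := Nat.le_of_dvd (by norm_num) h45
  interval_cases e <;> omega

theorem divisors_eleven (e : ℕ) (he : e ∣ 5040) (ho : e % 2 = 1) (h9 : ¬ 9 ∣ e) (h5 : ¬ 5 ∣ e) (h7 : ¬ 7 ∣ e) :
    e = 1 ∨ e = 3 := by
  have hco : Nat.Coprime e 16 := by
    rw [show 16 = 2 ^ 4 by norm_num]
    exact Nat.Coprime.pow_right 4 (Nat.coprime_two_right.2 (Nat.odd_iff.2 ho))
  have h315 : e ∣ 45 * 7 := hco.dvd_of_dvd_mul_left (show e ∣ 16 * (45 * 7) by norm_num; exact he)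
  have h45 : e ∣ 45 := ((Nat.coprime_comm.1 ((Nat.Prime.coprime_iff_not_dvd (by norm_num)).2 h7)).dvd_of_dvd_mul_right h315)
  have := Nat.le_of_dvd (by norm_num) h45
  interval_cases e <;> omega

/-- Degrees ten and eleven. -/
theorem good_ten_eleven (h4 : MulAction.IsMultiplyPretransitive G α 4) (x : Fin 4 ↪ α)
    (hodd : ∀ y : Fin 4 ↪ α, Odd (Nat.card (MulAction.stabilizer G y))) {f : ℕ} (hf : f = 2 ∨ f = 3)
    (hsame : ∀ v : G, v * v = 1 → v ≠ 1 → (fixSet v).ncard = f) (hcard : Fintype.card α = f + 8) :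
    Fintype.card α = 11 ∧ Nat.card (MulAction.stabilizer G x) = 1 := by
  classical
  have hG := card_mul_descFactorial G h4 x
  have hd := stab_card_dvd_factorial h4 x
  have hne4 : ∀ {g : G} {i j : Fin 4} (y : Fin 4 ↪ α), i ≠ j → g • y i = y j → g ≠ 1 := fun y hij h e => by
    rw [e, one_smul] at h
    exact hij (y.injective h)
  have hnA : ¬ alternatingGroup α ≤ G := by
    intro hA
    let σ₀ : Equiv.Perm (Fin 4) := Equiv.swap 0 1 * Equiv.swap 2 3
    let σ : Equiv.Perm α := Equiv.Perm.viaEmbeddingHom x σ₀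
    have happ : ∀ i, σ (x i) = x (σ₀ i) := fun i => Equiv.Perm.viaEmbedding_apply σ₀ x i
    have hout : ∀ p, p ∉ Set.range x → σ p = p := fun p hp => Equiv.Perm.viaEmbedding_apply_of_notMem σ₀ x p hp
    have hσ : σ ∈ G := hA (Equiv.Perm.mem_alternatingGroup.2 (by
      have e : ((Equiv.Perm.sign : Equiv.Perm α →* ℤˣ).comp (Equiv.Perm.viaEmbeddingHom x)) (Equiv.swap 0 1) =
          ((Equiv.Perm.sign : Equiv.Perm α →* ℤˣ).comp (Equiv.Perm.viaEmbeddingHom x)) (Equiv.swap 2 3) :=
        isConj_iff_eq.1 (MonoidHom.map_isConj _ (Equiv.Perm.isConj_swap (by decide) (by decide)))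
      show ((Equiv.Perm.sign : Equiv.Perm α →* ℤˣ).comp (Equiv.Perm.viaEmbeddingHom x)) σ₀ = 1
      rw [map_mul, e, Int.units_mul_self]))
    have hσ2 : (⟨σ, hσ⟩ : G) * ⟨σ, hσ⟩ = 1 := Subtype.ext (by
      show σ * σ = 1
      rw [← map_mul, show σ₀ * σ₀ = 1 by decide, map_one])
    have hσ1 : (⟨σ, hσ⟩ : G) ≠ 1 := hne4 x (i := 0) (j := 1) (by decide) (by
      show σ (x 0) = x 1
      exact (happ 0).trans (congrArg x (by decide)))
    have hsub : (Set.range x)ᶜ ⊆ fixSet (⟨σ, hσ⟩ : G) := fun p hp => hout p hp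
    have h := Set.ncard_le_ncard hsub (Set.toFinite _)
    rw [Set.ncard_compl, Set.ncard_range_of_injective x.injective, Nat.card_eq_fintype_card, Nat.card_eq_fintype_card,
      Fintype.card_fin, hsame _ hσ2 hσ1] at h
    omega
  have hcyc : ∀ p, p.Prime → p + 3 ≤ Fintype.card α → Fintype.card α - 4 < 2 * p →
      ¬ p ∣ Nat.card (MulAction.stabilizer G x) := by
    intro p hp hpn hp2 hdvd
    haveI : Fact p.Prime := ⟨hp⟩
    obtain ⟨g, hg⟩ := exists_prime_orderOf_dvd_card' (G := MulAction.stabilizer G x) p hdvd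
    refine hnA (alt_le_of_prime_order h4 hp hpn (g := ((g : G) : Equiv.Perm α)) (g : G).2
      (by rw [Subgroup.orderOf_coe, Subgroup.orderOf_coe, hg]) ?_)
    have hsub : ((g : G) : Equiv.Perm α).support ⊆ (Finset.univ.map x)ᶜ := by
      intro a ha
      rw [Finset.mem_compl]
      intro h
      obtain ⟨i, -, rfl⟩ := Finset.mem_map.1 h
      exact Equiv.Perm.mem_support.1 ha (mem_stab_emb.1 g.2 i)
    have h := Finset.card_le_card hsub
    rw [Finset.card_compl, Finset.card_map, Finset.card_univ, Fintype.card_fin] at h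
    omega
  have h9 : ¬ 9 ∣ Nat.card (MulAction.stabilizer G x) := fun h => hnA (alt_le_of_nine h4 x (by omega) h)
  have h5 := hcyc 5 (by norm_num) (by omega) (by omega)
  have ho := Nat.odd_iff.1 (hodd x)
  rcases hf with rfl | rfl
  · exfalso
    rw [show Fintype.card α - 4 = 6 by omega] at hd
    rcases divisors_ten _ (by simpa [Nat.factorial] using hd) ho h9 h5 with h1 | h1
    · obtain ⟨-, h⟩ := Tits.sharplyFour_card h4 (fun y => Subgroup.eq_bot_of_card_eq _ (card_stab_eq h4 x y ▸ h1)) ⟨x⟩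
      rw [Nat.card_eq_fintype_card] at h
      omega
    · -- an element of order three centralised by an involution
      obtain ⟨v₁, hv₁, hv₁x⟩ := exists_lift h4 hodd x (Equiv.swap 0 1 * Equiv.swap 2 3) (by decide)
      obtain ⟨v₂, hv₂, hv₂x, hv12⟩ := exists_lift_commute h4 hodd x (Equiv.swap 0 1 * Equiv.swap 2 3)
        (Equiv.swap 0 2 * Equiv.swap 1 3) (by decide) (by decide) v₁ hv₁ hv₁x
      set M := MulAction.stabilizer G x
      have hMne : M ≠ ⊥ := fun e => by rw [e, Subgroup.card_bot] at h1; omega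
      obtain ⟨g, hgM, hg1, hgc⟩ := exists_centralised M hMne hv₁ hv₂
        (fun m hm => conj_mem_stab hv₁x (Equiv.surjective _) hm) (fun m hm => conj_mem_stab hv₂x (Equiv.surjective _) hm)
      have hgo : orderOf g = 3 := by
        have := Subgroup.orderOf_dvd_natCard M hgM
        rw [h1] at this
        exact ((Nat.dvd_prime Nat.prime_three).1 this).resolve_left fun e => hg1 (orderOf_eq_one_iff.1 e)
      have key : ∀ (v : G) (σ : Equiv.Perm (Fin 4)), v * v = 1 → (∀ i, v • x i = x (σ i)) → (∀ i, σ i ≠ i) →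
          Commute v g → False := by
        intro v σ hv hvx hσ hc
        have hv1 : v ≠ 1 := hne4 x (i := 0) (j := σ 0) (Ne.symm (hσ 0)) (hvx 0)
        have hdv : 3 ∣ (fixSet v).ncard := by
          refine prime_dvd_ncard Nat.prime_three hgo (fixSet v) (fun p hp => smul_mem_fixSet hc hp) ?_
          intro p hp hgp
          refine hnA (alt_le_of_prime_order h4 Nat.prime_three (by omega) (g := (g : Equiv.Perm α)) g.2
            (by rw [Subgroup.orderOf_coe, hgo]) ?_)
          have hsub : (g : Equiv.Perm α).support ⊆ (insert p (Finset.univ.map x))ᶜ := by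
            intro b hb
            rw [Finset.mem_compl, Finset.mem_insert]
            rintro (rfl | h)
            · exact Equiv.Perm.mem_support.1 hb hgp
            · obtain ⟨i, -, rfl⟩ := Finset.mem_map.1 h
              exact Equiv.Perm.mem_support.1 hb (mem_stab_emb.1 hgM i)
          have h := Finset.card_le_card hsub
          rw [Finset.card_compl, Finset.card_insert_of_notMem (fun h => by
            obtain ⟨i, -, rfl⟩ := Finset.mem_map.1 h
            exact hσ i (x.injective ((hvx i).symm.trans hp))), Finset.card_map, Finset.card_univ, Fintype.card_fin] at h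
          omega
        rw [hsame v hv hv1] at hdv
        omega
      rcases hgc with hc | hc | hc
      · exact key v₁ _ hv₁ hv₁x (by decide) hc
      · exact key v₂ _ hv₂ hv₂x (by decide) hc
      · refine key (v₁ * v₂) ((Equiv.swap 0 1 * Equiv.swap 2 3) * (Equiv.swap 0 2 * Equiv.swap 1 3)) ?_ ?_ (by decide) hc
        · rw [mul_assoc, ← mul_assoc v₂, ← hv12, mul_assoc v₁ v₂ v₂, hv₂, mul_one, hv₁]
        · intro i
          exact (mul_smul v₁ v₂ (x i)).trans (((congrArg (v₁ • ·) (hv₂x i))).trans (hv₁x _))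
  · refine ⟨by omega, ?_⟩
    rw [show Fintype.card α - 4 = 7 by omega] at hd
    have h7 := hcyc 7 (by norm_num) (by omega) (by omega)
    rcases divisors_eleven _ (by simpa [Nat.factorial] using hd) ho h9 h5 h7 with h1 | h1
    · exact h1
    exfalso
    rw [h1, show Fintype.card α = 11 by omega] at hG
    obtain ⟨e, he1, he2, he3⟩ := prime_degree_congr (c := 2160) (show Nat.Prime 11 by norm_num) (by omega) G
      (by rw [← hG]; rfl) (by norm_num)
    have := Nat.le_of_dvd (by norm_num) he1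
    revert he1 he2 he3
    interval_cases e <;> decide

end Cfsg.Agent.H37
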