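import Mathlib
import Cfsg.Prelude.Def_Perm
import Cfsg.Prelude.Def_Characters
import Cfsg.Agent.H26.CharBasic
import Cfsg.Agent.H26.CharOrtho
import Cfsg.Agent.H26.CharPerm
import Cfsg.Agent.H26.CharFS
import Cfsg.Agent.S0668

/-!
# The centraliser algebra of a permutation representation
-/

set_option autoImplicit false

namespace Cfsg.Agent.H37.Orb

open Module Representation Matrix
open scoped ComplexConjugate
open Cfsg.Agent.H26

variable {G : Type*} [Group G] {Ω : Type*} [Fintype Ω] [MulAction G Ω]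

theorem char_perm (g : G) : (Cfsg.permRep ℂ G Ω).character g = permChar Ω g :=
  char_permFunRep Ω g

theorem char_perm' : (Cfsg.permRep ℂ G Ω).character = permChar (G := G) Ω := funext char_perm

/-- A matrix invariant under the group. -/
def Inv (G : Type*) [Group G] {Ω : Type*} [MulAction G Ω] (M : Matrix Ω Ω ℂ) : Prop :=
  ∀ (g : G) (x y : Ω), M (g • x) (g • y) = M x y

theorem commute_of_inv [DecidableEq Ω] {M : Matrix Ω Ω ℂ} (hM : Inv G M) (g : G) :
    Matrix.toLin' M ∘ₗ Cfsg.permRep ℂ G Ω g = Cfsg.permRep ℂ G Ω g ∘ₗ Matrix.toLin' M := by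
  refine LinearMap.ext fun v => funext fun y => ?_
  show (M *ᵥ fun x => v (g⁻¹ • x)) y = (M *ᵥ v) (g⁻¹ • y)
  refine Fintype.sum_equiv (MulAction.toPerm g⁻¹) _ _ fun x => ?_
  simp only [MulAction.toPerm_apply]
  rw [hM]

theorem inv_of_commute [DecidableEq Ω] {T : (Ω → ℂ) →ₗ[ℂ] (Ω → ℂ)}
    (hT : ∀ g : G, T ∘ₗ Cfsg.permRep ℂ G Ω g = Cfsg.permRep ℂ G Ω g ∘ₗ T) : Inv G (LinearMap.toMatrix' T) := by
  intro g x y
  simp only [LinearMap.toMatrix'_apply]
  have h := congrFun (LinearMap.congr_fun (hT g) (Pi.single y 1)) (g • x)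
  rw [LinearMap.comp_apply, LinearMap.comp_apply, Cfsg.Agent.H36.permRep_single, Cfsg.Agent.H36.permRep_apply,
    inv_smul_smul] at h
  simpa [Pi.single_apply] using h

theorem Inv.mul {M N : Matrix Ω Ω ℂ} (hM : Inv G M) (hN : Inv G N) : Inv G (M * N) := by
  intro g x y
  simp only [Matrix.mul_apply]
  refine (Fintype.sum_equiv (MulAction.toPerm g) _ _ fun z => ?_).symm
  simp [MulAction.toPerm_apply, hM g, hN g]

theorem mem_invariants_iff (T : (Ω → ℂ) →ₗ[ℂ] (Ω → ℂ)) :
    T ∈ ((Cfsg.permRep ℂ G Ω).linHom (Cfsg.permRep ℂ G Ω)).invariants ↔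
      ∀ g : G, T ∘ₗ Cfsg.permRep ℂ G Ω g = Cfsg.permRep ℂ G Ω g ∘ₗ T := by
  constructor
  · intro h g
    have h1 := h g
    rw [Representation.linHom_apply] at h1
    refine LinearMap.ext fun v => ?_
    have h2 := LinearMap.congr_fun h1 (Cfsg.permRep ℂ G Ω g v)
    simp only [LinearMap.comp_apply] at h2 ⊢
    rw [Representation.inv_self_apply] at h2
    exact h2.symm
  · intro h g
    rw [Representation.linHom_apply, ← LinearMap.comp_assoc, ← h g, LinearMap.comp_assoc]
    refine LinearMap.ext fun v => ?_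
    simp

variable [Fintype G]

/-- The unnormalised central element attached to a class function, acting in a representation. -/
noncomputable def eOp {V : Type*} [AddCommGroup V] [Module ℂ V] (ρ : Representation ℂ G V) (f : G → ℂ) :
    Module.End ℂ V :=
  ∑ g : G, conj (f g) • ρ g

theorem eOp_intertwine {V W : Type*} [AddCommGroup V] [Module ℂ V] [AddCommGroup W] [Module ℂ W]
    {σ : Representation ℂ G W} {ρ : Representation ℂ G V} (i : W →ₗ[ℂ] V)
    (hi : ∀ g w, i (σ g w) = ρ g (i w)) (f : G → ℂ) (w : W) : eOp ρ f (i w) = i (eOp σ f w) := by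
  simp [eOp, LinearMap.coe_sum, Finset.sum_apply, map_sum, hi]

theorem eOp_comm {V : Type*} [AddCommGroup V] [Module ℂ V] {ρ : Representation ℂ G V} (T : V →ₗ[ℂ] V)
    (hT : ∀ g : G, T ∘ₗ ρ g = ρ g ∘ₗ T) (f : G → ℂ) : T ∘ₗ eOp ρ f = eOp ρ f ∘ₗ T := by
  refine LinearMap.ext fun v => ?_
  exact (eOp_intertwine (σ := ρ) T (fun g w => LinearMap.congr_fun (hT g) w) f v).symm

theorem trace_eOp {V : Type*} [AddCommGroup V] [Module ℂ V] [FiniteDimensional ℂ V]
    (ρ : Representation ℂ G V) (χ : G → ℂ) :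
    LinearMap.trace ℂ V (eOp ρ χ) = (Nat.card G : ℂ) * Cfsg.classInner ρ.character χ := by
  rw [Cfsg.classInner, mul_inv_cancel_left₀ (Nat.cast_ne_zero.2 Nat.card_pos.ne'), eOp]
  simp only [map_sum, map_smul, smul_eq_mul]
  exact Finset.sum_congr rfl fun g _ => mul_comm _ _

theorem eOp_mem_invariants (χ : Cfsg.IrrCharacter G) :
    eOp (Cfsg.permRep ℂ G Ω) χ.1 ∈ ((Cfsg.permRep ℂ G Ω).linHom (Cfsg.permRep ℂ G Ω)).invariants := by
  rw [mem_invariants_iff]
  exact fun g => LinearMap.ext fun v => avgOp_comm _ χ.1 (irr_isClassFunction χ) g v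

/-- A constituent embeds. -/
theorem exists_embedding (χ : Cfsg.IrrCharacter G) (h : Cfsg.classInner (permChar Ω) χ.1 ≠ 0) :
    ∃ (d : ℕ) (σ : Representation ℂ G (Fin d → ℂ)) (i : (Fin d → ℂ) →ₗ[ℂ] (Ω → ℂ)),
      σ.character = χ.1 ∧ σ.IsIrreducible ∧ Function.Injective i ∧
        ∀ g w, i (σ g w) = Cfsg.permRep ℂ G Ω g (i w) := by
  obtain ⟨d, σ, hσ, e⟩ := χ.2
  have h1 := classInner_char_eq_finrank σ (Cfsg.permRep ℂ G Ω)
  rw [char_perm', e] at h1
  rw [h1, Nat.cast_ne_zero] at h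
  obtain ⟨i, hi⟩ : ∃ i : IntertwiningMap σ (Cfsg.permRep ℂ G Ω), i ≠ 0 := by
    by_contra hall
    push Not at hall
    have : Subsingleton (IntertwiningMap σ (Cfsg.permRep ℂ G Ω)) := ⟨fun a b => by rw [hall a, hall b]⟩
    exact h Module.finrank_zero_of_subsingleton
  refine ⟨d, σ, i.toLinearMap, e, hσ, ?_, fun g w => ?_⟩
  · rw [← LinearMap.ker_eq_bot]
    rcases ((isIrreducible_iff_forall σ).1 hσ).2 (LinearMap.ker i.toLinearMap) (fun g v hv => by
      rw [LinearMap.mem_ker] at hv ⊢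
      rw [show i.toLinearMap (σ g v) = Cfsg.permRep ℂ G Ω g (i.toLinearMap v) from
        LinearMap.congr_fun (i.isIntertwining' g) v, hv, map_zero]) with hk | hk
    · exact hk
    · exact absurd (IntertwiningMap.toLinearMap_injective _ _ (LinearMap.ker_eq_top.1 hk)) hi
  · exact LinearMap.congr_fun (i.isIntertwining' g) w

/-- Multiplicities in the permutation character. -/
theorem exists_mult (G : Type*) [Group G] [Fintype G] (Ω : Type*) [Fintype Ω] [MulAction G Ω] :
    ∃ m : Cfsg.IrrCharacter G → ℕ, (∀ ψ, Cfsg.classInner (permChar Ω) ψ.1 = m ψ) ∧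
      ∑ ψ, m ψ * m ψ = Nat.card (MulAction.orbitRel.Quotient G (Ω × Ω)) ∧
      ∑ ψ, (m ψ : ℂ) * ψ.1 1 = (Fintype.card Ω : ℂ) := by
  classical
  obtain ⟨m, hm, he⟩ := exists_nat_coeffs (isCharacter_permChar (G := G) Ω)
  refine ⟨m, hm, ?_, ?_⟩
  · have h := classInner_permChar_self (G := G) Ω
    rw [classInner_eq_sum _ _ (isClassFunction_of_isCharacter (isCharacter_permChar Ω))] at h
    simp only [hm, map_natCast, ← Nat.cast_mul, ← Nat.cast_sum, Nat.cast_inj] at h
    exact h
  · have h := congrFun he 1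
    simp only [Finset.sum_apply, Pi.smul_apply, smul_eq_mul] at h
    rw [← h, permChar]
    simp

/-- In the multiplicity-free case the central elements span the centraliser algebra. -/
theorem exists_coeff_of_mult_free
    (hmf : ∀ χ : G → ℂ, Cfsg.IsIrrCharacter G χ →
      Cfsg.classInner (permChar Ω) χ = 0 ∨ Cfsg.classInner (permChar Ω) χ = 1)
    (T : (Ω → ℂ) →ₗ[ℂ] (Ω → ℂ))
    (hT : T ∈ ((Cfsg.permRep ℂ G Ω).linHom (Cfsg.permRep ℂ G Ω)).invariants) :
    ∃ c : Cfsg.IrrCharacter G → ℂ, (∀ χ, Cfsg.classInner (permChar Ω) χ.1 = 0 → c χ = 0) ∧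
      T = ∑ χ, c χ • eOp (Cfsg.permRep ℂ G Ω) χ.1 := by
  classical
  obtain ⟨m, hm, hsq, -⟩ := exists_mult G Ω
  let S := {χ : Cfsg.IrrCharacter G // m χ ≠ 0}
  let I := ((Cfsg.permRep ℂ G Ω).linHom (Cfsg.permRep ℂ G Ω)).invariants
  let Φ : (S → ℂ) →ₗ[ℂ] I :=
    Fintype.linearCombination ℂ fun χ : S => (⟨eOp (Cfsg.permRep ℂ G Ω) χ.1.1, eOp_mem_invariants χ.1⟩ : I)
  have hΦ : ∀ c, (Φ c : (Ω → ℂ) →ₗ[ℂ] (Ω → ℂ)) = ∑ χ : S, c χ • eOp (Cfsg.permRep ℂ G Ω) χ.1.1 := fun c => by
    simp [Φ, Fintype.linearCombination_apply]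
  have hinj : Function.Injective Φ := by
    refine (injective_iff_map_eq_zero Φ).2 fun c hc => ?_
    have h0 := congrArg Subtype.val hc
    rw [hΦ, Submodule.coe_zero] at h0
    funext ψ
    obtain ⟨d, σ, i, hσ, hirr, hi, hii⟩ := exists_embedding (Ω := Ω) ψ.1 (by rw [hm]; exact_mod_cast ψ.2)
    have h1 : ∑ χ : S, c χ • eOp σ χ.1.1 = 0 := by
      refine LinearMap.ext fun w => hi ?_
      rw [LinearMap.zero_apply, map_zero]
      refine Eq.trans ?_ (LinearMap.congr_fun h0 (i w))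
      simp [LinearMap.coe_sum, Finset.sum_apply, map_sum, eOp_intertwine (σ := σ) i hii]
    have h2 := congrArg (LinearMap.trace ℂ (Fin d → ℂ)) h1
    simp only [map_sum, map_smul, map_zero, trace_eOp, hσ, classInner_irr, smul_eq_mul, mul_ite, mul_one, mul_zero] at h2
    simp only [Subtype.coe_injective.eq_iff] at h2
    rw [Finset.sum_eq_single ψ (fun x _ hx => if_neg (Ne.symm hx)) (fun h => absurd (Finset.mem_univ _) h),
      if_pos rfl] at h2
    exact (mul_eq_zero.1 h2).resolve_right (Nat.cast_ne_zero.2 Nat.card_pos.ne')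
  have hdim : finrank ℂ (S → ℂ) = finrank ℂ I := by
    rw [Module.finrank_fintype_fun_eq_card, Cfsg.Agent.S0668.result, ← hsq, Fintype.card_subtype,
      Finset.card_filter]
    refine Finset.sum_congr rfl fun χ _ => ?_
    rcases hmf χ.1 χ.2 with h | h <;> rw [hm] at h
    · have : m χ = 0 := by exact_mod_cast h
      simp [this]
    · have : m χ = 1 := by exact_mod_cast h
      simp [this]
  obtain ⟨c, hc⟩ := ((LinearMap.injective_iff_surjective_of_finrank_eq_finrank hdim (f := Φ)).1 hinj) (⟨T, hT⟩ : I)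
  refine ⟨fun χ => if h : m χ ≠ 0 then c ⟨χ, h⟩ else 0, fun χ h => ?_, ?_⟩
  · rw [hm, Nat.cast_eq_zero] at h
    simp [h]
  · have := congrArg Subtype.val hc
    rw [hΦ] at this
    replace this : ∑ χ : S, c χ • eOp (Cfsg.permRep ℂ G Ω) χ.1.1 = T := this
    rw [← this]
    symm
    rw [← Finset.sum_filter_of_ne (p := fun χ => m χ ≠ 0)]
    · rw [Finset.sum_subtype (p := fun χ => m χ ≠ 0) (Finset.univ.filter _) (by simp)]
      exact Finset.sum_congr rfl fun χ _ => by beta_reduce; rw [dif_pos χ.2]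
    · intro χ _ hne h0
      exact hne (by simp [h0])

/-- The transpose of a central element is the one of the conjugate function. -/
theorem toMatrix_eOp_transpose [DecidableEq Ω] (χ : Cfsg.IrrCharacter G) :
    (LinearMap.toMatrix' (eOp (Cfsg.permRep ℂ G Ω) χ.1))ᵀ =
      LinearMap.toMatrix' (eOp (Cfsg.permRep ℂ G Ω) (conjIrr χ).1) := by
  ext x y
  rw [Matrix.transpose_apply, LinearMap.toMatrix'_apply, LinearMap.toMatrix'_apply]
  simp only [eOp, LinearMap.coe_sum, Finset.sum_apply, LinearMap.smul_apply, Pi.smul_apply, smul_eq_mul,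
    Cfsg.Agent.H36.permRep_apply, conjIrr_val, Complex.conj_conj]
  refine Fintype.sum_equiv (Equiv.inv G) _ _ fun g => ?_
  simp only [Equiv.inv_apply, inv_inv, irr_inv, Pi.single_apply]
  congr 1
  simp only [inv_smul_eq_iff, @eq_comm _ y (g • x)]

theorem conjIrr_eq_of_real (χ : Cfsg.IrrCharacter G) (h : ∀ g, conj (χ.1 g) = χ.1 g) : conjIrr χ = χ :=
  Subtype.ext (funext h)

/-- If the character is multiplicity free with real constituents, all invariant matrices are symmetric. -/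
theorem symm_of_mult_free_real [DecidableEq Ω]
    (hmf : ∀ χ : G → ℂ, Cfsg.IsIrrCharacter G χ → Cfsg.classInner (permChar Ω) χ ≠ 0 →
      Cfsg.classInner (permChar Ω) χ = 1 ∧ ∀ g : G, conj (χ g) = χ g)
    {M : Matrix Ω Ω ℂ} (hM : Inv G M) : Mᵀ = M := by
  obtain ⟨c, hc, he⟩ := exists_coeff_of_mult_free (fun χ hχ => or_iff_not_imp_left.2 fun h => (hmf χ hχ h).1)
    (Matrix.toLin' M) ((mem_invariants_iff _).2 (commute_of_inv hM))
  have hM' : M = ∑ χ, c χ • LinearMap.toMatrix' (eOp (Cfsg.permRep ℂ G Ω) χ.1) := by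
    rw [← LinearMap.toMatrix'_toLin' M, he]
    simp only [map_sum, map_smul]
  rw [hM', Matrix.transpose_sum]
  refine Finset.sum_congr rfl fun χ _ => ?_
  rw [Matrix.transpose_smul]
  by_cases h : Cfsg.classInner (permChar Ω) χ.1 = 0
  · rw [hc χ h, zero_smul, zero_smul]
  · rw [toMatrix_eOp_transpose, conjIrr_eq_of_real χ (hmf χ.1 χ.2 h).2]

/-- An invariant subspace of the sum-zero module has character made of non-principal constituents. -/
theorem exists_coeff_sub [MulAction.IsPretransitive G Ω] {W : Submodule ℂ (Ω → ℂ)}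
    (hW : ∀ g : G, ∀ v ∈ W, Cfsg.permRep ℂ G Ω g v ∈ W) (hsz : ∀ v ∈ W, ∑ x, v x = 0)
    (m : Cfsg.IrrCharacter G → ℕ) (hm : ∀ ψ, Cfsg.classInner (permChar Ω) ψ.1 = m ψ) :
    ∃ a : Cfsg.IrrCharacter G → ℕ, (∀ ψ, a ψ ≤ m ψ) ∧ a (oneIrr G) = 0 ∧
      (finrank ℂ W : ℂ) = ∑ ψ, (a ψ : ℂ) * ψ.1 1 := by
  classical
  let U : Subrepresentation (Cfsg.permRep ℂ G Ω) := ⟨W, fun g v hv => hW g v hv⟩
  obtain ⟨U', hU'⟩ := exists_compl_sub _ U
  obtain ⟨e⟩ := prod_equiv_of_isCompl _ U U' hU'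
  have hsum : permChar Ω = U.toRepresentation.character + U'.toRepresentation.character := by
    rw [← char_perm', ← char_prod]
    exact (char_iso e).symm
  obtain ⟨a, ha, hae⟩ := exists_nat_coeffs (isCharacter_char U.toRepresentation)
  obtain ⟨a', ha', -⟩ := exists_nat_coeffs (isCharacter_char U'.toRepresentation)
  refine ⟨a, fun ψ => ?_, ?_, ?_⟩
  · have h := hm ψ
    rw [hsum, classInner_add_left, ha, ha', ← Nat.cast_add, Nat.cast_inj] at h
    omega
  · have h1 : (linearRep (1 : G →* ℂˣ)).character = (oneIrr G).1 := funext fun g => by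
      rw [char_linearRep]; simp [oneIrr_val]
    have h := classInner_char_eq_finrank (linearRep (1 : G →* ℂˣ)) U.toRepresentation
    rw [h1, ha, Nat.cast_inj] at h
    rw [h]
    have : Subsingleton (IntertwiningMap (linearRep (1 : G →* ℂˣ)) U.toRepresentation) := by
      suffices ∀ j : IntertwiningMap (linearRep (1 : G →* ℂˣ)) U.toRepresentation, j = 0 from
        ⟨fun p q => by rw [this p, this q]⟩
      intro j
      refine IntertwiningMap.toLinearMap_injective _ _ (LinearMap.ext_ring ?_)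
      set v : U.toSubmodule := j.toLinearMap 1
      have hfix : ∀ g : G, Cfsg.permRep ℂ G Ω g (v : Ω → ℂ) = (v : Ω → ℂ) := by
        intro g
        have h := congrArg Subtype.val (LinearMap.congr_fun (j.isIntertwining' g) 1)
        have h2 : linearRep (1 : G →* ℂˣ) g 1 = (1 : ℂ) := by
          show ((1 : G →* ℂˣ) g : ℂ) * 1 = 1
          simp
        simp only [LinearMap.comp_apply, h2] at h
        exact h.symm
      refine Subtype.ext (funext fun x => ?_)
      show (v : Ω → ℂ) x = 0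
      have hconst : ∀ y, (v : Ω → ℂ) y = (v : Ω → ℂ) x := by
        intro y
        obtain ⟨g, rfl⟩ := MulAction.exists_smul_eq G y x
        have := congrFun (hfix g) (g • y)
        rw [Cfsg.Agent.H36.permRep_apply, inv_smul_smul] at this
        exact this
      have h0 := hsz v v.2
      rw [Finset.sum_congr rfl (fun y _ => hconst y), Finset.sum_const, nsmul_eq_mul] at h0
      haveI : Nonempty Ω := ⟨x⟩
      exact (mul_eq_zero.1 h0).resolve_left (Nat.cast_ne_zero.2 (by rw [Finset.card_univ]; exact Fintype.card_ne_zero))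
    exact Module.finrank_zero_of_subsingleton
  · have h := congrFun hae 1
    rw [Representation.char_one] at h
    simpa [Finset.sum_apply] using h

end Cfsg.Agent.H37.Orb
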