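import Mathlib
import Cfsg.Agent.H37.Orbitals

/-!
# Adjacency matrices of orbitals
-/

set_option autoImplicit false

namespace Cfsg.Agent.H37.Orb

open Matrix

variable {G : Type*} [Group G] {Ω : Type*} [Fintype Ω] [MulAction G Ω]

/-- The all-ones matrix. -/
def jMat (Ω : Type*) : Matrix Ω Ω ℂ := Matrix.of fun _ _ => 1

/-- The projection on the vectors with sum zero. -/
noncomputable def centering (Ω : Type*) [Fintype Ω] [DecidableEq Ω] : Matrix Ω Ω ℂ :=
  1 - (Fintype.card Ω : ℂ)⁻¹ • jMat Ω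

omit [Fintype Ω] in
theorem inv_jMat : Inv G (jMat Ω) := fun _ _ _ => rfl

theorem inv_centering [DecidableEq Ω] : Inv G (centering Ω) := by
  intro g x y
  simp [centering, jMat, Matrix.one_apply]

variable [DecidableEq Ω] {M : Matrix Ω Ω ℂ} {k : ℂ}

omit [DecidableEq Ω] in
theorem mul_jMat (hr : ∀ x, ∑ y, M x y = k) : M * jMat Ω = k • jMat Ω := by
  ext x y
  simp [Matrix.mul_apply, jMat, hr]

omit [DecidableEq Ω] in
theorem jMat_mul (hc : ∀ y, ∑ x, M x y = k) : jMat Ω * M = k • jMat Ω := by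
  ext x y
  simp [Matrix.mul_apply, jMat, hc]

theorem centering_comm (hr : ∀ x, ∑ y, M x y = k) (hc : ∀ y, ∑ x, M x y = k) :
    centering Ω * M = M * centering Ω := by
  rw [centering, sub_mul, mul_sub, one_mul, mul_one, smul_mul, Matrix.mul_smul, mul_jMat hr, jMat_mul hc]

theorem trace_mul_centering [Nonempty Ω] (hr : ∀ x, ∑ y, M x y = k) :
    Matrix.trace (M * centering Ω) = Matrix.trace M - k := by
  rw [centering, mul_sub, mul_one, Matrix.mul_smul, mul_jMat hr, Matrix.trace_sub, Matrix.trace_smul,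
    Matrix.trace_smul]
  congr 1
  have : (Fintype.card Ω : ℂ) ≠ 0 := Nat.cast_ne_zero.2 Fintype.card_ne_zero
  simp [Matrix.trace, jMat]
  field_simp

theorem sum_centering [Nonempty Ω] (y : Ω) : ∑ x, centering Ω x y = 0 := by
  have : (Fintype.card Ω : ℂ) ≠ 0 := Nat.cast_ne_zero.2 Fintype.card_ne_zero
  simp [centering, jMat, Matrix.one_apply, Finset.sum_sub_distrib, mul_inv_cancel₀ this]

theorem jMat_mul_centering [Nonempty Ω] : jMat Ω * centering Ω = 0 := by
  ext x y
  simp [Matrix.mul_apply, jMat]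
  exact sum_centering y

theorem centering_mul_self [Nonempty Ω] : centering Ω * centering Ω = centering Ω := by
  conv_lhs => arg 1; rw [centering]
  rw [sub_mul, one_mul, smul_mul, jMat_mul_centering, smul_zero, sub_zero]

theorem trace_centering [Nonempty Ω] : Matrix.trace (centering Ω) = (Fintype.card Ω : ℂ) - 1 := by
  have h := trace_mul_centering (Ω := Ω) (M := 1) (k := 1) (fun x => by simp [Matrix.one_apply])
  rw [one_mul, Matrix.trace_one] at h
  exact h

/-- A matrix with zero column sums maps into the sum-zero vectors. -/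
theorem sum_mulVec_eq_zero {N : Matrix Ω Ω ℂ} (h : ∀ y, ∑ x, N x y = 0) (v : Ω → ℂ) :
    ∑ x, (N *ᵥ v) x = 0 := by
  simp only [Matrix.mulVec, dotProduct]
  rw [Finset.sum_comm]
  simp [← Finset.sum_mul, h]

omit [DecidableEq Ω] in
/-- The adjacency matrix of the orbital of `(a, b)`. -/
theorem exists_orbital [MulAction.IsPretransitive G Ω] {a b : Ω} (hab : b ≠ a) :
    ∃ A : Matrix Ω Ω ℕ, (∀ x y, A x y ≤ 1) ∧ (∀ (g : G) x y, A (g • x) (g • y) = A x y) ∧ (∀ x, A x x = 0) ∧
      (∀ y, A a y = 1 ↔ y ∈ MulAction.orbit (MulAction.stabilizer G a) b) ∧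
      (∀ x, ∑ y, A x y = Nat.card (MulAction.orbit (MulAction.stabilizer G a) b)) ∧
      ∀ y, ∑ x, A x y = Nat.card (MulAction.orbit (MulAction.stabilizer G a) b) := by
  classical
  let O := MulAction.orbit G (a, b)
  let A : Matrix Ω Ω ℕ := Matrix.of fun x y => if (x, y) ∈ O then 1 else 0
  have hA : ∀ x y, A x y = if (x, y) ∈ O then 1 else 0 := fun _ _ => rfl
  have hinv : ∀ (g : G) x y, A (g • x) (g • y) = A x y := by
    intro g x y
    have e : ((g • x, g • y) : Ω × Ω) ∈ O ↔ (x, y) ∈ O := by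
      constructor
      · rintro ⟨h, hh⟩
        refine ⟨g⁻¹ * h, ?_⟩
        simp only at hh ⊢
        rw [mul_smul, hh, Prod.smul_mk, inv_smul_smul, inv_smul_smul]
      · rintro ⟨h, hh⟩
        refine ⟨g * h, ?_⟩
        simp only at hh ⊢
        rw [mul_smul, hh, Prod.smul_mk]
    simp [hA, e]
  have horb : ∀ y, A a y = 1 ↔ y ∈ MulAction.orbit (MulAction.stabilizer G a) b := by
    intro y
    rw [hA]
    constructor
    · intro h
      split_ifs at h with h1
      obtain ⟨g, hg⟩ := h1
      exact ⟨⟨g, congrArg Prod.fst hg⟩, congrArg Prod.snd hg⟩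
    · rintro ⟨g, rfl⟩
      rw [if_pos]
      exact ⟨g, Prod.ext g.2 rfl⟩
  have hrow : ∀ x, ∑ y, A x y = Nat.card (MulAction.orbit (MulAction.stabilizer G a) b) := by
    intro x
    obtain ⟨g, rfl⟩ := MulAction.exists_smul_eq G a x
    rw [← Fintype.sum_equiv (MulAction.toPerm g) (fun y => A a y) (fun y => A (g • a) y)
      (fun y => (hinv g a y).symm), Nat.card_eq_card_toFinset]
    rw [Finset.card_eq_sum_ones, ← Finset.sum_filter_of_ne (p := fun y => A a y = 1) (fun y _ h => ?_)]
    · exact Finset.sum_congr (by ext y; simp [horb]) (fun y hy => by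
        rw [Set.mem_toFinset] at hy
        exact (horb y).2 hy)
    · rw [hA] at h ⊢
      split_ifs at h ⊢ with h1
      · rfl
      · exact absurd rfl h
  refine ⟨A, fun x y => by rw [hA]; split_ifs <;> omega, hinv, fun x => ?_, horb, hrow, fun y => ?_⟩
  · rw [hA, if_neg]
    rintro ⟨g, hg⟩
    exact hab (MulAction.injective g ((congrArg Prod.snd hg).trans (congrArg Prod.fst hg).symm))
  · have hconst : ∀ y', ∑ x, A x y' = ∑ x, A x y := by
      intro y'
      obtain ⟨g, rfl⟩ := MulAction.exists_smul_eq G y y'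
      exact (Fintype.sum_equiv (MulAction.toPerm g) (fun x => A x y) (fun x => A x (g • y))
        (fun x => (hinv g x y).symm)).symm
    have h := Finset.sum_comm (s := Finset.univ) (t := Finset.univ) (f := fun x y => A x y)
    simp only [hrow, hconst, Finset.sum_const, Finset.card_univ, smul_eq_mul] at h
    exact (Nat.eq_of_mul_eq_mul_left (Fintype.card_pos_iff.2 ⟨y⟩) h).symm

end Cfsg.Agent.H37.Orb
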